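import Mathlib
import Cfsg.Prelude.Def_GeometricClasses
import Cfsg.Agent.H95.PairSp

set_option autoImplicit false

/-!
# S5665 team project (helper86): the normaliser of a quadratic field `K` of unitary type is
maximal in `Sp_2m(q)`, `q` odd.  Shared definitions and the piece statements (`St*`).

Setting: `V = Fin m ⊕ Fin m → F`, `f = sympForm m F`, `J` a matrix with `J² = -δ`,
`f (J x) y = - f x (J y)`, and `s² + δ ≠ 0` for all `s` (so `K = F + F J` is a field and the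
adjoint is the non-trivial automorphism).  `psi J x = f x (J x)` is the "norm form"; `x` is
*good* when `psi J x ≠ 0` (then `span {x, J x}` is a non-degenerate `K`-line).
-/

namespace Cfsg.Agent.H86.Gs

open Cfsg Cfsg.Geo Cfsg.Agent.H95
open scoped MatrixGroups Matrix

universe u

/-- The space `F^(2m)`. -/
abbrev V (m : ℕ) (F : Type*) := Fin m ⊕ Fin m → F

/-- The `2m × 2m` matrices. -/
abbrev Mat (m : ℕ) (F : Type*) := Matrix (Fin m ⊕ Fin m) (Fin m ⊕ Fin m) F

section Defs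

variable {m : ℕ} {F : Type*} [Field F]

/-- `J` is a skew complex structure with `J² = -δ` and `s² + δ` never zero; characteristic
not two. -/
structure Ctx (J : Mat m F) (δ : F) : Prop where
  two : (2 : F) ≠ 0
  sq : ∀ x : V m F, J *ᵥ (J *ᵥ x) = -(δ • x)
  skew : ∀ x y : V m F, sympForm m F (J *ᵥ x) y = - sympForm m F x (J *ᵥ y)
  irr : ∀ s : F, s * s + δ ≠ 0

/-- The norm form `psi x = f x (J x)`. -/
def psi (J : Mat m F) (x : V m F) : F := sympForm m F x (J *ᵥ x)

/-- The projection onto the `K`-line of a good vector `e` along its `K`-orthogonal complement: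
`proj e x = (f x (J e) • e - f x e • J e) / psi e`. -/
def proj (J : Mat m F) (e x : V m F) : V m F :=
  (psi J e)⁻¹ • (sympForm m F x (J *ᵥ e) • e - sympForm m F x e • (J *ᵥ e))

/-- The torus map: multiplication by `α + β J` on the `K`-line of `e`, identity on its
`K`-orthogonal complement: `tor e α β x = x + (α - 1) • proj e x + β • J (proj e x)`. -/
def tor (J : Mat m F) (e : V m F) (α β : F) (x : V m F) : V m F :=
  x + ((α - 1) • proj J e x + β • (J *ᵥ proj J e x))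

/-- `M` contains every element of `GL` acting as a torus map (`psi e ≠ 0`, `α² + δ β² = 1`). -/
def HasTor (J : Mat m F) (δ : F) (M : Subgroup (GL (Fin m ⊕ Fin m) F)) : Prop :=
  ∀ (e : V m F) (α β : F), psi J e ≠ 0 → α * α + δ * β * β = 1 →
    ∀ c : GL (Fin m ⊕ Fin m) F, (∀ x : V m F, (c : Mat m F) *ᵥ x = tor J e α β x) → c ∈ M

namespace Ctx

variable {J : Mat m F} {δ : F}

lemma delta_ne (C : Ctx J δ) : δ ≠ 0 := by
  have := C.irr 0
  simpa using this

lemma skew' (C : Ctx J δ) (x y : V m F) :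
    sympForm m F x (J *ᵥ y) = - sympForm m F (J *ᵥ x) y := by
  rw [C.skew, neg_neg]

/-- `f (J x) (J y) = δ f x y`. -/
lemma formJJ (C : Ctx J δ) (x y : V m F) :
    sympForm m F (J *ᵥ x) (J *ᵥ y) = δ * sympForm m F x y := by
  rw [C.skew, C.sq, show -(δ • y) = (-δ) • y by rw [neg_smul], sympForm_smul_right]
  ring

lemma J_add (J : Mat m F) (x y : V m F) : J *ᵥ (x + y) = J *ᵥ x + J *ᵥ y := Matrix.mulVec_add _ _ _

lemma J_smul (J : Mat m F) (c : F) (x : V m F) : J *ᵥ (c • x) = c • (J *ᵥ x) :=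
  Matrix.mulVec_smul _ _ _

/-- `psi (a x + b J x) = (a² + δ b²) psi x`. -/
lemma psi_comb (C : Ctx J δ) (a b : F) (x : V m F) :
    psi J (a • x + b • (J *ᵥ x)) = (a * a + δ * b * b) * psi J x := by
  have hJ2 : J *ᵥ (J *ᵥ x) = (-δ) • x := by rw [C.sq, neg_smul]
  have h3 : sympForm m F (J *ᵥ x) x = - sympForm m F x (J *ᵥ x) := sympForm_skew _ _
  unfold psi
  rw [Matrix.mulVec_add, Matrix.mulVec_smul, Matrix.mulVec_smul, hJ2]
  simp only [sympForm_add_left, sympForm_add_right, sympForm_smul_left, sympForm_smul_right,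
    sympForm_self, h3]
  ring

/-- `x` and `J x` are independent for `x ≠ 0`. -/
lemma indep (C : Ctx J δ) {x : V m F} (hx : x ≠ 0) {a b : F}
    (h : a • x + b • (J *ᵥ x) = 0) : a = 0 ∧ b = 0 := by
  have hJ : J *ᵥ (a • x + b • (J *ᵥ x)) = 0 := by rw [h, Matrix.mulVec_zero]
  rw [Matrix.mulVec_add, Matrix.mulVec_smul, Matrix.mulVec_smul, C.sq] at hJ
  -- a x + b Jx = 0 and a Jx - b δ x = 0  ⟹  (a² + δ b²) x = 0
  have key : (a * a + δ * b * b) • x = 0 := by
    have e : (a * a + δ * b * b) • x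
        = a • (a • x + b • (J *ᵥ x)) - b • (a • (J *ᵥ x) + b • -(δ • x)) := by
      module
    rw [e, h, hJ, smul_zero, smul_zero, sub_zero]
  rcases smul_eq_zero.mp key with h0 | h0
  · by_cases hb : b = 0
    · subst hb
      simp only [mul_zero, add_zero] at h0
      exact ⟨by simpa using h0, rfl⟩
    · exfalso
      have := C.irr (a / b)
      apply this
      field_simp
      linear_combination h0
  · exact absurd h0 hx

end Ctx

end Defs

/-! ## The piece statements -/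

/-- GS-EXT: the structure `(J, δ)` extracted from the hypotheses of S5665. -/
def StExt : Prop :=
  ∀ {m : ℕ} {F : Type u} [Field F] [Fintype F], Odd (Fintype.card F) →
    ∀ K : Subalgebra F (Mat m F), Cfsg.Geo.IsFieldSubalgebra 2 K →
      Cfsg.Geo.IsAdjointClosedFor (sympForm m F) K →
      ¬ Cfsg.Geo.IsSelfAdjointFor (sympForm m F) K →
      ∃ (J : Mat m F) (δ : F), Ctx J δ ∧
        ∀ k : Mat m F, k ∈ K ↔ ∃ a b : F, k = a • (1 : Mat m F) + b • J

/-- GS-NORM: `g J g⁻¹ ∈ K` and `g⁻¹ J g ∈ K` put `g` in the normaliser of `K = F + F J`. -/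
def StNorm : Prop :=
  ∀ {m : ℕ} {F : Type u} [Field F] (K : Subalgebra F (Mat m F)) (J : Mat m F),
    (∀ k : Mat m F, k ∈ K ↔ ∃ a b : F, k = a • (1 : Mat m F) + b • J) →
    ∀ g : GL (Fin m ⊕ Fin m) F,
      (g : Mat m F) * J * ((g⁻¹ : GL (Fin m ⊕ Fin m) F) : Mat m F) ∈ K →
      ((g⁻¹ : GL (Fin m ⊕ Fin m) F) : Mat m F) * J * (g : Mat m F) ∈ K →
      g ∈ Cfsg.Geo.subalgebraNormalizer K

/-- GS-TOR: the torus maps are symplectic and commute with `J`. -/
def StTor : Prop :=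
  ∀ {m : ℕ} {F : Type u} [Field F] (J : Mat m F) (δ : F), Ctx J δ →
    ∀ (e : V m F) (α β : F), psi J e ≠ 0 → α * α + δ * β * β = 1 →
      ∃ c : GL (Fin m ⊕ Fin m) F, c ∈ spGL m F ∧ (c : Mat m F) * J = J * (c : Mat m F) ∧
        ∀ x : V m F, (c : Mat m F) *ᵥ x = tor J e α β x

/-- GS-HEIS: the Heisenberg formula.  `c` lives on the hyperbolic plane `span {p, a}`
(`f p a = 1`), `n` fixes `p` and moves `a` to `a - z` with `z ⊥ p, a`; then
`n c n⁻¹ c⁻¹ = spS z (p - c p) (f p (c p))`, where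
`spS z w γ x = x + f x w • z + f x z • w + (γ * f x z) • z` (helper95, `H95.spS`). -/
def StHeis : Prop :=
  ∀ {m : ℕ} {F : Type u} [Field F] (p a z : V m F) (c n : GL (Fin m ⊕ Fin m) F),
    c ∈ spGL m F → n ∈ spGL m F →
    sympForm m F p a = 1 → sympForm m F z p = 0 → sympForm m F z a = 0 →
    (∀ x : V m F, (c : Mat m F) *ᵥ x = x + sympForm m F x a • ((c : Mat m F) *ᵥ p - p)
      - sympForm m F x p • ((c : Mat m F) *ᵥ a - a)) →
    (∃ r s : F, (c : Mat m F) *ᵥ p = r • p + s • a) →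
    (∃ r s : F, (c : Mat m F) *ᵥ a = r • p + s • a) →
    (n : Mat m F) *ᵥ p = p → (n : Mat m F) *ᵥ a = a - z →
    ∀ x : V m F, ((n * c * n⁻¹ * c⁻¹ : GL (Fin m ⊕ Fin m) F) : Mat m F) *ᵥ x
      = spS z (p - (c : Mat m F) *ᵥ p) (sympForm m F p ((c : Mat m F) *ᵥ p)) x

/-- GS-ADD: an additive subgroup of a finite field of odd characteristic containing all
`C / (t² + δ)` is everything. -/
def StAdd : Prop :=
  ∀ {F : Type u} [Field F] [Fintype F], (2 : F) ≠ 0 → ∀ δ C : F, (∀ s : F, s * s + δ ≠ 0) →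
    C ≠ 0 → ∀ S : AddSubgroup F, (∀ t : F, C / (t * t + δ) ∈ S) → S = ⊤

/-- GS-GOOD: every vector `K`-orthogonal to `u` is a sum of two good vectors `K`-orthogonal
to `u` (with `u = 0`: every vector is a sum of two good vectors). -/
def StGood : Prop :=
  ∀ {m : ℕ} {F : Type u} [Field F] (J : Mat m F) (δ : F), Ctx J δ → 3 ≤ m →
    ∀ u y : V m F, sympForm m F y u = 0 → sympForm m F y (J *ᵥ u) = 0 →
      ∃ y₁ y₂ : V m F, psi J y₁ ≠ 0 ∧ psi J y₂ ≠ 0 ∧
        sympForm m F y₁ u = 0 ∧ sympForm m F y₁ (J *ᵥ u) = 0 ∧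
        sympForm m F y₂ u = 0 ∧ sympForm m F y₂ (J *ᵥ u) = 0 ∧ y = y₁ + y₂

/-- GS-Z: the key step.  If `M ≤ Sp` contains the torus maps, `g ∈ M`, `e`, `e₁` are good and
`g e` is `K`-orthogonal to `e₁`, then the projection of `g (J e)` to the `K`-line of `e₁` is
the centre of a full transvection group in `M`. -/
def StZ : Prop :=
  ∀ {m : ℕ} {F : Type u} [Field F] [Fintype F] (J : Mat m F) (δ : F), Ctx J δ →
    ∀ M : Subgroup (GL (Fin m ⊕ Fin m) F), M ≤ spGL m F → HasTor J δ M →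
    ∀ g ∈ M, ∀ e e₁ : V m F, psi J e ≠ 0 → psi J e₁ ≠ 0 →
      sympForm m F ((g : Mat m F) *ᵥ e) e₁ = 0 →
      sympForm m F ((g : Mat m F) *ᵥ e) (J *ᵥ e₁) = 0 →
      proj J e₁ ((g : Mat m F) *ᵥ (J *ᵥ e)) ∈ transvCenters M

/-- GS-SPAN: if `v` is orthogonal to every good vector that is `K`-orthogonal to `u`, then
`v ∈ span {u, J u}`. -/
def StSpan : Prop :=
  ∀ {m : ℕ} {F : Type u} [Field F] (J : Mat m F) (δ : F), Ctx J δ → 3 ≤ m →
    ∀ u v : V m F,
      (∀ e₁ : V m F, psi J e₁ ≠ 0 → sympForm m F u e₁ = 0 → sympForm m F u (J *ᵥ e₁) = 0 →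
        sympForm m F v e₁ = 0) →
      ∃ a b : F, v = a • u + b • (J *ᵥ u)

/-- GS-SEMI: a matrix preserving every good `K`-line lies in `K`. -/
def StSemi : Prop :=
  ∀ {m : ℕ} {F : Type u} [Field F] (J : Mat m F) (δ : F), Ctx J δ → 3 ≤ m →
    ∀ A : Mat m F,
      (∀ e : V m F, psi J e ≠ 0 → ∃ a b : F, A *ᵥ e = a • e + b • (J *ᵥ e)) →
      ∃ a b : F, A = a • (1 : Mat m F) + b • J

/-- GS-PROP: one good transvection centre spreads to all vectors. -/
def StProp : Prop :=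
  ∀ {m : ℕ} {F : Type u} [Field F] (J : Mat m F) (δ : F), Ctx J δ → 3 ≤ m →
    ∀ M : Subgroup (GL (Fin m ⊕ Fin m) F), M ≤ spGL m F → HasTor J δ M →
    ∀ z : V m F, psi J z ≠ 0 → z ∈ transvCenters M → ∀ v : V m F, v ∈ transvCenters M

/-- GS-PROPER: a non-trivial transvection does not normalise `K`. -/
def StProper : Prop :=
  ∀ {m : ℕ} {F : Type u} [Field F] (J : Mat m F) (δ : F), Ctx J δ → 2 ≤ m →
    ∀ K : Subalgebra F (Mat m F),
      (∀ k : Mat m F, k ∈ K ↔ ∃ a b : F, k = a • (1 : Mat m F) + b • J) →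
      ∀ v : V m F, v ≠ 0 → sympTransv v 1 ∉ Cfsg.Geo.subalgebraNormalizer K

end Cfsg.Agent.H86.Gs
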