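import Mathlib
import Cfsg.Agent.H95.OhDefs

/-!
# EV2 (helper86): the `r = 2` part of the even-dimensional orthogonal `m`-space rows

Shared library for S5973, S5987, S5989, S5991 (and the other even-dimensional rows): elements `x`
of `Ω^±_{2d}(q)`, `q` odd, with `x ^ 2` scalar, i.e. involutions (`x * x = 1`) and the projective
involutions `x * x = -1`.

Conventions as in `H14/OtDefs` and `H95/OhDefs`: abstract statements are phrased with a symmetric
bilinear form `B : V →ₗ[F] V →ₗ[F] F`, helper45's `perp B W` (`W` nondegenerate iff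
`W ⊓ perp B W = ⊥`), helper42's `TI B U`, helper95's `Plus B W`.
-/

set_option autoImplicit false

namespace Cfsg.Agent.H86.Ev2

open Cfsg.Agent.H45 Cfsg.Agent.H42.Spd Cfsg.Agent.H42.Ti Cfsg.Agent.H14.Ot Cfsg.Agent.H95.Oh Module

universe u v

section Basic

variable {F : Type u} [Field F] {V : Type v} [AddCommGroup V] [Module F V]

/-- An orthogonal family of nonsingular vectors. -/
def OrthoFam (B : V →ₗ[F] V →ₗ[F] F) {n : ℕ} (w : Fin n → V) : Prop :=
  (∀ a b, a ≠ b → B (w a) (w b) = 0) ∧ ∀ a, B (w a) (w a) ≠ 0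

end Basic

/-! ## Generic: orthogonal families, discriminant classes -/

/-- EV2-SPANND: an orthogonal family of nonsingular vectors is linearly independent and spans a
nondegenerate subspace. -/
def StSpanNd : Prop :=
  ∀ (F : Type u) [Field F] (V : Type v) [AddCommGroup V] [Module F V] [FiniteDimensional F V]
    (B : V →ₗ[F] V →ₗ[F] F), (∀ x y, B x y = B y x) → ∀ (n : ℕ) (w : Fin n → V), OrthoFam B w →
    LinearIndependent F w ∧ Module.finrank F ↥(Submodule.span F (Set.range w)) = n ∧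
      Submodule.span F (Set.range w) ⊓ perp B (Submodule.span F (Set.range w)) = ⊥

/-- EV2-ISOGEN: over a finite field of odd characteristic, the spans of two orthogonal families
of `n` nonsingular vectors whose discriminants lie in the same square class are isometric. -/
def StIsoGen : Prop :=
  ∀ (F : Type u) [Field F] [Fintype F] (V : Type v) [AddCommGroup V] [Module F V]
    [FiniteDimensional F V] (B : V →ₗ[F] V →ₗ[F] F), (2 : F) ≠ 0 → (∀ x y, B x y = B y x) →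
    ∀ (n : ℕ) (w w' : Fin n → V), OrthoFam B w → OrthoFam B w' →
    IsSquare ((∏ a, B (w a) (w a)) * ∏ a, B (w' a) (w' a)) →
    ∃ e : ↥(Submodule.span F (Set.range w)) ≃ₗ[F] ↥(Submodule.span F (Set.range w')),
      ∀ x y, B (e x : V) (e y : V) = B (x : V) (y : V)

/-- EV2-DISCINV: conversely, if the spans of two orthogonal families of nonsingular vectors are
isometric, their discriminants lie in the same square class. -/
def StDiscInv : Prop :=
  ∀ (F : Type u) [Field F] (V : Type v) [AddCommGroup V] [Module F V]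
    [FiniteDimensional F V] (B : V →ₗ[F] V →ₗ[F] F), (∀ x y, B x y = B y x) →
    ∀ (n : ℕ) (w w' : Fin n → V), OrthoFam B w → OrthoFam B w' →
    (∃ e : ↥(Submodule.span F (Set.range w)) ≃ₗ[F] ↥(Submodule.span F (Set.range w')),
      ∀ x y, B (e x : V) (e y : V) = B (x : V) (y : V)) →
    IsSquare ((∏ a, B (w a) (w a)) * ∏ a, B (w' a) (w' a))

/-! ## Generic: isometries with `T * T = -1` -/

/-- EV2-JEVEN: if `-1` is not a square, every subspace invariant under a `T` with `T * T = -1`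
has even dimension. -/
def StJEven : Prop :=
  ∀ (F : Type u) [Field F] (V : Type v) [AddCommGroup V] [Module F V] [FiniteDimensional F V]
    (T : Module.End F V), T * T = -1 → ¬ IsSquare (-1 : F) →
    ∀ W : Submodule F V, W ∈ T.invtSubmodule → Even (Module.finrank F W)

/-- EV2-JEIG: if `-1` is a square and `T` is an isometry with `T * T = -1`, then every invariant
NONDEGENERATE subspace has even dimension, and there are invariant totally isotropic subspaces of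
every dimension `j ≤ dim V / 2` (subspaces of an eigenspace). -/
def StJEig : Prop :=
  ∀ (F : Type u) [Field F] (V : Type v) [AddCommGroup V] [Module F V] [FiniteDimensional F V]
    (B : V →ₗ[F] V →ₗ[F] F) (T : Module.End F V), (2 : F) ≠ 0 → IsSquare (-1 : F) →
    (∀ x y, B x y = B y x) → (∀ x, (∀ y, B x y = 0) → x = 0) →
    (∀ x y, B (T x) (T y) = B x y) → T * T = -1 →
    (∀ W : Submodule F V, W ∈ T.invtSubmodule → W ⊓ perp B W = ⊥ →
      Even (Module.finrank F W)) ∧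
    (∀ j : ℕ, 2 * j ≤ Module.finrank F V →
      ∃ W : Submodule F V, W ∈ T.invtSubmodule ∧ TI B W ∧ Module.finrank F W = j)

/-- EV2-JTS: if `-1` is not a square and `T` is an isometry with `T * T = -1`, there are
invariant totally isotropic subspaces of every even dimension `2 j` with `4 j ≤ dim V`. -/
def StJTs : Prop :=
  ∀ (F : Type u) [Field F] [Fintype F] (V : Type v) [AddCommGroup V] [Module F V]
    [FiniteDimensional F V] (B : V →ₗ[F] V →ₗ[F] F) (T : Module.End F V), (2 : F) ≠ 0 →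
    ¬ IsSquare (-1 : F) →
    (∀ x y, B x y = B y x) → (∀ x, (∀ y, B x y = 0) → x = 0) →
    (∀ x y, B (T x) (T y) = B x y) → T * T = -1 →
    ∀ j : ℕ, 4 * j ≤ Module.finrank F V →
      ∃ W : Submodule F V, W ∈ T.invtSubmodule ∧ TI B W ∧ Module.finrank F W = 2 * j

/-! ## Generic: involutions `T * T = 1` -/

/-- EV2-INVODD: an isometry with `T * T = 1` fixes the span of `m` pairwise orthogonal
nonsingular vectors with prescribed discriminant class (any `1 ≤ m < dim V`). -/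
def StInvOdd : Prop :=
  ∀ (F : Type u) [Field F] [Fintype F] (V : Type v) [AddCommGroup V] [Module F V]
    [FiniteDimensional F V] (B : V →ₗ[F] V →ₗ[F] F) (T : Module.End F V), (2 : F) ≠ 0 →
    (∀ x y, B x y = B y x) → (∀ x, (∀ y, B x y = 0) → x = 0) →
    (∀ x y, B (T x) (T y) = B x y) → T * T = 1 →
    ∀ (m : ℕ) (δ : F), 1 ≤ m → m + 1 ≤ Module.finrank F V → 4 ≤ Module.finrank F V → δ ≠ 0 →
    ∃ w : Fin m → V, OrthoFam B w ∧ IsSquare (δ * ∏ a, B (w a) (w a)) ∧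
      Submodule.span F (Set.range w) ∈ T.invtSubmodule

/-- EV2-INVLOWE: in dimension `2 d`, an isometry with `T * T = 1` fixes a totally isotropic
`m`-space for every `m ≤ d - 2`. -/
def StInvLowE : Prop :=
  ∀ (F : Type u) [Field F] [Fintype F] (V : Type v) [AddCommGroup V] [Module F V]
    [FiniteDimensional F V] (B : V →ₗ[F] V →ₗ[F] F) (T : Module.End F V), (2 : F) ≠ 0 →
    (∀ x y, B x y = B y x) → (∀ x, (∀ y, B x y = 0) → x = 0) →
    (∀ x y, B (T x) (T y) = B x y) → T * T = 1 →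
    ∀ d m : ℕ, Module.finrank F V = 2 * d → m + 2 ≤ d →
    ∃ W : Submodule F V, W ∈ T.invtSubmodule ∧ TI B W ∧ Module.finrank F W = m

/-- EV2-INVMINUS: if the space (of dimension `2 d`) is NOT of plus type, an isometry with
`T * T = 1` fixes a totally isotropic `m`-space for every `m ≤ d - 1`. -/
def StInvMinus : Prop :=
  ∀ (F : Type u) [Field F] [Fintype F] (V : Type v) [AddCommGroup V] [Module F V]
    [FiniteDimensional F V] (B : V →ₗ[F] V →ₗ[F] F) (T : Module.End F V), (2 : F) ≠ 0 →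
    (∀ x y, B x y = B y x) → (∀ x, (∀ y, B x y = 0) → x = 0) →
    (∀ x y, B (T x) (T y) = B x y) → T * T = 1 → ¬ Plus B ⊤ →
    ∀ d m : ℕ, Module.finrank F V = 2 * d → m + 1 ≤ d →
    ∃ W : Submodule F V, W ∈ T.invtSubmodule ∧ TI B W ∧ Module.finrank F W = m

/-! ## Spinor norm statements (matrix model, `Q : QuadraticForm F (ι → F)`) -/

/-- EV2-JPLANES: an isometry `x` with `x * x = -1` decomposes the space into pairwise orthogonal
planes `⟨v j, x v j⟩`, `v j` nonsingular. -/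
def StJPlanes : Prop :=
  ∀ (F : Type u) [Field F] (ι : Type) [Fintype ι] [DecidableEq ι] (Q : QuadraticForm F (ι → F)),
    (2 : F) ≠ 0 → (∀ x, (∀ y, QuadraticMap.polar ⇑Q x y = 0) → x = 0) →
    ∀ x : Matrix.GeneralLinearGroup ι F, x ∈ Cfsg.isometryGroup F ⇑Q →
    (x : Matrix ι ι F) * (x : Matrix ι ι F) = -1 →
    ∃ (n : ℕ) (v : Fin n → ι → F), Fintype.card ι = 2 * n ∧ (∀ j, Q (v j) ≠ 0) ∧
      (∀ j k, j ≠ k → QuadraticMap.polar ⇑Q (v j) (v k) = 0 ∧
        QuadraticMap.polar ⇑Q (v j) ((x : Matrix ι ι F).mulVec (v k)) = 0) ∧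
      (⨆ j, Submodule.span F {v j, (x : Matrix ι ι F).mulVec (v j)}) = ⊤

/-- EV2-JSPIN: an isometry `x` with `x * x = -1` lies in `Ω` iff `2 ^ (dim / 2)` is a square. -/
def StJSpin : Prop :=
  ∀ (F : Type u) [Field F] [Fintype F] (ι : Type) [Fintype ι] [DecidableEq ι]
    (Q : QuadraticForm F (ι → F)),
    (2 : F) ≠ 0 → (∀ x, (∀ y, QuadraticMap.polar ⇑Q x y = 0) → x = 0) →
    ∀ x : Matrix.GeneralLinearGroup ι F, x ∈ Cfsg.isometryGroup F ⇑Q →
    (x : Matrix ι ι F) * (x : Matrix ι ι F) = -1 →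
    (x ∈ Cfsg.Geo.omegaGL ⇑Q ↔ IsSquare ((2 : F) ^ (Fintype.card ι / 2)))

/-- EV2-JGRAM: if some isometry `x` has `x * x = -1`, the Gram determinant of the polar form in
the standard basis is a square. -/
def StJGram : Prop :=
  ∀ (F : Type u) [Field F] (ι : Type) [Fintype ι] [DecidableEq ι] (Q : QuadraticForm F (ι → F)),
    (2 : F) ≠ 0 → (∀ x, (∀ y, QuadraticMap.polar ⇑Q x y = 0) → x = 0) →
    ∀ x : Matrix.GeneralLinearGroup ι F, x ∈ Cfsg.isometryGroup F ⇑Q →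
    (x : Matrix ι ι F) * (x : Matrix ι ι F) = -1 →
    IsSquare (Matrix.det (Matrix.of fun i j : ι =>
      QuadraticMap.polar ⇑Q (Pi.single i (1 : F)) (Pi.single j (1 : F))))

/-- EV2-INVSQ: if `-1` is a square and the space (dimension `2 d`) has a totally singular
`d`-space, every `x ∈ Ω` with `x ^ 2 = 1` fixes a totally singular `m`-space for all `m ≤ d`. -/
def StInvSq : Prop :=
  ∀ (F : Type u) [Field F] [Fintype F] (ι : Type) [Fintype ι] [DecidableEq ι]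
    (Q : QuadraticForm F (ι → F)),
    (2 : F) ≠ 0 → IsSquare (-1 : F) → (∀ x, (∀ y, QuadraticMap.polar ⇑Q x y = 0) → x = 0) →
    ∀ d : ℕ, Fintype.card ι = 2 * d →
    (∃ U : Submodule F (ι → F), (∀ u ∈ U, Q u = 0) ∧ Module.finrank F U = d) →
    ∀ x : Matrix.GeneralLinearGroup ι F, x ∈ Cfsg.Geo.omegaGL ⇑Q → x ^ 2 = 1 →
    ∀ m : ℕ, m ≤ d → ∃ W : Submodule F (ι → F), Module.finrank F W = m ∧ (∀ w ∈ W, Q w = 0) ∧
      W.map (Matrix.toLin' (x : Matrix ι ι F)) ≤ W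

/-! ## The standard plus space `quadFormPlus d F` -/

/-- EV2-BRP: the polar form of `quadFormPlus d F` as a bilinear form, and the translation of the
notions of the frozen statements. -/
def StBrP : Prop :=
  ∀ (F : Type u) [Field F] [Fintype F] (d : ℕ), (2 : F) ≠ 0 →
    ∃ B : (Fin d ⊕ Fin d → F) →ₗ[F] (Fin d ⊕ Fin d → F) →ₗ[F] F,
      (∀ x y, B x y = QuadraticMap.polar (Cfsg.quadFormPlus d F) x y) ∧
      (∀ x y, B x y = B y x) ∧ (∀ x, (∀ y, B x y = 0) → x = 0) ∧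
      (∀ x, B x x = 2 * Cfsg.quadFormPlus d F x) ∧
      (∀ W : Submodule F (Fin d ⊕ Fin d → F),
        Cfsg.Geo.IsNondegenerateOn (QuadraticMap.polar (Cfsg.quadFormPlus d F)) W ↔
          W ⊓ perp B W = ⊥) ∧
      Plus B ⊤ ∧
      (∀ g : Matrix.GeneralLinearGroup (Fin d ⊕ Fin d) F,
        g ∈ Cfsg.isometryGroup F (Cfsg.quadFormPlus d F) ↔
          ∀ x y, B (Matrix.toLin' (g : Matrix (Fin d ⊕ Fin d) (Fin d ⊕ Fin d) F) x)
            (Matrix.toLin' (g : Matrix (Fin d ⊕ Fin d) (Fin d ⊕ Fin d) F) y) = B x y)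

/-- EV2-NOPLUS: for `d` odd and `-1` a nonsquare, no isometry of the plus space squares to
`-1`. -/
def StNoPlus : Prop :=
  ∀ (F : Type u) [Field F] [Fintype F] (d : ℕ), (2 : F) ≠ 0 → Odd d → ¬ IsSquare (-1 : F) →
    ∀ x : Matrix.GeneralLinearGroup (Fin d ⊕ Fin d) F,
    x ∈ Cfsg.isometryGroup F (Cfsg.quadFormPlus d F) →
    (x : Matrix (Fin d ⊕ Fin d) (Fin d ⊕ Fin d) F) *
      (x : Matrix (Fin d ⊕ Fin d) (Fin d ⊕ Fin d) F) ≠ -1

/-- EV2-EXJPLUS: for `d` even, or `-1` a square, some isometry of the plus space squares to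
`-1`. -/
def StExJPlus : Prop :=
  ∀ (F : Type u) [Field F] (d : ℕ), (Even d ∨ IsSquare (-1 : F)) →
    ∃ x : Matrix.GeneralLinearGroup (Fin d ⊕ Fin d) F,
      x ∈ Cfsg.isometryGroup F (Cfsg.quadFormPlus d F) ∧
      (x : Matrix (Fin d ⊕ Fin d) (Fin d ⊕ Fin d) F) *
        (x : Matrix (Fin d ⊕ Fin d) (Fin d ⊕ Fin d) F) = -1

/-- EV2-INVEXP: if `-1` is not a square, some non-scalar involution of `Ω⁺_{2d}` fixes no
totally singular subspace of dimension `> d - 2`. -/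
def StInvExP : Prop :=
  ∀ (F : Type u) [Field F] [Fintype F] (d : ℕ), (2 : F) ≠ 0 → ¬ IsSquare (-1 : F) → 2 ≤ d →
    ∃ x : Matrix.GeneralLinearGroup (Fin d ⊕ Fin d) F,
      x ∈ Cfsg.Geo.omegaGL (Cfsg.quadFormPlus d F) ∧ x ^ 2 = 1 ∧
      (∀ z : F, (x : Matrix (Fin d ⊕ Fin d) (Fin d ⊕ Fin d) F) ≠
        z • (1 : Matrix (Fin d ⊕ Fin d) (Fin d ⊕ Fin d) F)) ∧
      ∀ W : Submodule F (Fin d ⊕ Fin d → F), (∀ w ∈ W, Cfsg.quadFormPlus d F w = 0) →
        W.map (Matrix.toLin' (x : Matrix (Fin d ⊕ Fin d) (Fin d ⊕ Fin d) F)) ≤ W →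
        Module.finrank F ↥W + 2 ≤ d

/-! ## The standard minus space `quadFormMinus n F a b` (dimension `2 n + 2`) -/

/-- EV2-BRM: the polar form of `quadFormMinus n F a b` as a bilinear form; the space is not of
plus type. -/
def StBrM : Prop :=
  ∀ (F : Type u) [Field F] [Fintype F] (n : ℕ) (a b : F), (2 : F) ≠ 0 →
    (∀ x y : F, x ^ 2 + a * x * y + b * y ^ 2 = 0 → x = 0 ∧ y = 0) →
    ∃ B : ((Fin n ⊕ Fin n) ⊕ Fin 2 → F) →ₗ[F] ((Fin n ⊕ Fin n) ⊕ Fin 2 → F) →ₗ[F] F,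
      (∀ x y, B x y = QuadraticMap.polar (Cfsg.quadFormMinus n F a b) x y) ∧
      (∀ x y, B x y = B y x) ∧ (∀ x, (∀ y, B x y = 0) → x = 0) ∧
      (∀ x, B x x = 2 * Cfsg.quadFormMinus n F a b x) ∧
      (∀ W : Submodule F ((Fin n ⊕ Fin n) ⊕ Fin 2 → F),
        Cfsg.Geo.IsNondegenerateOn (QuadraticMap.polar (Cfsg.quadFormMinus n F a b)) W ↔
          W ⊓ perp B W = ⊥) ∧
      ¬ Plus B ⊤ ∧
      (∀ g : Matrix.GeneralLinearGroup ((Fin n ⊕ Fin n) ⊕ Fin 2) F,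
        g ∈ Cfsg.isometryGroup F (Cfsg.quadFormMinus n F a b) ↔
          ∀ x y, B (Matrix.toLin'
              (g : Matrix ((Fin n ⊕ Fin n) ⊕ Fin 2) ((Fin n ⊕ Fin n) ⊕ Fin 2) F) x)
            (Matrix.toLin'
              (g : Matrix ((Fin n ⊕ Fin n) ⊕ Fin 2) ((Fin n ⊕ Fin n) ⊕ Fin 2) F) y) = B x y)

/-- EV2-NOMINUS: an isometry of the minus space squaring to `-1` exists only if `n` is even
(i.e. `d = n + 1` odd) and `-1` is a nonsquare. -/
def StNoMinus : Prop :=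
  ∀ (F : Type u) [Field F] [Fintype F] (n : ℕ) (a b : F), (2 : F) ≠ 0 →
    (∀ x y : F, x ^ 2 + a * x * y + b * y ^ 2 = 0 → x = 0 ∧ y = 0) →
    ∀ x : Matrix.GeneralLinearGroup ((Fin n ⊕ Fin n) ⊕ Fin 2) F,
    x ∈ Cfsg.isometryGroup F (Cfsg.quadFormMinus n F a b) →
    (x : Matrix ((Fin n ⊕ Fin n) ⊕ Fin 2) ((Fin n ⊕ Fin n) ⊕ Fin 2) F) *
      (x : Matrix ((Fin n ⊕ Fin n) ⊕ Fin 2) ((Fin n ⊕ Fin n) ⊕ Fin 2) F) = -1 →
    Even n ∧ ¬ IsSquare (-1 : F)

/-- EV2-EXJMINUS: for `n` even and `-1` a nonsquare, some isometry of the minus space squares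
to `-1`. -/
def StExJMinus : Prop :=
  ∀ (F : Type u) [Field F] [Fintype F] (n : ℕ) (a b : F), (2 : F) ≠ 0 →
    (∀ x y : F, x ^ 2 + a * x * y + b * y ^ 2 = 0 → x = 0 ∧ y = 0) →
    Even n → ¬ IsSquare (-1 : F) →
    ∃ x : Matrix.GeneralLinearGroup ((Fin n ⊕ Fin n) ⊕ Fin 2) F,
      x ∈ Cfsg.isometryGroup F (Cfsg.quadFormMinus n F a b) ∧
      (x : Matrix ((Fin n ⊕ Fin n) ⊕ Fin 2) ((Fin n ⊕ Fin n) ⊕ Fin 2) F) *
        (x : Matrix ((Fin n ⊕ Fin n) ⊕ Fin 2) ((Fin n ⊕ Fin n) ⊕ Fin 2) F) = -1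

/-! ## Unipotent isometries (`r = p`), for the rows on nondegenerate subspaces of odd dimension -/

/-- EV2-UNIP1: Jordan type `(2^d)`: no invariant nondegenerate subspace of odd dimension. -/
def StUnip1 : Prop :=
  ∀ (F : Type u) [Field F] (V : Type v) [AddCommGroup V] [Module F V] [FiniteDimensional F V]
    (B : V →ₗ[F] V →ₗ[F] F) (T : Module.End F V), (2 : F) ≠ 0 →
    (∀ x y, B x y = B y x) → (∀ x, (∀ y, B x y = 0) → x = 0) →
    (∀ x y, B (T x) (T y) = B x y) → (T - 1) * (T - 1) = 0 →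
    2 * Module.finrank F ↥(LinearMap.range (T - 1)) = Module.finrank F V →
    ∀ W : Submodule F V, W ∈ T.invtSubmodule → W ⊓ perp B W = ⊥ → Even (Module.finrank F W)

/-- EV2-UNIP2: Jordan type `(1, 1, 2^(d-1))`: an invariant nondegenerate subspace of odd
dimension has dimension `≡ 1 (mod 4)`. -/
def StUnip2 : Prop :=
  ∀ (F : Type u) [Field F] (V : Type v) [AddCommGroup V] [Module F V] [FiniteDimensional F V]
    (B : V →ₗ[F] V →ₗ[F] F) (T : Module.End F V), (2 : F) ≠ 0 →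
    (∀ x y, B x y = B y x) → (∀ x, (∀ y, B x y = 0) → x = 0) →
    (∀ x y, B (T x) (T y) = B x y) → (T - 1) * (T - 1) = 0 →
    2 * Module.finrank F ↥(LinearMap.range (T - 1)) + 2 = Module.finrank F V →
    ∀ W : Submodule F V, W ∈ T.invtSubmodule → W ⊓ perp B W = ⊥ →
      Odd (Module.finrank F W) → Module.finrank F W % 4 = 1

/-- EV2-UNIP3: Jordan type `(3, 3, 2^(d-3))`: an invariant nondegenerate subspace of odd
dimension has dimension `≡ 3 (mod 4)`. -/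
def StUnip3 : Prop :=
  ∀ (F : Type u) [Field F] (V : Type v) [AddCommGroup V] [Module F V] [FiniteDimensional F V]
    (B : V →ₗ[F] V →ₗ[F] F) (T : Module.End F V), (2 : F) ≠ 0 →
    (∀ x y, B x y = B y x) → (∀ x, (∀ y, B x y = 0) → x = 0) →
    (∀ x y, B (T x) (T y) = B x y) → (T - 1) ^ 3 = 0 →
    Module.finrank F ↥(LinearMap.range ((T - 1) * (T - 1))) = 2 →
    2 * Module.finrank F ↥(LinearMap.range (T - 1)) = Module.finrank F V + 2 →
    ∀ W : Submodule F V, W ∈ T.invtSubmodule → W ⊓ perp B W = ⊥ →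
      Odd (Module.finrank F W) → Module.finrank F W % 4 = 3

/-! ## Row-level statements: the `r = 2` line of each frozen criterion -/

/-- R2 for S5973 (plus type, totally singular `m`-spaces). -/
def StR2P73 : Prop :=
  ∀ (F : Type u) [Field F] [Fintype F] (d m : ℕ), Odd (Fintype.card F) → 4 ≤ d → 1 ≤ m → m < d →
    ((∀ x : Matrix.GeneralLinearGroup (Fin d ⊕ Fin d) F,
        x ∈ Cfsg.Geo.omegaGL (Cfsg.quadFormPlus d F) →
        (∃ z : F, ((x ^ 2 : Matrix.GeneralLinearGroup (Fin d ⊕ Fin d) F) :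
          Matrix (Fin d ⊕ Fin d) (Fin d ⊕ Fin d) F) =
            z • (1 : Matrix (Fin d ⊕ Fin d) (Fin d ⊕ Fin d) F)) →
        (∀ z : F, (x : Matrix (Fin d ⊕ Fin d) (Fin d ⊕ Fin d) F) ≠
          z • (1 : Matrix (Fin d ⊕ Fin d) (Fin d ⊕ Fin d) F)) →
        ∃ W : Submodule F (Fin d ⊕ Fin d → F), Module.finrank F ↥W = m ∧
          (∀ w ∈ W, Cfsg.quadFormPlus d F w = 0) ∧
          W.map (Matrix.toLin' (x : Matrix (Fin d ⊕ Fin d) (Fin d ⊕ Fin d) F)) ≤ W) ↔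
      (Fintype.card F % 4 = 1 ∨
        (Fintype.card F % 4 = 3 ∧ m + 2 ≤ d ∧ (Even m ∨ (2 * d) % 4 = 2))))

/-- R2 for S5987 (minus type, totally singular `m`-spaces; `d = n + 1`). -/
def StR2M87 : Prop :=
  ∀ (F : Type u) [Field F] [Fintype F] (n m : ℕ) (a b : F), Odd (Fintype.card F) → 3 ≤ n →
    1 ≤ m → m ≤ n →
    (∀ x y : F, x ^ 2 + a * x * y + b * y ^ 2 = 0 → x = 0 ∧ y = 0) →
    ((∀ x : Matrix.GeneralLinearGroup ((Fin n ⊕ Fin n) ⊕ Fin 2) F,
        x ∈ Cfsg.Geo.omegaGL (Cfsg.quadFormMinus n F a b) →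
        (∃ z : F, ((x ^ 2 : Matrix.GeneralLinearGroup ((Fin n ⊕ Fin n) ⊕ Fin 2) F) :
          Matrix ((Fin n ⊕ Fin n) ⊕ Fin 2) ((Fin n ⊕ Fin n) ⊕ Fin 2) F) =
            z • (1 : Matrix ((Fin n ⊕ Fin n) ⊕ Fin 2) ((Fin n ⊕ Fin n) ⊕ Fin 2) F)) →
        (∀ z : F, (x : Matrix ((Fin n ⊕ Fin n) ⊕ Fin 2) ((Fin n ⊕ Fin n) ⊕ Fin 2) F) ≠
          z • (1 : Matrix ((Fin n ⊕ Fin n) ⊕ Fin 2) ((Fin n ⊕ Fin n) ⊕ Fin 2) F)) →
        ∃ W : Submodule F ((Fin n ⊕ Fin n) ⊕ Fin 2 → F),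
          (Module.finrank F ↥W = m ∧
            Cfsg.Geo.IsTotallySingularQuad (Cfsg.quadFormMinus n F a b) W) ∧
          W.map (Matrix.toLin'
            (x : Matrix ((Fin n ⊕ Fin n) ⊕ Fin 2) ((Fin n ⊕ Fin n) ⊕ Fin 2) F)) ≤ W) ↔
      (Even (n + 1) ∨ Even m ∨ Fintype.card F % 8 ≠ 7))

/-- R2 for S5989 (plus type, nondegenerate `m`-spaces, `m` odd, isometric to `W₀`). -/
def StR2P89 : Prop :=
  ∀ (F : Type u) [Field F] [Fintype F] (d m : ℕ), Odd (Fintype.card F) → 4 ≤ d → Odd m → m < d →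
    ∀ W₀ : Submodule F (Fin d ⊕ Fin d → F),
    (Module.finrank F ↥W₀ = m ∧
      Cfsg.Geo.IsNondegenerateOn (QuadraticMap.polar (Cfsg.quadFormPlus d F)) W₀) →
    ((∀ x : Matrix.GeneralLinearGroup (Fin d ⊕ Fin d) F,
        x ∈ Cfsg.Geo.omegaGL (Cfsg.quadFormPlus d F) →
        (∃ z : F, ((x ^ 2 : Matrix.GeneralLinearGroup (Fin d ⊕ Fin d) F) :
          Matrix (Fin d ⊕ Fin d) (Fin d ⊕ Fin d) F) =
            z • (1 : Matrix (Fin d ⊕ Fin d) (Fin d ⊕ Fin d) F)) →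
        (∀ z : F, (x : Matrix (Fin d ⊕ Fin d) (Fin d ⊕ Fin d) F) ≠
          z • (1 : Matrix (Fin d ⊕ Fin d) (Fin d ⊕ Fin d) F)) →
        ∃ W : Submodule F (Fin d ⊕ Fin d → F),
          (Module.finrank F ↥W = m ∧
            Cfsg.Geo.IsNondegenerateOn (QuadraticMap.polar (Cfsg.quadFormPlus d F)) W ∧
            Cfsg.Geo.AreIsometricFor (Cfsg.quadFormPlus d F) W W₀) ∧
          W.map (Matrix.toLin' (x : Matrix (Fin d ⊕ Fin d) (Fin d ⊕ Fin d) F)) ≤ W) ↔
      (Odd d ∧ Fintype.card F % 8 ≠ 1))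

/-- R2 for S5991 (minus type, nondegenerate `m`-spaces, `m` odd, isometric to `W₀`;
`d = n + 1`). -/
def StR2M91 : Prop :=
  ∀ (F : Type u) [Field F] [Fintype F] (n m : ℕ) (a b : F), Odd (Fintype.card F) → 3 ≤ n →
    Odd m → m ≤ n →
    (∀ x y : F, x ^ 2 + a * x * y + b * y ^ 2 = 0 → x = 0 ∧ y = 0) →
    ∀ W₀ : Submodule F ((Fin n ⊕ Fin n) ⊕ Fin 2 → F),
    (Module.finrank F ↥W₀ = m ∧
      Cfsg.Geo.IsNondegenerateOn (QuadraticMap.polar (Cfsg.quadFormMinus n F a b)) W₀) →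
    ((∀ x : Matrix.GeneralLinearGroup ((Fin n ⊕ Fin n) ⊕ Fin 2) F,
        x ∈ Cfsg.Geo.omegaGL (Cfsg.quadFormMinus n F a b) →
        (∃ z : F, ((x ^ 2 : Matrix.GeneralLinearGroup ((Fin n ⊕ Fin n) ⊕ Fin 2) F) :
          Matrix ((Fin n ⊕ Fin n) ⊕ Fin 2) ((Fin n ⊕ Fin n) ⊕ Fin 2) F) =
            z • (1 : Matrix ((Fin n ⊕ Fin n) ⊕ Fin 2) ((Fin n ⊕ Fin n) ⊕ Fin 2) F)) →
        (∀ z : F, (x : Matrix ((Fin n ⊕ Fin n) ⊕ Fin 2) ((Fin n ⊕ Fin n) ⊕ Fin 2) F) ≠
          z • (1 : Matrix ((Fin n ⊕ Fin n) ⊕ Fin 2) ((Fin n ⊕ Fin n) ⊕ Fin 2) F)) →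
        ∃ W : Submodule F ((Fin n ⊕ Fin n) ⊕ Fin 2 → F),
          (Module.finrank F ↥W = m ∧
            Cfsg.Geo.IsNondegenerateOn (QuadraticMap.polar (Cfsg.quadFormMinus n F a b)) W ∧
            Cfsg.Geo.AreIsometricFor (Cfsg.quadFormMinus n F a b) W W₀) ∧
          W.map (Matrix.toLin'
            (x : Matrix ((Fin n ⊕ Fin n) ⊕ Fin 2) ((Fin n ⊕ Fin n) ⊕ Fin 2) F)) ≤ W) ↔
      (Even (n + 1) ∨ Fintype.card F % 8 ≠ 7))

end Cfsg.Agent.H86.Ev2
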