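import Mathlib
import Cfsg.Agent.H86.Ev2Defs
import Cfsg.Agent.H49.GeoGlue
import Cfsg.Agent.H49.Plus
import Cfsg.Agent.H49.MinusForm
import Cfsg.Agent.H49.Disc

/-!
# EV2 (helper86): common lemmas for the row-level `r = 2` assemblies
-/

set_option autoImplicit false

namespace Cfsg.Agent.H86.Ev2

open Matrix Module Cfsg.Agent.H45 Cfsg.Agent.H42.Spd Cfsg.Agent.H42.Ti Cfsg.Agent.H14.Ot
  Cfsg.Agent.H95.Oh

universe u

section NT

variable {F : Type u} [Field F] [Fintype F]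

theorem isSquare_neg_one_iff_mod4 (hodd : Odd (Fintype.card F)) :
    IsSquare (-1 : F) ↔ Fintype.card F % 4 = 1 := by
  rw [FiniteField.isSquare_neg_one_iff]
  have := Nat.odd_iff.mp hodd
  omega

theorem isSquare_two_iff_mod8 (hodd : Odd (Fintype.card F)) :
    IsSquare (2 : F) ↔ (Fintype.card F % 8 = 1 ∨ Fintype.card F % 8 = 7) := by
  rw [FiniteField.isSquare_two_iff]
  have := Nat.odd_iff.mp hodd
  omega

omit [Fintype F] in
theorem isSquare_two_pow_iff (h2 : (2 : F) ≠ 0) (k : ℕ) :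
    IsSquare ((2 : F) ^ k) ↔ (Even k ∨ IsSquare (2 : F)) := by
  constructor
  · intro h
    by_cases hk : Even k
    · exact Or.inl hk
    · right
      obtain ⟨j, rfl⟩ := Nat.not_even_iff_odd.mp hk
      obtain ⟨t, ht⟩ := h
      have h2j : (2 : F) ^ j ≠ 0 := pow_ne_zero _ h2
      refine ⟨t / 2 ^ j, ?_⟩
      field_simp
      linear_combination ht
  · rintro (⟨j, rfl⟩ | ⟨s, hs⟩)
    · exact ⟨2 ^ j, by ring⟩
    · exact ⟨s ^ k, by rw [hs]; ring⟩

end NT

section Br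

variable {F : Type u} [Field F] {ι : Type} [Fintype ι] [DecidableEq ι]

/-- The bridge between a quadratic form on `ι → F` and a bilinear form `B`. -/
structure Bridge (Q : QuadraticForm F (ι → F)) (B : (ι → F) →ₗ[F] (ι → F) →ₗ[F] F) : Prop where
  pol : ∀ x y, B x y = QuadraticMap.polar ⇑Q x y
  symm : ∀ x y, B x y = B y x
  nd : ∀ x, (∀ y, B x y = 0) → x = 0
  diag : ∀ x, B x x = 2 * Q x
  ndW : ∀ W : Submodule F (ι → F),
    Cfsg.Geo.IsNondegenerateOn (QuadraticMap.polar ⇑Q) W ↔ W ⊓ perp B W = ⊥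
  iso : ∀ g : Matrix.GeneralLinearGroup ι F, g ∈ Cfsg.isometryGroup F ⇑Q ↔
    ∀ x y, B (Matrix.toLin' (g : Matrix ι ι F) x) (Matrix.toLin' (g : Matrix ι ι F) y) = B x y

variable {Q : QuadraticForm F (ι → F)} {B : (ι → F) →ₗ[F] (ι → F) →ₗ[F] F}

theorem Bridge.polar_nd (hB : Bridge Q B) :
    ∀ x, (∀ y, QuadraticMap.polar ⇑Q x y = 0) → x = 0 := by
  intro x hx
  exact hB.nd x (fun y => by rw [hB.pol]; exact hx y)

theorem Bridge.exists_nonsing (hB : Bridge Q B) [Nonempty ι] : ∃ v, Q v ≠ 0 := by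
  by_contra hcon
  push Not at hcon
  obtain ⟨i⟩ := ‹Nonempty ι›
  have h0 : (Pi.single i (1 : F) : ι → F) = 0 :=
    hB.nd _ (fun y => by rw [hB.pol]; simp [QuadraticMap.polar, hcon])
  have := congrFun h0 i
  simp at this

theorem Bridge.ti_iff (hB : Bridge Q B) (h2 : (2 : F) ≠ 0) (W : Submodule F (ι → F)) :
    TI B W ↔ ∀ w ∈ W, Q w = 0 := by
  constructor
  · intro h w hw
    have := h w hw w hw
    rw [hB.diag] at this
    exact (mul_eq_zero.mp this).resolve_left h2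
  · intro h x hx y hy
    rw [hB.pol]
    simp [QuadraticMap.polar, h x hx, h y hy, h (x + y) (W.add_mem hx hy)]

theorem omega_isom (Qf : (ι → F) → F) {x : Matrix.GeneralLinearGroup ι F}
    (hx : x ∈ Cfsg.Geo.omegaGL Qf) : x ∈ Cfsg.isometryGroup F Qf := by
  obtain ⟨g', _, rfl⟩ := (Cfsg.Agent.H49.mem_omegaGL_iff Qf x).mp hx
  exact g'.2

omit [Fintype ι] [DecidableEq ι] in
theorem map_le_iff_invt (T : Module.End F (ι → F)) (W : Submodule F (ι → F)) :
    W.map T ≤ W ↔ W ∈ T.invtSubmodule := by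
  rw [Module.End.mem_invtSubmodule, Submodule.map_le_iff_le_comap]

/-- The two cases of a square-scalar isometry. -/
theorem sq_cases (Q : QuadraticForm F (ι → F)) (v : ι → F) (hv : Q v ≠ 0)
    (x : Matrix.GeneralLinearGroup ι F) (hx : x ∈ Cfsg.isometryGroup F ⇑Q)
    (hz : ∃ z : F, ((x ^ 2 : Matrix.GeneralLinearGroup ι F) : Matrix ι ι F)
      = z • (1 : Matrix ι ι F)) :
    (x ^ 2 = 1 ∧ Matrix.toLin' (x : Matrix ι ι F) * Matrix.toLin' (x : Matrix ι ι F) = 1) ∨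
    ((x : Matrix ι ι F) * (x : Matrix ι ι F) = -1 ∧
      Matrix.toLin' (x : Matrix ι ι F) * Matrix.toLin' (x : Matrix ι ι F) = -1) := by
  obtain ⟨z, hz⟩ := hz
  have hx2 : x ^ 2 ∈ Cfsg.isometryGroup F ⇑Q := Subgroup.pow_mem _ hx 2
  have h := Cfsg.Agent.H49.mem_isometryGroup_iff.mp hx2 v
  rw [hz, Matrix.smul_mulVec, Matrix.one_mulVec, QuadraticMap.map_smul, smul_eq_mul] at h
  have h1 : (z * z - 1) * Q v = 0 := by linear_combination h
  have h2 : z * z - 1 = 0 := (mul_eq_zero.mp h1).resolve_right hv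
  have h3 : (z - 1) * (z + 1) = 0 := by linear_combination h2
  have hxx : (x : Matrix ι ι F) * (x : Matrix ι ι F) = z • (1 : Matrix ι ι F) := by
    rw [← hz, pow_two]; rfl
  rcases mul_eq_zero.mp h3 with h4 | h4
  · left
    have hz1 : z = 1 := by linear_combination h4
    rw [hz1, one_smul] at hxx
    refine ⟨?_, ?_⟩
    · apply Units.ext
      rw [pow_two]
      exact hxx
    · rw [Module.End.mul_eq_comp, ← Matrix.toLin'_mul, hxx, Matrix.toLin'_one]; rfl
  · right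
    have hz1 : z = -1 := by linear_combination h4
    rw [hz1, neg_smul, one_smul] at hxx
    refine ⟨hxx, ?_⟩
    rw [Module.End.mul_eq_comp, ← Matrix.toLin'_mul, hxx, map_neg, Matrix.toLin'_one]; rfl

/-- Non-scalar: automatic for `x * x = -1` when `-1` is not a square. -/
theorem nonscalar_of_J [Nonempty ι] (hm1 : ¬ IsSquare (-1 : F))
    (x : Matrix.GeneralLinearGroup ι F)
    (hxx : (x : Matrix ι ι F) * (x : Matrix ι ι F) = -1) :
    ∀ z : F, (x : Matrix ι ι F) ≠ z • (1 : Matrix ι ι F) := by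
  intro z hz
  apply hm1
  refine ⟨z, ?_⟩
  obtain ⟨i⟩ := ‹Nonempty ι›
  rw [hz] at hxx
  have := congrFun (congrFun hxx i) i
  simp at this
  exact this.symm

theorem J_sq_scalar (x : Matrix.GeneralLinearGroup ι F)
    (hxx : (x : Matrix ι ι F) * (x : Matrix ι ι F) = -1) :
    ∃ z : F, ((x ^ 2 : Matrix.GeneralLinearGroup ι F) : Matrix ι ι F)
      = z • (1 : Matrix ι ι F) := by
  refine ⟨-1, ?_⟩
  rw [pow_two]
  show (x : Matrix ι ι F) * (x : Matrix ι ι F) = _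
  rw [hxx]; simp

theorem toLin_J (x : Matrix.GeneralLinearGroup ι F)
    (hxx : (x : Matrix ι ι F) * (x : Matrix ι ι F) = -1) :
    Matrix.toLin' (x : Matrix ι ι F) * Matrix.toLin' (x : Matrix ι ι F) = -1 := by
  rw [Module.End.mul_eq_comp, ← Matrix.toLin'_mul, hxx, map_neg, Matrix.toLin'_one]; rfl

end Br

section Nd

variable {F : Type u} [Field F] [Fintype F] {ι : Type} [Fintype ι] [DecidableEq ι]
  {Q : QuadraticForm F (ι → F)} {B : (ι → F) →ₗ[F] (ι → F) →ₗ[F] F}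

/-- An orthogonal basis of the reference subspace `W₀`. -/
theorem Bridge.exists_ortho (hB : Bridge Q B) (hO : StOrtho.{u, u}) (h2 : (2 : F) ≠ 0) (m : ℕ)
    (W₀ : Submodule F (ι → F))
    (hW₀ : Module.finrank F ↥W₀ = m ∧
      Cfsg.Geo.IsNondegenerateOn (QuadraticMap.polar ⇑Q) W₀) :
    ∃ v : Fin m → ι → F, OrthoFam B v ∧ Submodule.span F (Set.range v) = W₀ := by
  obtain ⟨rfl, hnd⟩ := hW₀
  obtain ⟨v, _, hvo, hvn, hvs⟩ := hO F (ι → F) B h2 hB.symm W₀ ((hB.ndW W₀).mp hnd)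
  exact ⟨v, ⟨hvo, hvn⟩, hvs⟩

/-- The span of an orthogonal family in the discriminant class of `W₀` is a fixed member of the
set of the frozen statement. -/
theorem Bridge.fix_nd (hB : Bridge Q B) (hSp : StSpanNd.{u, u}) (hIs : StIsoGen.{u, u})
    (h2 : (2 : F) ≠ 0) (m : ℕ) (W₀ : Submodule F (ι → F)) (v : Fin m → ι → F)
    (hv : OrthoFam B v) (hvW : Submodule.span F (Set.range v) = W₀) (w : Fin m → ι → F)
    (hw : OrthoFam B w) (hsq : IsSquare ((∏ a, B (v a) (v a)) * ∏ a, B (w a) (w a)))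
    (T : Module.End F (ι → F)) (hT : Submodule.span F (Set.range w) ∈ T.invtSubmodule) :
    ∃ W : Submodule F (ι → F),
      (Module.finrank F ↥W = m ∧ Cfsg.Geo.IsNondegenerateOn (QuadraticMap.polar ⇑Q) W ∧
        Cfsg.Geo.AreIsometricFor ⇑Q W W₀) ∧ W.map T ≤ W := by
  obtain ⟨_, hfr, hnd⟩ := hSp F (ι → F) B hB.symm m w hw
  obtain ⟨e, he⟩ := hIs F (ι → F) B h2 hB.symm m w v hw hv (by rw [mul_comm]; exact hsq)
  refine ⟨Submodule.span F (Set.range w), ⟨hfr, (hB.ndW _).mpr hnd, ?_⟩,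
    (map_le_iff_invt _ _).mpr hT⟩
  refine ⟨e.trans (LinearEquiv.ofEq _ _ hvW), fun x => ?_⟩
  have h1 := he x x
  rw [hB.diag, hB.diag] at h1
  have h3 : ((e.trans (LinearEquiv.ofEq _ _ hvW)) x : ι → F) = (e x : ι → F) := rfl
  rw [h3]
  exact mul_left_cancel₀ h2 h1

end Nd

end Cfsg.Agent.H86.Ev2
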