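import Mathlib
import Cfsg.Agent.H86.Ev2R2Common

/-!
# S5989 / S5991 team project (helper86): definitions and piece statements

`PΩ^±_{2d}(q)`, `q` odd, acting on the nondegenerate `m`-spaces, `m` ODD, isometric to a fixed
`W₀`, of the standard plus space `Cfsg.quadFormPlus d F` on `F^(Fin d ⊕ Fin d)` (S5989) resp. of
the standard minus space `Cfsg.quadFormMinus k F a b` on `F^((Fin k ⊕ Fin k) ⊕ Fin 2)`,
`k = d - 1` (S5991).

Conventions as in `H86/Ev2Defs`, `H95/OhDefs`: symmetric bilinear form `B`, helper45's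
`perp B W` (`W` nondegenerate iff `W ⊓ perp B W = ⊥`), helper42's `TI B U`, `kk T W`, `cc F r`,
`ii F r`, helper14's `OCtx r B T`, helper95's `Plus B W`, and `OrthoFam B w`, `Bridge Q B`
(`H86/Ev2Defs`, `H86/Ev2R2Common`).  The `r = 2` lines are closed (`H86/Ev2Fin`).
-/

set_option autoImplicit false

namespace Cfsg.Agent.H86.Nd

open Cfsg.Agent.H45 Cfsg.Agent.H42.Spd Cfsg.Agent.H42.Ti Cfsg.Agent.H14.Ot Cfsg.Agent.H95.Oh
  Cfsg.Agent.H86.Ev2 Module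

universe u v

/-- The index type of the standard minus space of dimension `2 k + 2`. -/
abbrev MI (k : ℕ) : Type := (Fin k ⊕ Fin k) ⊕ Fin 2

/-- The members of the set of the frozen statements: nondegenerate `m`-spaces isometric to
`W₀`. -/
def IsNW {F : Type u} [Field F] {ι : Type} [Fintype ι] [DecidableEq ι] (Qf : (ι → F) → F)
    (m : ℕ) (W₀ W : Submodule F (ι → F)) : Prop :=
  Module.finrank F ↥W = m ∧ Cfsg.Geo.IsNondegenerateOn (QuadraticMap.polar Qf) W ∧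
    Cfsg.Geo.AreIsometricFor Qf W W₀

/-! ## Odd `r ≠ p`: abstract structure (symmetric bilinear form, `OCtx r B T`) -/

/-- ND-FWD: the shape of an invariant nondegenerate subspace of ODD dimension in a space of
even dimension: `dim W = c j + e`, `e = dim (W ∩ C_V(T)) < dim C_V(T)`. -/
def StNdFwd : Prop :=
  ∀ (F : Type u) [Field F] [Fintype F] (V : Type v) [AddCommGroup V] [Module F V]
    [FiniteDimensional F V] (r : ℕ) (B : V →ₗ[F] V →ₗ[F] F) (T : Module.End F V),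
    OCtx r B T → Even (Module.finrank F V) →
    ∀ W : Submodule F V, W ∈ T.invtSubmodule → W ⊓ perp B W = ⊥ → Odd (Module.finrank F W) →
    ∃ j : ℕ, Module.finrank F W = cc F r * j + kk T W ∧
      kk T ⊤ + cc F r * j ≤ Module.finrank F V ∧ kk T W + 1 ≤ kk T ⊤

/-- ND-BACK: an invariant subspace spanned by `c j + e` pairwise orthogonal nonsingular vectors
with prescribed discriminant class (`1 ≤ e < dim C_V(T)`). -/
def StNdBack : Prop :=
  ∀ (F : Type u) [Field F] [Fintype F] (V : Type v) [AddCommGroup V] [Module F V]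
    [FiniteDimensional F V] (r : ℕ) (B : V →ₗ[F] V →ₗ[F] F) (T : Module.End F V),
    OCtx r B T → ∀ (j e : ℕ) (δ : F), kk T ⊤ + cc F r * j ≤ Module.finrank F V → 1 ≤ e →
    e + 1 ≤ kk T ⊤ → δ ≠ 0 →
    ∃ w : Fin (cc F r * j + e) → V, OrthoFam B w ∧ IsSquare (δ * ∏ a, B (w a) (w a)) ∧
      Submodule.span F (Set.range w) ∈ T.invtSubmodule

/-! ## Odd `r ≠ p`: the matrix model (`Q : QuadraticForm F (ι → F)` with a bridge `B`) -/

/-- ND-STRUCT: an isometry `y` with `y ^ r = 1` of a space of even dimension has `A` blocks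
(`dim C_V(y) + c A = dim V`; if `C_V(y) = 0` the type of `V` is "plus iff (`i` odd or `A`
even)"); it fixes a member of the set of the frozen statement whenever
`m = c j + e`, `j ≤ A`, `1 ≤ e < dim C_V(y)`, and every fixed nondegenerate subspace of odd
dimension has such a shape. -/
def StNdStruct : Prop :=
  ∀ (F : Type u) [Field F] [Fintype F] (p : ℕ) [Fact p.Prime] [CharP F p] (ι : Type) [Fintype ι]
    [DecidableEq ι] (Q : QuadraticForm F (ι → F)) (B : (ι → F) →ₗ[F] (ι → F) →ₗ[F] F),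
    (2 : F) ≠ 0 → Bridge Q B → Even (Fintype.card ι) →
    ∀ r : ℕ, r.Prime → r ≠ 2 → r ≠ p →
    ∀ y : Matrix.GeneralLinearGroup ι F, y ∈ Cfsg.isometryGroup F ⇑Q → y ^ r = 1 →
    ∃ A : ℕ,
      Module.finrank F ↥(LinearMap.ker (Matrix.toLin' (y : Matrix ι ι F) - 1)) + cc F r * A =
        Fintype.card ι ∧
      (Module.finrank F ↥(LinearMap.ker (Matrix.toLin' (y : Matrix ι ι F) - 1)) = 0 →
        (Plus B ⊤ ↔ (Odd (ii F r) ∨ Even A))) ∧
      (∀ (m : ℕ) (W₀ : Submodule F (ι → F)) (j e : ℕ),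
        (Module.finrank F ↥W₀ = m ∧ Cfsg.Geo.IsNondegenerateOn (QuadraticMap.polar ⇑Q) W₀) →
        j ≤ A → 1 ≤ e →
        e + 1 ≤ Module.finrank F ↥(LinearMap.ker (Matrix.toLin' (y : Matrix ι ι F) - 1)) →
        cc F r * j + e = m →
        ∃ W : Submodule F (ι → F), IsNW ⇑Q m W₀ W ∧
          W.map (Matrix.toLin' (y : Matrix ι ι F)) ≤ W) ∧
      (∀ W : Submodule F (ι → F), Odd (Module.finrank F ↥W) →
        Cfsg.Geo.IsNondegenerateOn (QuadraticMap.polar ⇑Q) W →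
        W.map (Matrix.toLin' (y : Matrix ι ι F)) ≤ W →
        ∃ j e : ℕ, j ≤ A ∧
          e + 1 ≤ Module.finrank F ↥(LinearMap.ker (Matrix.toLin' (y : Matrix ι ι F) - 1)) ∧
          Module.finrank F ↥W = cc F r * j + e)

/-- ND-ORBTRANS (Witt): two isometric nondegenerate subspaces, both orthogonal to a
nondegenerate subspace `R`, are conjugate under an isometry fixing `R` pointwise. -/
def StNdOrbTrans : Prop :=
  ∀ (F : Type u) [Field F] [Fintype F] (ι : Type) [Fintype ι] [DecidableEq ι]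
    (Q : QuadraticForm F (ι → F)) (B : (ι → F) →ₗ[F] (ι → F) →ₗ[F] F),
    (2 : F) ≠ 0 → Bridge Q B →
    ∀ R W W' : Submodule F (ι → F), R ⊓ perp B R = ⊥ → W ⊓ perp B W = ⊥ →
    W' ⊓ perp B W' = ⊥ → W ≤ perp B R → W' ≤ perp B R →
    (∃ e : ↥W ≃ₗ[F] ↥W', ∀ x y : ↥W, B (e x : ι → F) (e y : ι → F) = B (x : ι → F) (y : ι → F)) →
    ∃ g : Matrix.GeneralLinearGroup ι F, g ∈ Cfsg.isometryGroup F ⇑Q ∧
      (∀ v ∈ R, Matrix.toLin' (g : Matrix ι ι F) v = v) ∧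
      W.map (Matrix.toLin' (g : Matrix ι ι F)) = W'

/-- ND-CNTORB: if the fixed space `K` of `x` (`x ^ r = 1`) has dimension `< c`, the number of
members of the set inside `K` (`1 ≤ m < dim K`) is prime to `r`. -/
def StNdCntOrb : Prop :=
  ∀ (F : Type u) [Field F] [Fintype F] (p : ℕ) [Fact p.Prime] [CharP F p] (ι : Type) [Fintype ι]
    [DecidableEq ι] (Q : QuadraticForm F (ι → F)) (B : (ι → F) →ₗ[F] (ι → F) →ₗ[F] F),
    (2 : F) ≠ 0 → Bridge Q B →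
    ∀ r m : ℕ, r.Prime → r ≠ 2 → r ≠ p → 1 ≤ m →
    ∀ W₀ : Submodule F (ι → F),
    (Module.finrank F ↥W₀ = m ∧ Cfsg.Geo.IsNondegenerateOn (QuadraticMap.polar ⇑Q) W₀) →
    ∀ x : Matrix.GeneralLinearGroup ι F, x ∈ Cfsg.isometryGroup F ⇑Q → x ^ r = 1 →
    m < Module.finrank F ↥(LinearMap.ker (Matrix.toLin' (x : Matrix ι ι F) - 1)) →
    Module.finrank F ↥(LinearMap.ker (Matrix.toLin' (x : Matrix ι ι F) - 1)) < cc F r →
    ¬ r ∣ Nat.card {W : Submodule F (ι → F) // IsNW ⇑Q m W₀ W ∧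
      W ≤ LinearMap.ker (Matrix.toLin' (x : Matrix ι ι F) - 1)}

/-- ND-CNT: in the same situation, if moreover `m < c`, the number of all members of the set is
prime to `r`. -/
def StNdCnt : Prop :=
  ∀ (F : Type u) [Field F] [Fintype F] (p : ℕ) [Fact p.Prime] [CharP F p] (ι : Type) [Fintype ι]
    [DecidableEq ι] (Q : QuadraticForm F (ι → F)) (B : (ι → F) →ₗ[F] (ι → F) →ₗ[F] F),
    (2 : F) ≠ 0 → Bridge Q B →
    ∀ r m : ℕ, r.Prime → r ≠ 2 → r ≠ p → 1 ≤ m → m < cc F r →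
    ∀ W₀ : Submodule F (ι → F),
    (Module.finrank F ↥W₀ = m ∧ Cfsg.Geo.IsNondegenerateOn (QuadraticMap.polar ⇑Q) W₀) →
    ∀ x : Matrix.GeneralLinearGroup ι F, x ∈ Cfsg.isometryGroup F ⇑Q → x ^ r = 1 →
    m < Module.finrank F ↥(LinearMap.ker (Matrix.toLin' (x : Matrix ι ι F) - 1)) →
    Module.finrank F ↥(LinearMap.ker (Matrix.toLin' (x : Matrix ι ι F) - 1)) < cc F r →
    ¬ r ∣ Nat.card {W : Submodule F (ι → F) // IsNW ⇑Q m W₀ W}

/-! ## Odd `r ≠ p`: existence of elements -/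

/-- ND-EXP: elements of `Ω⁺_{2d}(q)` of odd prime order `r ≠ p` with `A ≥ 1` blocks
(`c A ≤ 2 d`; if `c A = 2 d` then `i` odd or `A` even), not scalar. -/
def StExP : Prop :=
  ∀ (F : Type u) [Field F] [Fintype F] (p : ℕ) [Fact p.Prime] [CharP F p] (r : ℕ), r.Prime →
    r ≠ 2 → r ≠ p → ∀ d A : ℕ, 4 ≤ d → 1 ≤ A → cc F r * A ≤ 2 * d →
    (cc F r * A = 2 * d → (Odd (ii F r) ∨ Even A)) →
    ∃ x : Matrix.GeneralLinearGroup (Fin d ⊕ Fin d) F,
      x ∈ Cfsg.Geo.omegaGL (Cfsg.quadFormPlus d F) ∧ x ^ r = 1 ∧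
      Module.finrank F ↥(LinearMap.ker (Matrix.toLin'
        (x : Matrix (Fin d ⊕ Fin d) (Fin d ⊕ Fin d) F) - 1)) + cc F r * A = 2 * d ∧
      ∀ z : F, (x : Matrix (Fin d ⊕ Fin d) (Fin d ⊕ Fin d) F) ≠
        z • (1 : Matrix (Fin d ⊕ Fin d) (Fin d ⊕ Fin d) F)

/-- ND-EXM: elements of `Ω⁻_{2k+2}(q)` of odd prime order `r ≠ p` with `A ≥ 1` blocks
(`c A ≤ 2 k + 2`; if `c A = 2 k + 2` then `i` even and `A` odd), not scalar. -/
def StExM : Prop :=
  ∀ (F : Type u) [Field F] [Fintype F] (p : ℕ) [Fact p.Prime] [CharP F p] (r : ℕ), r.Prime →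
    r ≠ 2 → r ≠ p → ∀ (k A : ℕ) (a b : F), 3 ≤ k →
    (∀ x y : F, x ^ 2 + a * x * y + b * y ^ 2 = 0 → x = 0 ∧ y = 0) →
    1 ≤ A → cc F r * A ≤ 2 * k + 2 →
    (cc F r * A = 2 * k + 2 → ¬ (Odd (ii F r) ∨ Even A)) →
    ∃ x : Matrix.GeneralLinearGroup (MI k) F,
      x ∈ Cfsg.Geo.omegaGL (Cfsg.quadFormMinus k F a b) ∧ x ^ r = 1 ∧
      Module.finrank F ↥(LinearMap.ker (Matrix.toLin'
        (x : Matrix (MI k) (MI k) F) - 1)) + cc F r * A = 2 * k + 2 ∧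
      ∀ z : F, (x : Matrix (MI k) (MI k) F) ≠ z • (1 : Matrix (MI k) (MI k) F)

/-! ## Arithmetic (pure `ℕ`) -/

/-- The right-hand side of S5989 for odd `r ≠ p`. -/
def RhsOddP (d m i c : ℕ) : Prop :=
  (Odd i ∧ c ≤ m ∧ 0 < m % c ∧ m % c < (2 * d) % c) ∨
  (Even i ∧ (((2 * d) % c = 0 ∧ Odd ((2 * d) / i)) ∨
    (i ≤ m ∧ 0 < m % c ∧ m % c < (2 * d) % c)))

/-- The right-hand side of S5991 for odd `r ≠ p`. -/
def RhsOddM (d m i c : ℕ) : Prop :=
  (Odd i ∧ ((2 * d) % c = 0 ∨ (c ≤ m ∧ 0 < m % c ∧ m % c < (2 * d) % c))) ∨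
  (Even i ∧ (((2 * d) % c = 0 ∧ Even ((2 * d) / i)) ∨
    (0 < (2 * d) % c ∧ i ≤ m ∧ 0 < m % c ∧ m % c < (2 * d) % c)))

/-- ND-ARBACKP: the right-hand side gives a shape `(j, e)` for every admissible number `A` of
blocks (plus space). -/
def StArBackP : Prop :=
  ∀ d m i c A : ℕ, 0 < i → c = (if Even i then i else 2 * i) → Odd m → m < d →
    RhsOddP d m i c → c * A ≤ 2 * d → (c * A = 2 * d → (Odd i ∨ Even A)) →
    ∃ j e : ℕ, j ≤ A ∧ 1 ≤ e ∧ e + 1 ≤ 2 * d - c * A ∧ c * j + e = m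

/-- ND-ARFWDP: if the right-hand side fails, some admissible `A ≥ 1` admits no shape, or `m < c`
and (`2 d < c` or some admissible `A ≥ 1` has `m < 2 d - c A < c`) (plus space). -/
def StArFwdP : Prop :=
  ∀ d m i c : ℕ, 0 < i → c = (if Even i then i else 2 * i) → Odd m → m < d → 4 ≤ d →
    ¬ RhsOddP d m i c →
    (∃ A : ℕ, 1 ≤ A ∧ c * A ≤ 2 * d ∧ (c * A = 2 * d → (Odd i ∨ Even A)) ∧
      ∀ j e : ℕ, j ≤ A → e + 1 ≤ 2 * d - c * A → c * j + e = m → False) ∨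
    (m < c ∧ (2 * d < c ∨
      ∃ A : ℕ, 1 ≤ A ∧ c * A ≤ 2 * d ∧ (c * A = 2 * d → (Odd i ∨ Even A)) ∧
        2 * d - c * A < c ∧ m < 2 * d - c * A))

/-- ND-ARBACKM: the same for the minus space (`c A = 2 d` admissible iff `i` even and `A`
odd). -/
def StArBackM : Prop :=
  ∀ d m i c A : ℕ, 0 < i → c = (if Even i then i else 2 * i) → Odd m → m < d →
    RhsOddM d m i c → c * A ≤ 2 * d → (c * A = 2 * d → ¬ (Odd i ∨ Even A)) →
    ∃ j e : ℕ, j ≤ A ∧ 1 ≤ e ∧ e + 1 ≤ 2 * d - c * A ∧ c * j + e = m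

/-- ND-ARFWDM: the same for the minus space. -/
def StArFwdM : Prop :=
  ∀ d m i c : ℕ, 0 < i → c = (if Even i then i else 2 * i) → Odd m → m < d → 4 ≤ d →
    ¬ RhsOddM d m i c →
    (∃ A : ℕ, 1 ≤ A ∧ c * A ≤ 2 * d ∧ (c * A = 2 * d → ¬ (Odd i ∨ Even A)) ∧
      ∀ j e : ℕ, j ≤ A → e + 1 ≤ 2 * d - c * A → c * j + e = m → False) ∨
    (m < c ∧ (2 * d < c ∨
      ∃ A : ℕ, 1 ≤ A ∧ c * A ≤ 2 * d ∧ (c * A = 2 * d → ¬ (Odd i ∨ Even A)) ∧
        2 * d - c * A < c ∧ m < 2 * d - c * A))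

/-! ## `r = p`: unipotent elements -/

/-- ND-UNIOMEGA: a unipotent isometry `x ≠ 1` with `(x - 1) ^ 3 = 0`, `p` odd, lies in `Ω`, has
order `p` and is not scalar. -/
def StUniOmega : Prop :=
  ∀ (F : Type u) [Field F] [Fintype F] (p : ℕ) [Fact p.Prime] [CharP F p] (ι : Type) [Fintype ι]
    [DecidableEq ι] (Q : QuadraticForm F (ι → F)), p ≠ 2 →
    (∀ x, (∀ y, QuadraticMap.polar ⇑Q x y = 0) → x = 0) →
    ∀ x : Matrix.GeneralLinearGroup ι F, x ∈ Cfsg.isometryGroup F ⇑Q →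
    (Matrix.toLin' (x : Matrix ι ι F) - 1) ^ 3 = 0 → x ≠ 1 →
    x ∈ Cfsg.Geo.omegaGL ⇑Q ∧ x ^ p = 1 ∧
      ∀ z : F, (x : Matrix ι ι F) ≠ z • (1 : Matrix ι ι F)

/-- ND-UEX1: plus space, `d` even: an isometry of Jordan type `(2^d)`. -/
def StUex1 : Prop :=
  ∀ (F : Type u) [Field F] (d : ℕ), Even d → 2 ≤ d →
    ∃ x : Matrix.GeneralLinearGroup (Fin d ⊕ Fin d) F,
      x ∈ Cfsg.isometryGroup F (Cfsg.quadFormPlus d F) ∧
      (Matrix.toLin' (x : Matrix (Fin d ⊕ Fin d) (Fin d ⊕ Fin d) F) - 1) *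
        (Matrix.toLin' (x : Matrix (Fin d ⊕ Fin d) (Fin d ⊕ Fin d) F) - 1) = 0 ∧
      2 * Module.finrank F ↥(LinearMap.range
        (Matrix.toLin' (x : Matrix (Fin d ⊕ Fin d) (Fin d ⊕ Fin d) F) - 1)) = 2 * d

/-- ND-UEX2: plus space, `d` odd: an isometry of Jordan type `(1, 1, 2^(d-1))`. -/
def StUex2 : Prop :=
  ∀ (F : Type u) [Field F] (d : ℕ), Odd d → 3 ≤ d →
    ∃ x : Matrix.GeneralLinearGroup (Fin d ⊕ Fin d) F,
      x ∈ Cfsg.isometryGroup F (Cfsg.quadFormPlus d F) ∧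
      (Matrix.toLin' (x : Matrix (Fin d ⊕ Fin d) (Fin d ⊕ Fin d) F) - 1) *
        (Matrix.toLin' (x : Matrix (Fin d ⊕ Fin d) (Fin d ⊕ Fin d) F) - 1) = 0 ∧
      2 * Module.finrank F ↥(LinearMap.range
        (Matrix.toLin' (x : Matrix (Fin d ⊕ Fin d) (Fin d ⊕ Fin d) F) - 1)) + 2 = 2 * d

/-- ND-UEX3: plus space, `d` odd: an isometry of Jordan type `(3, 3, 2^(d-3))`. -/
def StUex3 : Prop :=
  ∀ (F : Type u) [Field F] (d : ℕ), (2 : F) ≠ 0 → Odd d → 3 ≤ d →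
    ∃ x : Matrix.GeneralLinearGroup (Fin d ⊕ Fin d) F,
      x ∈ Cfsg.isometryGroup F (Cfsg.quadFormPlus d F) ∧
      (Matrix.toLin' (x : Matrix (Fin d ⊕ Fin d) (Fin d ⊕ Fin d) F) - 1) ^ 3 = 0 ∧
      Module.finrank F ↥(LinearMap.range
        ((Matrix.toLin' (x : Matrix (Fin d ⊕ Fin d) (Fin d ⊕ Fin d) F) - 1) *
          (Matrix.toLin' (x : Matrix (Fin d ⊕ Fin d) (Fin d ⊕ Fin d) F) - 1))) = 2 ∧
      2 * Module.finrank F ↥(LinearMap.range
        (Matrix.toLin' (x : Matrix (Fin d ⊕ Fin d) (Fin d ⊕ Fin d) F) - 1)) = 2 * d + 2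

/-- ND-UEX2M: minus space, `k` even (`d = k + 1` odd): an isometry of Jordan type
`(1, 1, 2^k)`. -/
def StUex2M : Prop :=
  ∀ (F : Type u) [Field F] (k : ℕ) (a b : F), Even k → 2 ≤ k →
    ∃ x : Matrix.GeneralLinearGroup (MI k) F,
      x ∈ Cfsg.isometryGroup F (Cfsg.quadFormMinus k F a b) ∧
      (Matrix.toLin' (x : Matrix (MI k) (MI k) F) - 1) *
        (Matrix.toLin' (x : Matrix (MI k) (MI k) F) - 1) = 0 ∧
      2 * Module.finrank F ↥(LinearMap.range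
        (Matrix.toLin' (x : Matrix (MI k) (MI k) F) - 1)) + 2 = 2 * k + 2

/-- ND-UEX3M: minus space, `k` even (`d = k + 1` odd): an isometry of Jordan type
`(3, 3, 2^(k-2))`. -/
def StUex3M : Prop :=
  ∀ (F : Type u) [Field F] (k : ℕ) (a b : F), (2 : F) ≠ 0 →
    (∀ x y : F, x ^ 2 + a * x * y + b * y ^ 2 = 0 → x = 0 ∧ y = 0) → Even k → 2 ≤ k →
    ∃ x : Matrix.GeneralLinearGroup (MI k) F,
      x ∈ Cfsg.isometryGroup F (Cfsg.quadFormMinus k F a b) ∧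
      (Matrix.toLin' (x : Matrix (MI k) (MI k) F) - 1) ^ 3 = 0 ∧
      Module.finrank F ↥(LinearMap.range
        ((Matrix.toLin' (x : Matrix (MI k) (MI k) F) - 1) *
          (Matrix.toLin' (x : Matrix (MI k) (MI k) F) - 1))) = 2 ∧
      2 * Module.finrank F ↥(LinearMap.range
        (Matrix.toLin' (x : Matrix (MI k) (MI k) F) - 1)) = 2 * k + 4

/-- ND-UEX4M: minus space, `k` odd (`d = k + 1` even): an isometry of Jordan type
`(3, 1, 2^(k-1))` with a fixed nonsingular vector `p₀` of prescribed norm class. -/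
def StUex4M : Prop :=
  ∀ (F : Type u) [Field F] [Fintype F] (k : ℕ) (a b α : F), (2 : F) ≠ 0 →
    (∀ x y : F, x ^ 2 + a * x * y + b * y ^ 2 = 0 → x = 0 ∧ y = 0) → Odd k → α ≠ 0 →
    ∃ x : Matrix.GeneralLinearGroup (MI k) F,
      x ∈ Cfsg.isometryGroup F (Cfsg.quadFormMinus k F a b) ∧
      (Matrix.toLin' (x : Matrix (MI k) (MI k) F) - 1) ^ 3 = 0 ∧
      Module.finrank F ↥(LinearMap.range
        ((Matrix.toLin' (x : Matrix (MI k) (MI k) F) - 1) *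
          (Matrix.toLin' (x : Matrix (MI k) (MI k) F) - 1))) = 1 ∧
      2 * Module.finrank F ↥(LinearMap.range
        (Matrix.toLin' (x : Matrix (MI k) (MI k) F) - 1)) = 2 * k + 2 ∧
      ∃ p₀ : MI k → F, Matrix.toLin' (x : Matrix (MI k) (MI k) F) p₀ = p₀ ∧
        Cfsg.quadFormMinus k F a b p₀ ≠ 0 ∧ IsSquare (α * Cfsg.quadFormMinus k F a b p₀)

/-- ND-UNIP4A: Jordan type `(3, 1, 2^(d-2))`, `dim V ≡ 0 (mod 4)`, `p₀` a fixed nonsingular
vector: an invariant nondegenerate subspace `W` of dimension `≡ 1 (mod 4)` is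
`⟨v⟩ ⊥ (hyperbolic space with maximal totally isotropic subspace U)`, `v` fixed with
`B v v = c² B p₀ p₀`, `dim U` even. -/
def StUnip4A : Prop :=
  ∀ (F : Type u) [Field F] (V : Type v) [AddCommGroup V] [Module F V] [FiniteDimensional F V]
    (B : V →ₗ[F] V →ₗ[F] F) (T : Module.End F V), (2 : F) ≠ 0 →
    (∀ x y, B x y = B y x) → (∀ x, (∀ y, B x y = 0) → x = 0) →
    (∀ x y, B (T x) (T y) = B x y) → (T - 1) ^ 3 = 0 →
    Module.finrank F ↥(LinearMap.range ((T - 1) * (T - 1))) = 1 →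
    2 * Module.finrank F ↥(LinearMap.range (T - 1)) = Module.finrank F V →
    Module.finrank F V % 4 = 0 →
    ∀ p₀ : V, T p₀ = p₀ → B p₀ p₀ ≠ 0 →
    ∀ W : Submodule F V, W ∈ T.invtSubmodule → W ⊓ perp B W = ⊥ →
    Module.finrank F W % 4 = 1 →
    ∃ (v : V) (c : F) (U : Submodule F V), v ∈ W ∧ c ≠ 0 ∧ B v v = c * c * B p₀ p₀ ∧ U ≤ W ∧
      TI B U ∧ (∀ u ∈ U, B u v = 0) ∧ 2 * Module.finrank F U + 1 = Module.finrank F W ∧
      Even (Module.finrank F U)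

/-- ND-UNIP4B: the discriminant class of `⟨v⟩ ⊥ (hyperbolic space of dimension 2 dim U)`,
`dim U` even, is the class of `B v v`. -/
def StUnip4B : Prop :=
  ∀ (F : Type u) [Field F] [Fintype F] (V : Type v) [AddCommGroup V] [Module F V]
    [FiniteDimensional F V] (B : V →ₗ[F] V →ₗ[F] F), (2 : F) ≠ 0 → (∀ x y, B x y = B y x) →
    ∀ (W : Submodule F V) (v : V) (U : Submodule F V), W ⊓ perp B W = ⊥ → v ∈ W →
    B v v ≠ 0 → U ≤ W → TI B U → (∀ u ∈ U, B u v = 0) →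
    2 * Module.finrank F U + 1 = Module.finrank F W → Even (Module.finrank F U) →
    ∀ (n : ℕ) (w : Fin n → V), OrthoFam B w → Submodule.span F (Set.range w) = W →
    IsSquare (B v v * ∏ a, B (w a) (w a))

/-- ND-DISCPERP: `disc W · disc W^⊥ ≡ disc V` modulo squares. -/
def StDiscPerp : Prop :=
  ∀ (F : Type u) [Field F] (V : Type v) [AddCommGroup V] [Module F V] [FiniteDimensional F V]
    (B : V →ₗ[F] V →ₗ[F] F), (∀ x y, B x y = B y x) → (∀ x, (∀ y, B x y = 0) → x = 0) →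
    ∀ W : Submodule F V, W ⊓ perp B W = ⊥ →
    ∀ (n : ℕ) (w : Fin n → V), OrthoFam B w → Submodule.span F (Set.range w) = W →
    ∀ (n' : ℕ) (w' : Fin n' → V), OrthoFam B w' → Submodule.span F (Set.range w') = perp B W →
    ∀ (N : ℕ) (u : Fin N → V), OrthoFam B u → Submodule.span F (Set.range u) = ⊤ →
    IsSquare ((∏ a, B (w a) (w a)) * (∏ a, B (w' a) (w' a)) * ∏ a, B (u a) (u a))

/-! ## `r = p`: row-level statements -/

/-- ND-RPP: S5989, `r = p`: some element of order `p` of `Ω⁺_{2d}(q)` fixes no nondegenerate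
subspace of the odd dimension `m`. -/
def StRpP : Prop :=
  ∀ (F : Type u) [Field F] [Fintype F] (p : ℕ) [Fact p.Prime] [CharP F p] (d m : ℕ), p ≠ 2 →
    4 ≤ d → Odd m → m < d →
    ∃ x : Matrix.GeneralLinearGroup (Fin d ⊕ Fin d) F,
      x ∈ Cfsg.Geo.omegaGL (Cfsg.quadFormPlus d F) ∧ x ^ p = 1 ∧
      (∀ z : F, (x : Matrix (Fin d ⊕ Fin d) (Fin d ⊕ Fin d) F) ≠
        z • (1 : Matrix (Fin d ⊕ Fin d) (Fin d ⊕ Fin d) F)) ∧
      ∀ W : Submodule F (Fin d ⊕ Fin d → F), Module.finrank F ↥W = m →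
        Cfsg.Geo.IsNondegenerateOn (QuadraticMap.polar (Cfsg.quadFormPlus d F)) W →
        ¬ W.map (Matrix.toLin' (x : Matrix (Fin d ⊕ Fin d) (Fin d ⊕ Fin d) F)) ≤ W

/-- ND-RPMO: S5991, `r = p`, `k` even (`d` odd): some element of order `p` of `Ω⁻_{2d}(q)`
fixes no nondegenerate subspace of the odd dimension `m`. -/
def StRpMOdd : Prop :=
  ∀ (F : Type u) [Field F] [Fintype F] (p : ℕ) [Fact p.Prime] [CharP F p] (k m : ℕ) (a b : F),
    p ≠ 2 → (∀ x y : F, x ^ 2 + a * x * y + b * y ^ 2 = 0 → x = 0 ∧ y = 0) → Even k → 3 ≤ k →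
    Odd m → m ≤ k →
    ∃ x : Matrix.GeneralLinearGroup (MI k) F,
      x ∈ Cfsg.Geo.omegaGL (Cfsg.quadFormMinus k F a b) ∧ x ^ p = 1 ∧
      (∀ z : F, (x : Matrix (MI k) (MI k) F) ≠ z • (1 : Matrix (MI k) (MI k) F)) ∧
      ∀ W : Submodule F (MI k → F), Module.finrank F ↥W = m →
        Cfsg.Geo.IsNondegenerateOn (QuadraticMap.polar (Cfsg.quadFormMinus k F a b)) W →
        ¬ W.map (Matrix.toLin' (x : Matrix (MI k) (MI k) F)) ≤ W

/-- ND-RPME: S5991, `r = p`, `k` odd (`d` even): some element of order `p` of `Ω⁻_{2d}(q)`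
fixes no member of the set. -/
def StRpMEven : Prop :=
  ∀ (F : Type u) [Field F] [Fintype F] (p : ℕ) [Fact p.Prime] [CharP F p] (k m : ℕ) (a b : F),
    p ≠ 2 → (∀ x y : F, x ^ 2 + a * x * y + b * y ^ 2 = 0 → x = 0 ∧ y = 0) → Odd k → 3 ≤ k →
    Odd m → m ≤ k →
    ∀ W₀ : Submodule F (MI k → F),
    (Module.finrank F ↥W₀ = m ∧
      Cfsg.Geo.IsNondegenerateOn (QuadraticMap.polar (Cfsg.quadFormMinus k F a b)) W₀) →
    ∃ x : Matrix.GeneralLinearGroup (MI k) F,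
      x ∈ Cfsg.Geo.omegaGL (Cfsg.quadFormMinus k F a b) ∧ x ^ p = 1 ∧
      (∀ z : F, (x : Matrix (MI k) (MI k) F) ≠ z • (1 : Matrix (MI k) (MI k) F)) ∧
      ∀ W : Submodule F (MI k → F), IsNW (Cfsg.quadFormMinus k F a b) m W₀ W →
        ¬ W.map (Matrix.toLin' (x : Matrix (MI k) (MI k) F)) ≤ W

end Cfsg.Agent.H86.Nd
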