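import Mathlib
import Cfsg.Agent.H74.TsDefs
import Cfsg.Agent.H14.Thompson

/-!
# TS-JS (piece of S2948, helper74): every 2-subgroup `S₁ ≤ L` containing `J(T)`, `T` Sylow in
`L`, has `J(S₁) = J(T)`.

Work inside `↥L`: `T' := T.subgroupOf L` is a Sylow 2-subgroup of `↥L`, `S₁' := S₁.subgroupOf L`
lies in a conjugate `P` of `T'`; `J(T') ≤ J(P)` (both are generated by elementary abelian
subgroups of largest order of `↥L`), with equal cardinalities, so `J(P) = J(T') ≤ S₁'` and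
helper14's `thompsonSubgroupOf_eq_of_le` applies.
-/

set_option autoImplicit false

universe u

namespace Cfsg.Agent.H86.Ts

open Cfsg Cfsg.Agent.H74.Ts

/-- Transport of the Thompson subgroup of a subgroup `S ≤ L` to `↥L`. -/
theorem thompsonOf_subgroupOf {G : Type u} [Group G] (S L : Subgroup G) (hle : S ≤ L) :
    thompsonSubgroupOf 2 (S.subgroupOf L) = (thompsonSubgroupOf 2 S).subgroupOf L := by
  have h6 := Cfsg.Agent.H14.thompsonSubgroupOf_map 2 L.subtype (S.subgroupOf L)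
    (fun x _ hx => L.subtype_injective (by rw [hx, map_one]))
  rw [Subgroup.map_subgroupOf_eq_of_le hle] at h6
  conv_rhs => rw [← h6]
  exact (Subgroup.comap_map_eq_self_of_injective L.subtype_injective _).symm

/-- The Thompson subgroup of `S ≤ L` is the image of that of `S.subgroupOf L`. -/
theorem thompsonOf_map_subtype {G : Type u} [Group G] (S L : Subgroup G) (hle : S ≤ L) :
    (thompsonSubgroupOf 2 (S.subgroupOf L)).map L.subtype = thompsonSubgroupOf 2 S := by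
  have h6 := Cfsg.Agent.H14.thompsonSubgroupOf_map 2 L.subtype (S.subgroupOf L)
    (fun x _ hx => L.subtype_injective (by rw [hx, map_one]))
  rw [Subgroup.map_subgroupOf_eq_of_le hle] at h6
  exact h6

/-- **TS-JS**. -/
theorem js : StJS.{u} := by
  intro G _ _ T L hTL S₁ hS₁ hS₁L hJS
  obtain ⟨hle, hp, hodd⟩ := hTL
  have h2 : Fact (Nat.Prime 2) := ⟨Nat.prime_two⟩
  have hp' : IsPGroup 2 ↥(T.subgroupOf L) := hp.comap_subtype
  have hodd' : Odd (T.subgroupOf L).index := hodd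
  have hnd : ¬ 2 ∣ (T.subgroupOf L).index := fun h =>
    (Nat.not_even_iff_odd.mpr hodd') (even_iff_two_dvd.mpr h)
  -- the Sylow subgroup `T'` of `↥L`
  set T' : Sylow 2 ↥L := hp'.toSylow hnd with hT'
  have hT'c : (T' : Subgroup ↥L) = T.subgroupOf L := rfl
  -- `S₁'` lies in a conjugate of `T'`
  have hS₁' : IsPGroup 2 ↥(S₁.subgroupOf L) := hS₁.comap_subtype
  obtain ⟨Q, hQ⟩ := hS₁'.exists_le_sylow
  obtain ⟨g, hg⟩ := MulAction.exists_smul_eq ↥L T' Q
  have hQc : (Q : Subgroup ↥L) = (T.subgroupOf L).map (MulAut.conj g).toMonoidHom := by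
    rw [← hg, Sylow.coe_subgroup_smul, hT'c]
    ext x
    rw [Subgroup.mem_pointwise_smul_iff_inv_smul_mem, Subgroup.mem_map]
    have key : ∀ z : ↥L, (MulAut.conj g)⁻¹ • z = g⁻¹ * z * g := by
      intro z
      rw [MulAut.smul_def, MulAut.conj_inv_apply]
    constructor
    · intro h
      rw [key] at h
      refine ⟨g⁻¹ * x * g, h, ?_⟩
      show g * (g⁻¹ * x * g) * g⁻¹ = x
      group
    · rintro ⟨y, hy, rfl⟩
      rw [key]
      have h3 : g⁻¹ * ((MulAut.conj g).toMonoidHom y) * g = y := by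
        show g⁻¹ * (g * y * g⁻¹) * g = y
        group
      rw [h3]
      exact hy
  -- largest elementary abelian subgroups
  obtain ⟨A₀, hA₀, hA₀T⟩ := Cfsg.Agent.H14.exists_maxElAb_le_sylow T'
  have hA₀T' : A₀ ≤ T.subgroupOf L := hA₀T
  obtain ⟨A₁, hA₁, hA₁Q⟩ := Cfsg.Agent.H14.exists_maxElAb_le_sylow Q
  -- `J(T') ≤ S₁'`
  have hJT' : thompsonSubgroupOf 2 (T.subgroupOf L) ≤ S₁.subgroupOf L := by
    rw [thompsonOf_subgroupOf T L hle]
    exact Subgroup.comap_mono hJS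
  -- `J(T') ≤ J(Q)`
  have hJle : thompsonSubgroupOf 2 (T.subgroupOf L) ≤ thompsonSubgroupOf 2 (Q : Subgroup ↥L) := by
    rw [Cfsg.Agent.H14.thompsonSubgroupOf_eq_sSup (T.subgroupOf L) ⟨A₀, hA₀, hA₀T'⟩,
      Cfsg.Agent.H14.thompsonSubgroupOf_eq_sSup (Q : Subgroup ↥L) ⟨A₁, hA₁, hA₁Q⟩]
    apply sSup_le
    rintro A ⟨hA, hAT⟩
    refine le_sSup ⟨hA, ?_⟩
    have h1 : A ≤ thompsonSubgroupOf 2 (T.subgroupOf L) := by
      rw [Cfsg.Agent.H14.thompsonSubgroupOf_eq_sSup (T.subgroupOf L) ⟨A₀, hA₀, hA₀T'⟩]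
      exact le_sSup ⟨hA, hAT⟩
    exact (h1.trans hJT').trans hQ
  -- equal cardinalities
  have hcard : Nat.card ↥(thompsonSubgroupOf 2 (Q : Subgroup ↥L)) =
      Nat.card ↥(thompsonSubgroupOf 2 (T.subgroupOf L)) := by
    rw [hQc, ← Cfsg.Agent.H14.thompsonSubgroupOf_conj 2 g (T.subgroupOf L)]
    exact (Nat.card_congr ((thompsonSubgroupOf 2 (T.subgroupOf L)).equivMapOfInjective _
      (MulAut.conj g).injective).toEquiv).symm
  have hJeq : thompsonSubgroupOf 2 (T.subgroupOf L) = thompsonSubgroupOf 2 (Q : Subgroup ↥L) :=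
    Subgroup.eq_of_le_of_card_ge hJle (le_of_eq hcard)
  -- `J(S₁') = J(Q)`
  have h7 := Cfsg.Agent.H14.thompsonSubgroupOf_eq_of_le (p := 2) (Q : Subgroup ↥L)
    (S₁.subgroupOf L) ⟨A₁, hA₁, hA₁Q⟩ hQ (by rw [← hJeq]; exact hJT')
  rw [← hJeq] at h7
  rw [← thompsonOf_map_subtype S₁ L hS₁L, ← thompsonOf_map_subtype T L hle, h7]

end Cfsg.Agent.H86.Ts

example : Cfsg.Agent.H74.Ts.StJS.{u} := Cfsg.Agent.H86.Ts.js.{u}
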