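import Mathlib

set_option autoImplicit false
set_option maxHeartbeats 1000000

/-! Helper for S5972 / OT-INVOMEGA (helper86): pairing an orthogonal list of anisotropic vectors
with square discriminant into singular vectors, when `-1` is a square. -/

namespace Cfsg.Agent.H86.Ot

open Module

section

set_option linter.unusedSectionVars false

variable {F : Type*} [Field F] [Fintype F] {V : Type*} [AddCommGroup V] [Module F V]
  [FiniteDimensional F V]

theorem isSquare_of_mul {a p : F} (ha : a ≠ 0) (h1 : IsSquare a) (h2 : IsSquare (a * p)) :
    IsSquare p := by
  obtain ⟨r, hr⟩ := h1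
  obtain ⟨q, hq⟩ := h2
  have hr0 : r ≠ 0 := by
    rintro rfl
    apply ha
    rw [hr, mul_zero]
  refine ⟨q / r, ?_⟩
  field_simp
  rw [hr] at hq
  linear_combination hq

theorem isSquare_trichotomy {a b c : F} (ha : a ≠ 0) (hb : b ≠ 0) (hc : c ≠ 0)
    (hab : ¬ IsSquare (a * b)) : IsSquare (a * c) ∨ IsSquare (b * c) := by
  classical
  by_contra hcon
  push Not at hcon
  obtain ⟨h1, h2⟩ := hcon
  have e1 := quadraticChar_neg_one_iff_not_isSquare.mpr hab
  have e2 := quadraticChar_neg_one_iff_not_isSquare.mpr h1
  have e3 := quadraticChar_neg_one_iff_not_isSquare.mpr h2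
  rw [map_mul] at e1 e2 e3
  have e4 := quadraticChar_sq_one ha
  have e5 := quadraticChar_sq_one hb
  have e6 := quadraticChar_sq_one hc
  nlinarith [e1, e2, e3, e4, e5, e6]

theorem polar_span_zero (Q : QuadraticForm F V) (a : V) (S : Set V)
    (h : ∀ w ∈ S, QuadraticMap.polar (⇑Q) a w = 0) :
    ∀ x ∈ Submodule.span F S, QuadraticMap.polar (⇑Q) x a = 0 := by
  intro x hx
  induction hx using Submodule.span_induction with
  | mem w hw => rw [QuadraticMap.polar_comm]; exact h w hw
  | zero => exact QuadraticMap.polar_zero_left Q a
  | add u w _ _ hu hw => rw [QuadraticMap.polar_add_left, hu, hw, add_zero]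
  | smul c u _ hu => rw [QuadraticMap.polar_smul_left, hu, smul_zero]

theorem q_add' (Q : QuadraticForm F V) (x y : V) :
    Q (x + y) = Q x + Q y + QuadraticMap.polar (⇑Q) x y := by
  unfold QuadraticMap.polar
  ring

/-- The step: a pair `a, b` with square norm product, orthogonal to a list `others`. -/
theorem pair_step (Q : QuadraticForm F V) (h2 : (2 : F) ≠ 0) (s : F) (hs : s * s = -1)
    (a b : V) (S : Set V) (T : Set V) (n : ℕ)
    (hab : QuadraticMap.polar (⇑Q) a b = 0)
    (haS : ∀ w ∈ S, QuadraticMap.polar (⇑Q) a w = 0)
    (hbS : ∀ w ∈ S, QuadraticMap.polar (⇑Q) b w = 0)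
    (ha : Q a ≠ 0) (hb : Q b ≠ 0) (hsq : IsSquare (Q a * Q b))
    (haT : a ∈ T) (hbT : b ∈ T) (hST : S ⊆ T)
    (ih : ∀ j ≤ n, ∃ J : Submodule F V, J ≤ Submodule.span F S ∧ (∀ x ∈ J, Q x = 0) ∧
      finrank F J = j) :
    ∀ j ≤ n + 1, ∃ J : Submodule F V, J ≤ Submodule.span F T ∧ (∀ x ∈ J, Q x = 0) ∧
      finrank F J = j := by
  intro j hj
  have hSTspan : Submodule.span F S ≤ Submodule.span F T := Submodule.span_mono hST
  rcases Nat.lt_or_ge j (n + 1) with hlt | hge
  · obtain ⟨J, hJ, hJQ, hJd⟩ := ih j (by omega)
    exact ⟨J, hJ.trans hSTspan, hJQ, hJd⟩
  · have hjn : j = n + 1 := by omega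
    subst hjn
    obtain ⟨J, hJ, hJQ, hJd⟩ := ih n le_rfl
    obtain ⟨r, hr⟩ := hsq
    obtain ⟨t, ht⟩ : ∃ t : F, t = r / Q a := ⟨_, rfl⟩
    have htb : t * t * Q a = Q b := by
      rw [ht]
      field_simp
      linear_combination -hr
    have ht0 : t ≠ 0 := by
      rintro rfl
      apply hb
      rw [← htb]
      ring
    have hs0 : s ≠ 0 := by
      rintro rfl
      rw [mul_zero] at hs
      have : (1 : F) = 0 := by linear_combination hs
      exact one_ne_zero this
    obtain ⟨z, hz⟩ : ∃ z : V, z = (s * t) • a + b := ⟨_, rfl⟩
    have hQz : Q z = 0 := by
      rw [hz, q_add', QuadraticMap.map_smul, QuadraticMap.polar_smul_left, hab, smul_zero,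
        add_zero, smul_eq_mul, ← htb]
      have e : s * t * (s * t) * Q a + t * t * Q a = (s * s + 1) * (t * t * Q a) := by ring
      rw [e, hs]
      ring
    have hpolself : QuadraticMap.polar (⇑Q) a a = 2 * Q a := by
      rw [QuadraticMap.polar_self]
      simp [two_mul]
    have hza : QuadraticMap.polar (⇑Q) z a = s * t * (2 * Q a) := by
      rw [hz, QuadraticMap.polar_add_left, QuadraticMap.polar_smul_left, hpolself,
        QuadraticMap.polar_comm (⇑Q) b a, hab, add_zero, smul_eq_mul]
    have hza0 : QuadraticMap.polar (⇑Q) z a ≠ 0 := by
      rw [hza]
      exact mul_ne_zero (mul_ne_zero hs0 ht0) (mul_ne_zero h2 ha)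
    have hz0 : z ≠ 0 := by
      rintro rfl
      apply hza0
      exact QuadraticMap.polar_zero_left Q a
    have hxz : ∀ x ∈ J, QuadraticMap.polar (⇑Q) x z = 0 := by
      intro x hx
      rw [hz, QuadraticMap.polar_add_right, QuadraticMap.polar_smul_right,
        polar_span_zero Q a S haS x (hJ hx), polar_span_zero Q b S hbS x (hJ hx), smul_zero,
        add_zero]
    refine ⟨J ⊔ Submodule.span F {z}, ?_, ?_, ?_⟩
    · apply sup_le (hJ.trans hSTspan)
      rw [Submodule.span_le]
      intro y hy
      rw [Set.mem_singleton_iff] at hy
      rw [hy, hz]
      exact Submodule.add_mem _ (Submodule.smul_mem _ _ (Submodule.subset_span haT))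
        (Submodule.subset_span hbT)
    · intro y hy
      obtain ⟨x, hx, w, hw, rfl⟩ := Submodule.mem_sup.1 hy
      obtain ⟨c, rfl⟩ := Submodule.mem_span_singleton.1 hw
      rw [q_add', hJQ x hx, QuadraticMap.map_smul, hQz, QuadraticMap.polar_smul_right,
        hxz x hx]
      simp
    · have hdisj : J ⊓ Submodule.span F {z} = ⊥ := by
        rw [eq_bot_iff]
        rintro y ⟨hyJ, hyz⟩
        obtain ⟨c, rfl⟩ := Submodule.mem_span_singleton.1 hyz
        have e1 := polar_span_zero Q a S haS _ (hJ hyJ)
        rw [QuadraticMap.polar_smul_left, smul_eq_mul] at e1
        rcases mul_eq_zero.1 e1 with h | h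
        · rw [Submodule.mem_bot, h, zero_smul]
        · exact absurd h hza0
      have h3 := Submodule.finrank_sup_add_finrank_inf_eq J (Submodule.span F {z})
      rw [hdisj, finrank_bot, finrank_span_singleton hz0, hJd] at h3
      omega

/-- Pairing: an orthogonal list of `2 n` anisotropic vectors whose norms have a square product
spans a space containing totally singular subspaces of every dimension `≤ n` (if `-1 = s²`). -/
theorem pairing (Q : QuadraticForm F V) (h2 : (2 : F) ≠ 0) (s : F) (hs : s * s = -1) :
    ∀ (n : ℕ) (vs : List V), vs.length = 2 * n →
      vs.Pairwise (fun u w => QuadraticMap.polar (⇑Q) u w = 0) → (∀ v ∈ vs, Q v ≠ 0) →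
      IsSquare (vs.map (fun v => Q v)).prod →
      ∀ j ≤ n, ∃ J : Submodule F V, J ≤ Submodule.span F {v | v ∈ vs} ∧ (∀ x ∈ J, Q x = 0) ∧
        finrank F J = j := by
  intro n
  induction n with
  | zero =>
    intro vs _ _ _ _ j hj
    have hj0 : j = 0 := by omega
    subst hj0
    refine ⟨⊥, bot_le, ?_, finrank_bot F V⟩
    intro x hx
    rw [Submodule.mem_bot] at hx
    rw [hx, map_zero]
  | succ n ih =>
    intro vs hlen hpw hne hsq
    match vs, hlen, hpw, hne, hsq with
    | [], hlen, _, _, _ => simp at hlen
    | [a], hlen, _, _, _ => simp at hlen; omega
    | a :: b :: rest, hlen, hpw, hne, hsq =>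
      have hlen' : rest.length = 2 * n := by
        simp only [List.length_cons] at hlen
        omega
      rw [List.pairwise_cons, List.pairwise_cons] at hpw
      obtain ⟨haall, hball, hrest⟩ := hpw
      have ha : Q a ≠ 0 := hne a (by simp)
      have hb : Q b ≠ 0 := hne b (by simp)
      have hprod : (List.map (fun v => Q v) (a :: b :: rest)).prod =
          Q a * Q b * (rest.map (fun v => Q v)).prod := by
        simp only [List.map_cons, List.prod_cons]
        ring
      rw [hprod] at hsq
      by_cases hsab : IsSquare (Q a * Q b)
      · -- pair `a, b`
        have hsqrest : IsSquare (rest.map (fun v => Q v)).prod :=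
          isSquare_of_mul (mul_ne_zero ha hb) hsab hsq
        exact pair_step Q h2 s hs a b {v | v ∈ rest} {v | v ∈ a :: b :: rest} n
          (haall b (by simp)) (fun w hw => haall w (List.mem_cons_of_mem _ hw))
          (fun w hw => hball w hw) ha hb hsab (by simp) (by simp)
          (fun w hw => List.mem_cons_of_mem _ (List.mem_cons_of_mem _ hw))
          (ih rest hlen' hrest (fun v hv => hne v (List.mem_cons_of_mem _ (List.mem_cons_of_mem _ hv)))
            hsqrest)
      · -- a third vector is needed
        match rest, hlen', hrest, haall, hball, hne, hsq with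
        | [], hlen', _, _, _, _, hsq =>
          exfalso
          apply hsab
          simpa using hsq
        | c :: rest', hlen', hrest, haall, hball, hne, hsq =>
          have hc : Q c ≠ 0 := hne c (by simp)
          rw [List.pairwise_cons] at hrest
          obtain ⟨hcall, hrest'⟩ := hrest
          have hprod' : Q a * Q b * (List.map (fun v => Q v) (c :: rest')).prod =
              Q a * Q b * Q c * (rest'.map (fun v => Q v)).prod := by
            simp only [List.map_cons, List.prod_cons]
            ring
          rw [hprod'] at hsq
          have hlen'' : (rest').length + 1 = 2 * n := by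
            simpa using hlen'
          rcases isSquare_trichotomy ha hb hc hsab with hac | hbc
          · -- pair `a, c`, others `b :: rest'`
            have hsqo : IsSquare ((b :: rest').map (fun v => Q v)).prod := by
              apply isSquare_of_mul (mul_ne_zero ha hc) hac
              have e : Q a * Q c * (List.map (fun v => Q v) (b :: rest')).prod =
                  Q a * Q b * Q c * (rest'.map (fun v => Q v)).prod := by
                simp only [List.map_cons, List.prod_cons]
                ring
              rw [e]
              exact hsq
            have hpwo : (b :: rest').Pairwise (fun u w => QuadraticMap.polar (⇑Q) u w = 0) := by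
              rw [List.pairwise_cons]
              exact ⟨fun w hw => hball w (List.mem_cons_of_mem _ hw), hrest'⟩
            exact pair_step Q h2 s hs a c {v | v ∈ b :: rest'} {v | v ∈ a :: b :: c :: rest'} n
              (haall c (by simp))
              (fun w hw => haall w (by
                rcases List.mem_cons.1 hw with rfl | hw'
                · simp
                · exact List.mem_cons_of_mem _ (List.mem_cons_of_mem _ hw')))
              (fun w hw => by
                rcases List.mem_cons.1 hw with rfl | hw'
                · rw [QuadraticMap.polar_comm]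
                  exact hball c (by simp)
                · exact hcall w hw')
              ha hc hac (by simp) (by simp)
              (fun w hw => by
                rcases List.mem_cons.1 hw with rfl | hw'
                · simp
                · exact List.mem_cons_of_mem _ (List.mem_cons_of_mem _
                    (List.mem_cons_of_mem _ hw')))
              (ih (b :: rest') (by simpa using hlen'') hpwo
                (fun v hv => hne v (by
                  rcases List.mem_cons.1 hv with rfl | hv'
                  · simp
                  · exact List.mem_cons_of_mem _ (List.mem_cons_of_mem _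
                      (List.mem_cons_of_mem _ hv')))) hsqo)
          · -- pair `b, c`, others `a :: rest'`
            have hsqo : IsSquare ((a :: rest').map (fun v => Q v)).prod := by
              apply isSquare_of_mul (mul_ne_zero hb hc) hbc
              have e : Q b * Q c * (List.map (fun v => Q v) (a :: rest')).prod =
                  Q a * Q b * Q c * (rest'.map (fun v => Q v)).prod := by
                simp only [List.map_cons, List.prod_cons]
                ring
              rw [e]
              exact hsq
            have hpwo : (a :: rest').Pairwise (fun u w => QuadraticMap.polar (⇑Q) u w = 0) := by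
              rw [List.pairwise_cons]
              exact ⟨fun w hw => haall w (List.mem_cons_of_mem _ (List.mem_cons_of_mem _ hw)),
                hrest'⟩
            exact pair_step Q h2 s hs b c {v | v ∈ a :: rest'} {v | v ∈ a :: b :: c :: rest'} n
              (hball c (by simp))
              (fun w hw => by
                rcases List.mem_cons.1 hw with rfl | hw'
                · rw [QuadraticMap.polar_comm]
                  exact haall b (by simp)
                · exact hball w (List.mem_cons_of_mem _ hw'))
              (fun w hw => by
                rcases List.mem_cons.1 hw with rfl | hw'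
                · rw [QuadraticMap.polar_comm]
                  exact haall c (by simp)
                · exact hcall w hw')
              hb hc hbc (by simp) (by simp)
              (fun w hw => by
                rcases List.mem_cons.1 hw with rfl | hw'
                · simp
                · exact List.mem_cons_of_mem _ (List.mem_cons_of_mem _
                    (List.mem_cons_of_mem _ hw')))
              (ih (a :: rest') (by simpa using hlen'') hpwo
                (fun v hv => hne v (by
                  rcases List.mem_cons.1 hv with rfl | hv'
                  · simp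
                  · exact List.mem_cons_of_mem _ (List.mem_cons_of_mem _
                      (List.mem_cons_of_mem _ hv')))) hsqo)

end

end Cfsg.Agent.H86.Ot
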