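import Mathlib
import Cfsg.Agent.H14.OtDefs

set_option autoImplicit false

/-! S5972 team project (helper14), piece OT-SPLIT: for `T ^ r = 1` with `r` invertible,
`V = ker (T - 1) ⊕ range (T - 1)` and every invariant subspace splits accordingly. -/

namespace Cfsg.Agent.H86.Ot

open Cfsg.Agent.H45 Cfsg.Agent.H42.Spd Cfsg.Agent.H42.Ti Cfsg.Agent.H14.Ot Module Polynomial

universe u v

theorem oSplit : Cfsg.Agent.H14.Ot.StOSplit.{u, v} := by
  intro F _ V _ _ _ r T hr hT
  -- the averaging operator
  obtain ⟨P, hP⟩ : ∃ P : Module.End F V, P = ∑ j ∈ Finset.range r, T ^ j := ⟨_, rfl⟩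
  have hP1 : P * (T - 1) = 0 := by
    rw [hP, geom_sum_mul, hT, sub_self]
  have hP2 : (T - 1) * P = 0 := by
    rw [hP, mul_geom_sum, hT, sub_self]
  -- on the kernel `P` is multiplication by `r`
  have hker : ∀ k ∈ LinearMap.ker (T - 1), P k = (r : F) • k := by
    intro k hk
    rw [LinearMap.mem_ker, LinearMap.sub_apply, sub_eq_zero] at hk
    have hpow : ∀ j : ℕ, (T ^ j) k = k := by
      intro j
      induction j with
      | zero => simp
      | succ j ih =>
        rw [pow_succ, Module.End.mul_apply, hk]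
        exact ih
    rw [hP, LinearMap.sum_apply]
    rw [Finset.sum_congr rfl (fun j _ => hpow j), Finset.sum_const, Finset.card_range]
    exact (Nat.cast_smul_eq_nsmul F r k).symm
  -- `P w` lies in the kernel
  have hPker : ∀ w : V, P w ∈ LinearMap.ker (T - 1) := by
    intro w
    rw [LinearMap.mem_ker, ← Module.End.mul_apply, hP2, LinearMap.zero_apply]
  -- `w - T^j w` lies in the range
  have hrange : ∀ (j : ℕ) (w : V), w - (T ^ j) w ∈ LinearMap.range (T - 1) := by
    intro j w
    induction j with
    | zero => simp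
    | succ j ih =>
      have e : w - (T ^ (j + 1)) w = (w - (T ^ j) w) - (T - 1) ((T ^ j) w) := by
        rw [pow_succ', Module.End.mul_apply, LinearMap.sub_apply, Module.End.one_apply]
        abel
      rw [e]
      exact Submodule.sub_mem _ ih (LinearMap.mem_range_self _ _)
  have hrw : ∀ w : V, (r : F) • w - P w ∈ LinearMap.range (T - 1) := by
    intro w
    have e : (r : F) • w - P w = ∑ j ∈ Finset.range r, (w - (T ^ j) w) := by
      rw [Finset.sum_sub_distrib, Finset.sum_const, Finset.card_range, hP, LinearMap.sum_apply,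
        Nat.cast_smul_eq_nsmul]
    rw [e]
    exact Submodule.sum_mem _ (fun j _ => hrange j w)
  -- invariance
  have hinvP : ∀ W : Submodule F V, W ∈ T.invtSubmodule → ∀ w ∈ W, P w ∈ W := by
    intro W hW w hw
    rw [Module.End.mem_invtSubmodule] at hW
    have hpow : ∀ j : ℕ, (T ^ j) w ∈ W := by
      intro j
      induction j with
      | zero => simpa using hw
      | succ j ih =>
        rw [pow_succ', Module.End.mul_apply]
        exact hW ih
    rw [hP, LinearMap.sum_apply]
    exact Submodule.sum_mem _ (fun j _ => hpow j)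
  have hdecomp : ∀ W : Submodule F V, W ∈ T.invtSubmodule → ∀ w ∈ W,
      w ∈ (W ⊓ LinearMap.ker (T - 1)) ⊔ (W ⊓ LinearMap.range (T - 1)) := by
    intro W hW w hw
    have h1 : P w ∈ W ⊓ LinearMap.ker (T - 1) := ⟨hinvP W hW w hw, hPker w⟩
    have h2 : (r : F) • w - P w ∈ W ⊓ LinearMap.range (T - 1) :=
      ⟨Submodule.sub_mem _ (Submodule.smul_mem _ _ hw) (hinvP W hW w hw), hrw w⟩
    have e : w = (r : F)⁻¹ • P w + (r : F)⁻¹ • ((r : F) • w - P w) := by
      rw [← smul_add, add_sub_cancel, smul_smul, inv_mul_cancel₀ hr, one_smul]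
    rw [e]
    exact Submodule.add_mem _ (Submodule.mem_sup_left (Submodule.smul_mem _ _ h1))
      (Submodule.mem_sup_right (Submodule.smul_mem _ _ h2))
  refine ⟨?_, ?_, ?_⟩
  · rw [eq_bot_iff]
    rintro x ⟨hxk, y, rfl⟩
    have h1 := hker _ hxk
    rw [← Module.End.mul_apply, hP1, LinearMap.zero_apply] at h1
    rw [Submodule.mem_bot]
    rcases (smul_eq_zero.1 h1.symm) with h | h
    · exact absurd h hr
    · exact h
  · rw [eq_top_iff]
    intro w _
    have htop : (⊤ : Submodule F V) ∈ T.invtSubmodule := by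
      rw [Module.End.mem_invtSubmodule]
      exact le_top
    have := hdecomp ⊤ htop w Submodule.mem_top
    rw [top_inf_eq, top_inf_eq] at this
    exact this
  · intro W hW
    apply le_antisymm
    · exact sup_le inf_le_left inf_le_left
    · intro w hw
      exact hdecomp W hW w hw

example : Cfsg.Agent.H14.Ot.StOSplit.{u, v} := oSplit

end Cfsg.Agent.H86.Ot
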