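import Mathlib
import Cfsg.Agent.H86.Ev2R2Common

/-!
# EV2 (helper86): the `r = 2` line of S5987 (minus type, totally singular `m`-spaces)
-/

set_option autoImplicit false

namespace Cfsg.Agent.H86.Ev2

open Matrix Module Cfsg.Agent.H45 Cfsg.Agent.H42.Spd Cfsg.Agent.H42.Ti Cfsg.Agent.H14.Ot
  Cfsg.Agent.H95.Oh

universe u

/-- Repackaging `StBrM` as a `Bridge`. -/
theorem brM_bridge (hBr : StBrM.{u}) (F : Type u) [Field F] [Fintype F] (n : ℕ) (a b : F)
    (h2 : (2 : F) ≠ 0)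
    (hab : ∀ x y : F, x ^ 2 + a * x * y + b * y ^ 2 = 0 → x = 0 ∧ y = 0) :
    ∃ B : ((Fin n ⊕ Fin n) ⊕ Fin 2 → F) →ₗ[F] ((Fin n ⊕ Fin n) ⊕ Fin 2 → F) →ₗ[F] F,
      Bridge (Cfsg.Agent.H49.QMin n F a b) B ∧ ¬ Plus B ⊤ := by
  obtain ⟨B, h1, h2', h3, h4, h5, h6, h7⟩ := hBr F n a b h2 hab
  exact ⟨B, ⟨h1, h2', h3, h4, h5, h7⟩, h6⟩

theorem finrank_minus (F : Type u) [Field F] (n : ℕ) :
    Module.finrank F ((Fin n ⊕ Fin n) ⊕ Fin 2 → F) = 2 * (n + 1) := by
  rw [Module.finrank_fintype_fun_eq_card]; simp; ring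

theorem card_minus_half (n : ℕ) : Fintype.card ((Fin n ⊕ Fin n) ⊕ Fin 2) / 2 = n + 1 := by
  simp; omega

theorem r2M87 (hBr : StBrM.{u}) (hInvMinus : StInvMinus.{u,u}) (hNoMinus : StNoMinus.{u})
    (hJSpin : StJSpin.{u}) (hJTs : StJTs.{u,u}) (hExJ : StExJMinus.{u})
    (hJEven : StJEven.{u,u}) : StR2M87.{u} := by
  intro F _ _ n m a b hodd hn hm hmn hab
  have h2 : (2 : F) ≠ 0 := Cfsg.Agent.H49.two_ne_zero_of_odd_card hodd
  obtain ⟨B, hB, hNP⟩ := brM_bridge hBr F n a b h2 hab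
  have : Nonempty ((Fin n ⊕ Fin n) ⊕ Fin 2) := ⟨Sum.inr 0⟩
  obtain ⟨v₀, hv₀⟩ := hB.exists_nonsing
  have hfin := finrank_minus F n
  have hm1 := isSquare_neg_one_iff_mod4 hodd
  have h2sq := isSquare_two_iff_mod8 hodd
  have hcard := card_minus_half n
  constructor
  · -- (⇒)
    intro hall
    by_contra hcon
    push Not at hcon
    obtain ⟨hd1, hm', hq7⟩ := hcon
    have hns : ¬ IsSquare (-1 : F) := by rw [hm1]; omega
    have hne : Even n := by
      rcases Nat.even_or_odd n with h | h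
      · exact h
      · exact absurd h.add_one hd1
    obtain ⟨x, hx, hxx⟩ := hExJ F n a b h2 hab hne hns
    have hxΩ : x ∈ Cfsg.Geo.omegaGL (Cfsg.quadFormMinus n F a b) := by
      have := hJSpin F _ (Cfsg.Agent.H49.QMin n F a b) h2 hB.polar_nd x hx hxx
      apply this.mpr
      rw [isSquare_two_pow_iff h2]
      right
      rw [h2sq]; right; exact hq7
    obtain ⟨W, ⟨hWm, hWts⟩, hWinv⟩ :=
      hall x hxΩ (J_sq_scalar x hxx) (nonscalar_of_J hns x hxx)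
    have := hJEven F ((Fin n ⊕ Fin n) ⊕ Fin 2 → F) (Matrix.toLin' (x : Matrix _ _ F))
      (toLin_J x hxx) hns W ((map_le_iff_invt _ _).mp hWinv)
    rw [hWm] at this
    exact hm' this
  · -- (⇐)
    intro hR x hxΩ hz hns
    have hx := omega_isom _ hxΩ
    have hTiso : ∀ u v, B (Matrix.toLin' (x : Matrix ((Fin n ⊕ Fin n) ⊕ Fin 2)
        ((Fin n ⊕ Fin n) ⊕ Fin 2) F) u) (Matrix.toLin' (x : Matrix ((Fin n ⊕ Fin n) ⊕ Fin 2)
        ((Fin n ⊕ Fin n) ⊕ Fin 2) F) v) = B u v :=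
      (hB.iso x).mp hx
    have key : (∃ W : Submodule F ((Fin n ⊕ Fin n) ⊕ Fin 2 → F),
        W ∈ Module.End.invtSubmodule (Matrix.toLin' (x : Matrix ((Fin n ⊕ Fin n) ⊕ Fin 2)
          ((Fin n ⊕ Fin n) ⊕ Fin 2) F)) ∧ TI B W ∧ Module.finrank F W = m) →
        ∃ W : Submodule F ((Fin n ⊕ Fin n) ⊕ Fin 2 → F),
          (Module.finrank F ↥W = m ∧
            Cfsg.Geo.IsTotallySingularQuad (Cfsg.quadFormMinus n F a b) W) ∧
          W.map (Matrix.toLin' (x : Matrix ((Fin n ⊕ Fin n) ⊕ Fin 2)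
            ((Fin n ⊕ Fin n) ⊕ Fin 2) F)) ≤ W := by
      rintro ⟨W, h1, h2', h3⟩
      exact ⟨W, ⟨h3, (hB.ti_iff h2 W).mp h2'⟩, (map_le_iff_invt _ _).mpr h1⟩
    apply key
    rcases sq_cases (Cfsg.Agent.H49.QMin n F a b) v₀ hv₀ x hx hz with ⟨hx2, hTT⟩ | ⟨hxx, hTT⟩
    · exact hInvMinus F _ B _ h2 hB.symm hB.nd hTiso hTT hNP (n + 1) m hfin (by omega)
    · obtain ⟨hne, hns'⟩ := hNoMinus F n a b h2 hab x hx hxx
      have hno : ¬ Even (n + 1) := by
        rw [Nat.even_add_one]; exact not_not.mpr hne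
      have hsq2 : IsSquare (2 : F) := by
        have := (hJSpin F _ (Cfsg.Agent.H49.QMin n F a b) h2 hB.polar_nd x hx hxx).mp hxΩ
        rw [hcard, isSquare_two_pow_iff h2] at this
        rcases this with h | h
        · exact absurd h hno
        · exact h
      have hq7 : Fintype.card F % 8 = 7 := by
        rw [h2sq] at hsq2
        rw [hm1] at hns'
        omega
      have hme : Even m := by
        rcases hR with h | h | h
        · exact absurd h hno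
        · exact h
        · exact absurd hq7 h
      obtain ⟨j, hj⟩ := hme
      obtain ⟨W, h1, h2', h3⟩ := hJTs F _ B _ h2 hns' hB.symm hB.nd hTiso hTT j
        (by rw [hfin]; omega)
      exact ⟨W, h1, h2', by rw [h3, hj]; ring⟩

end Cfsg.Agent.H86.Ev2
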