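import Mathlib
import Cfsg.Agent.H86.Ev2R2M87

/-!
# EV2 (helper86): the `r = 2` line of S5991 (minus type, nondegenerate `m`-spaces, `m` odd)
-/

set_option autoImplicit false

namespace Cfsg.Agent.H86.Ev2

open Matrix Module Cfsg.Agent.H45 Cfsg.Agent.H42.Spd Cfsg.Agent.H42.Ti Cfsg.Agent.H14.Ot
  Cfsg.Agent.H95.Oh

universe u

theorem r2M91 (hBr : StBrM.{u}) (hO : StOrtho.{u,u}) (hSp : StSpanNd.{u,u})
    (hIs : StIsoGen.{u,u}) (hInvOdd : StInvOdd.{u,u}) (hNoMinus : StNoMinus.{u})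
    (hJSpin : StJSpin.{u}) (hExJ : StExJMinus.{u}) (hJEven : StJEven.{u,u}) :
    StR2M91.{u} := by
  intro F _ _ n m a b hodd hn hmo hmn hab W₀ hW₀
  have h2 : (2 : F) ≠ 0 := Cfsg.Agent.H49.two_ne_zero_of_odd_card hodd
  obtain ⟨B, hB, hNP⟩ := brM_bridge hBr F n a b h2 hab
  have : Nonempty ((Fin n ⊕ Fin n) ⊕ Fin 2) := ⟨Sum.inr 0⟩
  obtain ⟨v₀, hv₀⟩ := hB.exists_nonsing
  have hfin := finrank_minus F n
  have hm1 := isSquare_neg_one_iff_mod4 hodd
  have h2sq := isSquare_two_iff_mod8 hodd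
  have hcard := card_minus_half n
  constructor
  · -- (⇒)
    intro hall
    by_contra hcon
    push Not at hcon
    obtain ⟨hd1, hq7⟩ := hcon
    have hns : ¬ IsSquare (-1 : F) := by rw [hm1]; omega
    have hne : Even n := by
      rcases Nat.even_or_odd n with h | h
      · exact h
      · exact absurd h.add_one hd1
    obtain ⟨x, hx, hxx⟩ := hExJ F n a b h2 hab hne hns
    have hxΩ : x ∈ Cfsg.Geo.omegaGL (Cfsg.quadFormMinus n F a b) := by
      have := hJSpin F _ (Cfsg.Agent.H49.QMin n F a b) h2 hB.polar_nd x hx hxx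
      apply this.mpr
      rw [isSquare_two_pow_iff h2]
      right
      rw [h2sq]; right; exact hq7
    obtain ⟨W, ⟨hWm, hWnd, _⟩, hWinv⟩ :=
      hall x hxΩ (J_sq_scalar x hxx) (nonscalar_of_J hns x hxx)
    have := hJEven F ((Fin n ⊕ Fin n) ⊕ Fin 2 → F) (Matrix.toLin' (x : Matrix _ _ F))
      (toLin_J x hxx) hns W ((map_le_iff_invt _ _).mp hWinv)
    rw [hWm] at this
    exact (Nat.not_even_iff_odd.mpr hmo) this
  · -- (⇐)
    intro hR x hxΩ hz hns
    have hx := omega_isom _ hxΩ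
    have hTiso : ∀ u v, B (Matrix.toLin' (x : Matrix ((Fin n ⊕ Fin n) ⊕ Fin 2)
        ((Fin n ⊕ Fin n) ⊕ Fin 2) F) u) (Matrix.toLin' (x : Matrix ((Fin n ⊕ Fin n) ⊕ Fin 2)
        ((Fin n ⊕ Fin n) ⊕ Fin 2) F) v) = B u v :=
      (hB.iso x).mp hx
    rcases sq_cases (Cfsg.Agent.H49.QMin n F a b) v₀ hv₀ x hx hz with ⟨hx2, hTT⟩ | ⟨hxx, hTT⟩
    · obtain ⟨v, hv, hvW⟩ := hB.exists_ortho hO h2 m W₀ hW₀
      have hδ : (∏ a, B (v a) (v a)) ≠ 0 := Finset.prod_ne_zero_iff.mpr (fun a _ => hv.2 a)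
      obtain ⟨w, hw, hsq, hinv⟩ := hInvOdd F _ B _ h2 hB.symm hB.nd hTiso hTT m
        (∏ a, B (v a) (v a)) (by obtain ⟨k, hk⟩ := hmo; omega) (by rw [hfin]; omega)
        (by rw [hfin]; omega) hδ
      exact hB.fix_nd hSp hIs h2 m W₀ v hv hvW w hw hsq _ hinv
    · exfalso
      obtain ⟨hne, hns'⟩ := hNoMinus F n a b h2 hab x hx hxx
      have hno : ¬ Even (n + 1) := by
        rw [Nat.even_add_one]; exact not_not.mpr hne
      have hsq2 : IsSquare (2 : F) := by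
        have := (hJSpin F _ (Cfsg.Agent.H49.QMin n F a b) h2 hB.polar_nd x hx hxx).mp hxΩ
        rw [hcard, isSquare_two_pow_iff h2] at this
        rcases this with h | h
        · exact absurd h hno
        · exact h
      have hq7 : Fintype.card F % 8 = 7 := by
        rw [h2sq] at hsq2
        rw [hm1] at hns'
        omega
      rcases hR with h | h
      · exact hno h
      · exact h hq7

end Cfsg.Agent.H86.Ev2
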