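import Mathlib
import Cfsg.Agent.H86.Ev2R2Common

/-!
# EV2 (helper86): the `r = 2` line of S5973 (plus type, totally singular `m`-spaces)
-/

set_option autoImplicit false

namespace Cfsg.Agent.H86.Ev2

open Matrix Module Cfsg.Agent.H45 Cfsg.Agent.H42.Spd Cfsg.Agent.H42.Ti Cfsg.Agent.H14.Ot
  Cfsg.Agent.H95.Oh

universe u

/-- Repackaging `StBrP` as a `Bridge`. -/
theorem brP_bridge (hBr : StBrP.{u}) (F : Type u) [Field F] [Fintype F] (d : ℕ)
    (h2 : (2 : F) ≠ 0) :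
    ∃ B : (Fin d ⊕ Fin d → F) →ₗ[F] (Fin d ⊕ Fin d → F) →ₗ[F] F,
      Bridge (Cfsg.Agent.H49.QP d F) B ∧ Plus B ⊤ := by
  obtain ⟨B, h1, h2', h3, h4, h5, h6, h7⟩ := hBr F d h2
  exact ⟨B, ⟨h1, h2', h3, h4, h5, h7⟩, h6⟩

theorem finrank_plus (F : Type u) [Field F] (d : ℕ) :
    Module.finrank F (Fin d ⊕ Fin d → F) = 2 * d := by
  rw [Module.finrank_fintype_fun_eq_card]; simp; ring

theorem r2P73 (hBr : StBrP.{u}) (hInvSq : StInvSq.{u}) (hJEig : StJEig.{u,u})
    (hInvLowE : StInvLowE.{u,u}) (hNoPlus : StNoPlus.{u}) (hJTs : StJTs.{u,u})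
    (hInvExP : StInvExP.{u}) (hExJ : StExJPlus.{u}) (hJSpin : StJSpin.{u})
    (hJEven : StJEven.{u,u}) : StR2P73.{u} := by
  intro F _ _ d m hodd hd hm hmd
  have h2 : (2 : F) ≠ 0 := Cfsg.Agent.H49.two_ne_zero_of_odd_card hodd
  obtain ⟨B, hB, hPlus⟩ := brP_bridge hBr F d h2
  have : Nonempty (Fin d ⊕ Fin d) := ⟨Sum.inl ⟨0, by omega⟩⟩
  obtain ⟨v₀, hv₀⟩ := hB.exists_nonsing
  have hfin := finrank_plus F d
  have hm1 := isSquare_neg_one_iff_mod4 hodd
  have hq4 : Fintype.card F % 4 = 1 ∨ Fintype.card F % 4 = 3 := by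
    have := Nat.odd_iff.mp hodd; omega
  constructor
  · -- (⇒)
    intro hall
    by_contra hcon
    have hq3 : Fintype.card F % 4 = 3 := by
      rcases hq4 with h | h
      · exact absurd (Or.inl h) hcon
      · exact h
    have hns : ¬ IsSquare (-1 : F) := by rw [hm1]; omega
    by_cases hmd2 : m + 2 ≤ d
    · -- Odd m, Even d
      have hmo : ¬ Even m := fun h => hcon (Or.inr ⟨hq3, hmd2, Or.inl h⟩)
      have hde : Even d := by
        by_contra hd'
        apply hcon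
        refine Or.inr ⟨hq3, hmd2, Or.inr ?_⟩
        obtain ⟨k, hk⟩ := Nat.not_even_iff_odd.mp hd'
        omega
      obtain ⟨x, hx, hxx⟩ := hExJ F d (Or.inl hde)
      have hxΩ : x ∈ Cfsg.Geo.omegaGL (Cfsg.quadFormPlus d F) := by
        have := hJSpin F (Fin d ⊕ Fin d) (Cfsg.Agent.H49.QP d F) h2 hB.polar_nd x hx hxx
        apply this.mpr
        rw [isSquare_two_pow_iff h2]
        left
        have hc : Fintype.card (Fin d ⊕ Fin d) / 2 = d := by simp; omega
        rw [hc]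
        exact hde
      obtain ⟨W, hWm, hWts, hWinv⟩ :=
        hall x hxΩ (J_sq_scalar x hxx) (nonscalar_of_J hns x hxx)
      have := hJEven F (Fin d ⊕ Fin d → F) (Matrix.toLin' (x : Matrix _ _ F)) (toLin_J x hxx)
        hns W ((map_le_iff_invt _ _).mp hWinv)
      rw [hWm] at this
      exact hmo this
    · -- m = d - 1
      obtain ⟨x, hxΩ, hx2, hxns, hxW⟩ := hInvExP F d h2 hns (by omega)
      obtain ⟨W, hWm, hWts, hWinv⟩ := hall x hxΩ ⟨1, by rw [hx2]; simp⟩ hxns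
      have := hxW W hWts hWinv
      omega
  · -- (⇐)
    intro hR x hxΩ hz hns
    have hx := omega_isom _ hxΩ
    have hTiso : ∀ u v, B (Matrix.toLin' (x : Matrix (Fin d ⊕ Fin d) (Fin d ⊕ Fin d) F) u)
        (Matrix.toLin' (x : Matrix (Fin d ⊕ Fin d) (Fin d ⊕ Fin d) F) v) = B u v :=
      (hB.iso x).mp hx
    have key : (∃ W : Submodule F (Fin d ⊕ Fin d → F),
        W ∈ Module.End.invtSubmodule
            (Matrix.toLin' (x : Matrix (Fin d ⊕ Fin d) (Fin d ⊕ Fin d) F)) ∧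
          TI B W ∧ Module.finrank F W = m) →
        ∃ W : Submodule F (Fin d ⊕ Fin d → F), Module.finrank F ↥W = m ∧
          (∀ w ∈ W, Cfsg.quadFormPlus d F w = 0) ∧
          W.map (Matrix.toLin' (x : Matrix (Fin d ⊕ Fin d) (Fin d ⊕ Fin d) F)) ≤ W := by
      rintro ⟨W, h1, h2', h3⟩
      exact ⟨W, h3, (hB.ti_iff h2 W).mp h2', (map_le_iff_invt _ _).mpr h1⟩
    rcases sq_cases (Cfsg.Agent.H49.QP d F) v₀ hv₀ x hx hz with ⟨hx2, hTT⟩ | ⟨hxx, hTT⟩
    · -- involution
      rcases hR with hq1 | ⟨hq3, hmd2, _⟩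
      · have hsq : IsSquare (-1 : F) := hm1.mpr hq1
        obtain ⟨U, hU1, hU2, hU3⟩ := hPlus
        have hUd : Module.finrank F U = d := by
          rw [finrank_top, hfin] at hU3; omega
        exact hInvSq F (Fin d ⊕ Fin d) (Cfsg.Agent.H49.QP d F) h2 hsq hB.polar_nd d
          (by simp; ring) ⟨U, (hB.ti_iff h2 U).mp hU2, hUd⟩ x hxΩ hx2 m (by omega)
      · apply key
        exact hInvLowE F (Fin d ⊕ Fin d → F) B _ h2 hB.symm hB.nd hTiso hTT d m hfin hmd2
    · -- x * x = -1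
      apply key
      rcases hR with hq1 | ⟨hq3, hmd2, hme⟩
      · have hsq : IsSquare (-1 : F) := hm1.mpr hq1
        exact (hJEig F (Fin d ⊕ Fin d → F) B _ h2 hsq hB.symm hB.nd hTiso hTT).2 m
          (by rw [hfin]; omega)
      · have hns' : ¬ IsSquare (-1 : F) := by rw [hm1]; omega
        by_cases hdo : Odd d
        · exact absurd hxx (hNoPlus F d h2 hdo hns' x hx)
        · have hme' : Even m := by
            rcases hme with h | h
            · exact h
            · exfalso; apply hdo; rw [Nat.odd_iff]; omega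
          obtain ⟨j, hj⟩ := hme'
          obtain ⟨W, h1, h2', h3⟩ := hJTs F (Fin d ⊕ Fin d → F) B _ h2 hns' hB.symm hB.nd
            hTiso hTT j (by rw [hfin]; omega)
          exact ⟨W, h1, h2', by rw [h3, hj]; ring⟩

end Cfsg.Agent.H86.Ev2
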