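import Mathlib
import Cfsg.Agent.H86.Ev2R2P73

/-!
# EV2 (helper86): the `r = 2` line of S5989 (plus type, nondegenerate `m`-spaces, `m` odd)
-/

set_option autoImplicit false

namespace Cfsg.Agent.H86.Ev2

open Matrix Module Cfsg.Agent.H45 Cfsg.Agent.H42.Spd Cfsg.Agent.H42.Ti Cfsg.Agent.H14.Ot
  Cfsg.Agent.H95.Oh

universe u

/-- For `s * s = -1`, the matrix `diag(s, …, s, -s, …, -s)` is a non-scalar isometry of the plus
space squaring to `-1`. -/
theorem exJ_diag (F : Type u) [Field F] (d : ℕ) (hd : 0 < d) (h2 : (2 : F) ≠ 0) (s : F)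
    (hs : s * s = -1) :
    ∃ x : Matrix.GeneralLinearGroup (Fin d ⊕ Fin d) F,
      x ∈ Cfsg.isometryGroup F (Cfsg.quadFormPlus d F) ∧
      (x : Matrix (Fin d ⊕ Fin d) (Fin d ⊕ Fin d) F) *
        (x : Matrix (Fin d ⊕ Fin d) (Fin d ⊕ Fin d) F) = -1 ∧
      ∀ z : F, (x : Matrix (Fin d ⊕ Fin d) (Fin d ⊕ Fin d) F) ≠
        z • (1 : Matrix (Fin d ⊕ Fin d) (Fin d ⊕ Fin d) F) := by
  set M : Matrix (Fin d ⊕ Fin d) (Fin d ⊕ Fin d) F :=
    Matrix.diagonal (Sum.elim (fun _ => s) (fun _ => -s)) with hM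
  have hMM : M * M = -1 := by
    rw [hM, Matrix.diagonal_mul_diagonal]
    have h1 : (-1 : Matrix (Fin d ⊕ Fin d) (Fin d ⊕ Fin d) F)
        = Matrix.diagonal (fun _ => (-1 : F)) := by
      ext i j
      by_cases hij : i = j
      · subst hij; simp
      · simp [Matrix.diagonal_apply_ne _ hij, Matrix.one_apply_ne hij]
    rw [h1]
    congr 1
    funext i
    rcases i with i | i
    · simp [hs]
    · simp [hs]
  let x : Matrix.GeneralLinearGroup (Fin d ⊕ Fin d) F :=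
    ⟨M, -M, by rw [mul_neg, hMM, neg_neg], by rw [neg_mul, hMM, neg_neg]⟩
  refine ⟨x, ?_, hMM, ?_⟩
  · rw [Cfsg.Agent.H49.mem_isometryGroup_iff]
    intro u
    show Cfsg.quadFormPlus d F (M *ᵥ u) = Cfsg.quadFormPlus d F u
    simp only [Cfsg.quadFormPlus, hM, Matrix.mulVec_diagonal, Sum.elim_inl, Sum.elim_inr]
    refine Finset.sum_congr rfl fun i _ => ?_
    linear_combination (-(u (Sum.inl i) * u (Sum.inr i))) * hs
  · intro z hz
    have h1 := congrFun (congrFun hz (Sum.inl ⟨0, hd⟩)) (Sum.inl ⟨0, hd⟩)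
    have h3 := congrFun (congrFun hz (Sum.inr ⟨0, hd⟩)) (Sum.inr ⟨0, hd⟩)
    have h1' : s = z := by simpa [x, hM] using h1
    have h3' : -s = z := by simpa [x, hM] using h3
    have h4 : 2 * s = 0 := by linear_combination h1' - h3'
    rcases mul_eq_zero.mp h4 with h | h
    · exact h2 h
    · rw [h] at hs; simp at hs

theorem r2P89 (hBr : StBrP.{u}) (hO : StOrtho.{u,u}) (hSp : StSpanNd.{u,u})
    (hIs : StIsoGen.{u,u}) (hInvOdd : StInvOdd.{u,u}) (hNoPlus : StNoPlus.{u})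
    (hJSpin : StJSpin.{u}) (hExJ : StExJPlus.{u}) (hJEven : StJEven.{u,u})
    (hJEig : StJEig.{u,u}) : StR2P89.{u} := by
  intro F _ _ d m hodd hd hmo hmd W₀ hW₀
  have h2 : (2 : F) ≠ 0 := Cfsg.Agent.H49.two_ne_zero_of_odd_card hodd
  obtain ⟨B, hB, hPlus⟩ := brP_bridge hBr F d h2
  have : Nonempty (Fin d ⊕ Fin d) := ⟨Sum.inl ⟨0, by omega⟩⟩
  obtain ⟨v₀, hv₀⟩ := hB.exists_nonsing
  have hfin := finrank_plus F d
  have hm1 := isSquare_neg_one_iff_mod4 hodd
  have h2sq := isSquare_two_iff_mod8 hodd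
  have hcard : Fintype.card (Fin d ⊕ Fin d) / 2 = d := by simp; omega
  constructor
  · -- (⇒)
    intro hall
    by_contra hcon
    have hcase : Even d ∨ Fintype.card F % 8 = 1 := by
      by_contra h
      push Not at h
      exact hcon ⟨Nat.not_even_iff_odd.mp h.1, h.2⟩
    have hex : ∃ x : Matrix.GeneralLinearGroup (Fin d ⊕ Fin d) F,
        x ∈ Cfsg.isometryGroup F (Cfsg.quadFormPlus d F) ∧
        (x : Matrix (Fin d ⊕ Fin d) (Fin d ⊕ Fin d) F) *
          (x : Matrix (Fin d ⊕ Fin d) (Fin d ⊕ Fin d) F) = -1 ∧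
        ∀ z : F, (x : Matrix (Fin d ⊕ Fin d) (Fin d ⊕ Fin d) F) ≠
          z • (1 : Matrix (Fin d ⊕ Fin d) (Fin d ⊕ Fin d) F) := by
      by_cases hsq : IsSquare (-1 : F)
      · obtain ⟨s, hs⟩ := hsq
        exact exJ_diag F d (by omega) h2 s hs.symm
      · have hde : Even d := by
          rcases hcase with h | h
          · exact h
          · exfalso; apply hsq; rw [hm1]; omega
        obtain ⟨x, hx, hxx⟩ := hExJ F d (Or.inl hde)
        exact ⟨x, hx, hxx, nonscalar_of_J hsq x hxx⟩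
    obtain ⟨x, hx, hxx, hxns⟩ := hex
    have hxΩ : x ∈ Cfsg.Geo.omegaGL (Cfsg.quadFormPlus d F) := by
      apply (hJSpin F _ (Cfsg.Agent.H49.QP d F) h2 hB.polar_nd x hx hxx).mpr
      rw [hcard, isSquare_two_pow_iff h2]
      rcases hcase with h | h
      · exact Or.inl h
      · right; rw [h2sq]; exact Or.inl h
    obtain ⟨W, ⟨hWm, hWnd, _⟩, hWinv⟩ := hall x hxΩ (J_sq_scalar x hxx) hxns
    have hinv := (map_le_iff_invt _ _).mp hWinv
    have hev : Even (Module.finrank F W) := by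
      by_cases hsq : IsSquare (-1 : F)
      · exact (hJEig F _ B _ h2 hsq hB.symm hB.nd ((hB.iso x).mp hx) (toLin_J x hxx)).1 W hinv
          ((hB.ndW W).mp hWnd)
      · exact hJEven F _ _ (toLin_J x hxx) hsq W hinv
    rw [hWm] at hev
    exact (Nat.not_even_iff_odd.mpr hmo) hev
  · -- (⇐)
    rintro ⟨hdo, hq1⟩ x hxΩ hz hns
    have hx := omega_isom _ hxΩ
    have hTiso : ∀ u v, B (Matrix.toLin' (x : Matrix (Fin d ⊕ Fin d) (Fin d ⊕ Fin d) F) u)
        (Matrix.toLin' (x : Matrix (Fin d ⊕ Fin d) (Fin d ⊕ Fin d) F) v) = B u v :=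
      (hB.iso x).mp hx
    rcases sq_cases (Cfsg.Agent.H49.QP d F) v₀ hv₀ x hx hz with ⟨hx2, hTT⟩ | ⟨hxx, hTT⟩
    · obtain ⟨v, hv, hvW⟩ := hB.exists_ortho hO h2 m W₀ hW₀
      have hδ : (∏ a, B (v a) (v a)) ≠ 0 := Finset.prod_ne_zero_iff.mpr (fun a _ => hv.2 a)
      obtain ⟨w, hw, hsq, hinv⟩ := hInvOdd F _ B _ h2 hB.symm hB.nd hTiso hTT m
        (∏ a, B (v a) (v a)) (by obtain ⟨k, hk⟩ := hmo; omega) (by rw [hfin]; omega)
        (by rw [hfin]; omega) hδ
      exact hB.fix_nd hSp hIs h2 m W₀ v hv hvW w hw hsq _ hinv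
    · exfalso
      have hsq2 : IsSquare (2 : F) := by
        have := (hJSpin F _ (Cfsg.Agent.H49.QP d F) h2 hB.polar_nd x hx hxx).mp hxΩ
        rw [hcard, isSquare_two_pow_iff h2] at this
        rcases this with h | h
        · exact absurd h (Nat.not_even_iff_odd.mpr hdo)
        · exact h
      have hns' : ¬ IsSquare (-1 : F) := by
        rw [hm1]; rw [h2sq] at hsq2; omega
      exact hNoPlus F d h2 hdo hns' x hx hxx

end Cfsg.Agent.H86.Ev2
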