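import Mathlib
import Cfsg.Agent.H14.OtDefs
import Cfsg.Agent.H49.Witt

set_option autoImplicit false

/-! S5972 team project (helper14), piece OT-WITT: over a finite field of odd characteristic, a
nondegenerate subspace `K` of dimension at least `2 j + 1` (symmetric form) contains a totally
isotropic subspace of dimension `j`. -/

namespace Cfsg.Agent.H86.Ot

open Cfsg.Agent.H45 Cfsg.Agent.H42.Spd Cfsg.Agent.H42.Ti Cfsg.Agent.H14.Ot Module Polynomial

universe u v

theorem oWitt : Cfsg.Agent.H14.Ot.StOWitt.{u, v} := by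
  intro F _ _ V _ _ _ B h2 hsymm K j
  induction j generalizing K with
  | zero =>
    intro _ _
    refine ⟨⊥, bot_le, ?_, finrank_bot F V⟩
    intro u hu v hv
    rw [Submodule.mem_bot] at hu
    rw [hu, map_zero, LinearMap.zero_apply]
  | succ j ih =>
    intro hK hdim
    -- an isotropic vector in `K`
    let Bk : ↥K →ₗ[F] ↥K →ₗ[F] F := B.domRestrict₁₂ K K
    obtain ⟨v, hv0, hv⟩ := Cfsg.Agent.H49.exists_singular_of_three_le
      (LinearMap.BilinMap.toQuadraticMap Bk) (by omega)
    have huu : B (v : V) (v : V) = 0 := by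
      have : Bk v v = 0 := by
        rw [← LinearMap.BilinMap.toQuadraticMap_apply]
        exact hv
      exact this
    obtain ⟨u, hu⟩ : ∃ u : V, u = (v : V) := ⟨_, rfl⟩
    rw [← hu] at huu
    have huK : u ∈ K := hu ▸ v.2
    have hu0 : u ≠ 0 := by
      intro h
      apply hv0
      apply Subtype.ext
      rw [← hu, h]
      rfl
    -- a partner `w ∈ K` with `B u w = 1`
    obtain ⟨w, hwK, huw⟩ : ∃ w ∈ K, B u w = 1 := by
      have h1 : u ∉ perp B K := by
        intro h
        have : u ∈ K ⊓ perp B K := ⟨huK, h⟩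
        rw [hK, Submodule.mem_bot] at this
        exact hu0 this
      rw [mem_perp] at h1
      push Not at h1
      obtain ⟨k, hkK, hk⟩ := h1
      refine ⟨(B k u)⁻¹ • k, K.smul_mem _ hkK, ?_⟩
      rw [map_smul, smul_eq_mul, hsymm u k, inv_mul_cancel₀ hk]
    have hwu : B w u = 1 := by rw [hsymm]; exact huw
    obtain ⟨H, hH⟩ : ∃ H : Submodule F V, H = Submodule.span F {u, w} := ⟨_, rfl⟩
    have hmemH : ∀ x, x ∈ H ↔ ∃ a b : F, a • u + b • w = x := by
      intro x
      rw [hH, Submodule.mem_span_pair]
    have hHK : H ≤ K := by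
      rw [hH, Submodule.span_le]
      intro x hx
      rcases hx with rfl | rfl
      · exact huK
      · exact hwK
    have huH : u ∈ H := hH ▸ Submodule.subset_span (by simp)
    have hwH : w ∈ H := hH ▸ Submodule.subset_span (by simp)
    have hHnd : H ⊓ perp B H = ⊥ := by
      rw [eq_bot_iff]
      rintro x ⟨hxH, hxp⟩
      obtain ⟨a, b, rfl⟩ := (hmemH x).1 hxH
      have e1 := hxp u huH
      have e2 := hxp w hwH
      rw [map_add, map_smul, map_smul, smul_eq_mul, smul_eq_mul] at e1 e2
      rw [huu, huw, mul_zero, zero_add, mul_one] at e1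
      rw [hwu, e1, mul_one, zero_mul, add_zero] at e2
      rw [Submodule.mem_bot, e1, e2, zero_smul, zero_smul, add_zero]
    have hcompl := isCompl_perp B H hHnd
    obtain ⟨K', hK'⟩ : ∃ K' : Submodule F V, K' = K ⊓ perp B H := ⟨_, rfl⟩
    have hK'K : K' ≤ K := hK' ▸ inf_le_left
    have hK'p : K' ≤ perp B H := hK' ▸ inf_le_right
    -- decomposition of `K`
    have hdec : ∀ k ∈ K, ∃ h ∈ H, ∃ k' ∈ K', k = h + k' := by
      intro k hk
      have : k ∈ H ⊔ perp B H := by
        rw [hcompl.sup_eq_top]
        exact Submodule.mem_top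
      obtain ⟨h, hh, y, hy, rfl⟩ := Submodule.mem_sup.1 this
      refine ⟨h, hh, y, ?_, rfl⟩
      rw [hK']
      refine ⟨?_, hy⟩
      have : y = (h + y) - h := by abel
      rw [this]
      exact K.sub_mem hk (hHK hh)
    have hK'nd : K' ⊓ perp B K' = ⊥ := by
      rw [eq_bot_iff]
      rintro x ⟨hxK', hxp⟩
      have hx : x ∈ K ⊓ perp B K := by
        refine ⟨hK'K hxK', ?_⟩
        intro k hk
        obtain ⟨h, hh, k', hk', rfl⟩ := hdec k hk
        rw [map_add, LinearMap.add_apply, hK'p hxK' h hh, hxp k' hk', add_zero]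
      rw [hK] at hx
      exact hx
    have hfinH : finrank F H = 2 := by
      rw [hH]
      have hli : LinearIndependent F ![u, w] := by
        rw [LinearIndependent.pair_iff]
        intro a b hab
        have e1 : B u (a • u + b • w) = 0 := by rw [hab, map_zero]
        have e2 : B w (a • u + b • w) = 0 := by rw [hab, map_zero]
        rw [map_add, map_smul, map_smul, smul_eq_mul, smul_eq_mul] at e1 e2
        rw [huu, huw, mul_zero, zero_add, mul_one] at e1
        rw [hwu, e1, mul_one, zero_mul, add_zero] at e2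
        exact ⟨e2, e1⟩
      have h3 := finrank_span_eq_card hli
      have h4 : Set.range ![u, w] = {u, w} := by
        ext x
        simp only [Matrix.range_cons, Matrix.range_empty, Set.union_empty, Set.mem_union,
          Set.mem_singleton_iff, Set.mem_insert_iff]
      rw [h4] at h3
      simpa using h3
    have hfinK' : finrank F K' + 2 = finrank F K := by
      have h1 : H ⊔ K' = K := by
        apply le_antisymm (sup_le hHK hK'K)
        intro k hk
        obtain ⟨h, hh, k', hk', rfl⟩ := hdec k hk
        exact Submodule.add_mem_sup hh hk'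
      have h2 : H ⊓ K' = ⊥ := by
        rw [eq_bot_iff, ← hHnd]
        exact inf_le_inf_left H hK'p
      have h3 := Submodule.finrank_sup_add_finrank_inf_eq H K'
      rw [h1, h2, finrank_bot, hfinH] at h3
      omega
    obtain ⟨J', hJ'K', hJ'TI, hJ'dim⟩ := ih K' hK'nd (by omega)
    refine ⟨J' ⊔ Submodule.span F {u}, ?_, ?_, ?_⟩
    · exact sup_le (hJ'K'.trans hK'K) (by
        rw [Submodule.span_le]
        intro x hx
        rw [Set.mem_singleton_iff] at hx
        rw [hx]
        exact huK)
    · -- totally isotropic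
      have hJu : ∀ y ∈ J', B u y = 0 := fun y hy => hK'p (hJ'K' hy) u huH
      intro x hx y hy
      obtain ⟨x1, hx1, x2, hx2, rfl⟩ := Submodule.mem_sup.1 hx
      obtain ⟨y1, hy1, y2, hy2, rfl⟩ := Submodule.mem_sup.1 hy
      obtain ⟨a, rfl⟩ := Submodule.mem_span_singleton.1 hx2
      obtain ⟨b, rfl⟩ := Submodule.mem_span_singleton.1 hy2
      simp only [map_add, LinearMap.add_apply, map_smul, LinearMap.smul_apply, smul_eq_mul]
      rw [hJ'TI x1 hx1 y1 hy1, hJu y1 hy1, hsymm x1 u, hJu x1 hx1, huu]
      ring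
    · -- dimension
      have hdisj : J' ⊓ Submodule.span F {u} = ⊥ := by
        rw [eq_bot_iff]
        rintro x ⟨hxJ, hxu⟩
        obtain ⟨a, rfl⟩ := Submodule.mem_span_singleton.1 hxu
        have e1 := hK'p (hJ'K' hxJ) w hwH
        rw [map_smul, smul_eq_mul, hwu, mul_one] at e1
        rw [Submodule.mem_bot, e1, zero_smul]
      have h3 := Submodule.finrank_sup_add_finrank_inf_eq J' (Submodule.span F {u})
      rw [hdisj, finrank_bot, finrank_span_singleton hu0, hJ'dim] at h3
      omega

example : Cfsg.Agent.H14.Ot.StOWitt.{u, v} := oWitt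

end Cfsg.Agent.H86.Ot
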