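import Mathlib
import Cfsg.Agent.H86.Ev2R2P73
import Cfsg.Agent.H86.Ev2R2M87
import Cfsg.Agent.H86.Ev2R2P89
import Cfsg.Agent.H86.Ev2R2M91
import Cfsg.Agent.H86.OtHalf
import Cfsg.Agent.H86.OtWitt
import Cfsg.Agent.H18.OhOrtho
import Cfsg.Agent.H62.OhDisc
import Cfsg.Agent.H3.OhSubDisc
import Cfsg.Agent.H73.OhSumType
import Cfsg.Agent.H89.Ev2SpanNd
import Cfsg.Agent.H89.Ev2JEven
import Cfsg.Agent.H89.Ev2DiscInv
import Cfsg.Agent.H89.Ev2JSpin
import Cfsg.Agent.H27.Ev2IsoGen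
import Cfsg.Agent.H75.Ev2JEig
import Cfsg.Agent.H75.Ev2JTs
import Cfsg.Agent.H25.Ev2InvLowE
import Cfsg.Agent.H25.Ev2InvMinus
import Cfsg.Agent.H25.Ev2InvSq
import Cfsg.Agent.H79.Ev2JPlanes
import Cfsg.Agent.H53.Ev2ExJPlus
import Cfsg.Agent.H53.Ev2ExJMinus
import Cfsg.Agent.H62.Ev2BrP
import Cfsg.Agent.H62.Ev2BrM
import Cfsg.Agent.H62.Ev2JGram
import Cfsg.Agent.H98.Ev2NoPlus
import Cfsg.Agent.H98.Ev2NoMinus
import Cfsg.Agent.H32.Ev2InvOdd

/-!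
# EV2 (helper86): all pieces wired — closed (hypothesis-free) theorems

`fin_r2M87 : StR2M87`, `fin_r2P89 : StR2P89`, `fin_r2M91 : StR2M91` are closed;
`fin_r2P73_of` still takes EV2-INVEXP as a hypothesis (see `Ev2FinP73.lean` for the closed one).
-/

set_option autoImplicit false

namespace Cfsg.Agent.H86.Ev2

open Cfsg.Agent.H14.Ot Cfsg.Agent.H95.Oh

universe u v

theorem fin_oHalf : StOHalf.{u, v} := Cfsg.Agent.H86.Ot.oHalf
theorem fin_oWitt : StOWitt.{u, v} := Cfsg.Agent.H86.Ot.oWitt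
theorem fin_ortho : StOrtho.{u, v} := Cfsg.Agent.H18.Oh.ortho
theorem fin_disc : StDisc.{u, v} := Cfsg.Agent.H62.Oh.disc
theorem fin_subDisc : StSubDisc.{u, v} := Cfsg.Agent.H3.Oh.subDisc fin_ortho
theorem fin_sumType : StSumType.{u, v} := Cfsg.Agent.H73.Oh.sumType fin_ortho fin_disc

theorem fin_spanNd : StSpanNd.{u, v} := Cfsg.Agent.H89.Ev2.spanNd
theorem fin_isoGen : StIsoGen.{u, v} := Cfsg.Agent.H27.Ev2.isoGen
theorem fin_discInv : StDiscInv.{u, v} := Cfsg.Agent.H89.Ev2.discInv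
theorem fin_jEven : StJEven.{u, v} := Cfsg.Agent.H89.Ev2.jEven
theorem fin_jEig : StJEig.{u, v} := Cfsg.Agent.H75.Ev2.jEig fin_oHalf
theorem fin_jTs : StJTs.{u, v} := Cfsg.Agent.H75.Ev2.jTs fin_oWitt
theorem fin_invOdd : StInvOdd.{u, v} := Cfsg.Agent.H32.Ev2.invOdd fin_ortho fin_subDisc
theorem fin_invLowE : StInvLowE.{u, v} := Cfsg.Agent.H25.Ev2.invLowE fin_oWitt
theorem fin_invMinus : StInvMinus.{u, v} := Cfsg.Agent.H25.Ev2.invMinus fin_oWitt fin_sumType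

theorem fin_jPlanes : StJPlanes.{u} := Cfsg.Agent.H79.Ev2.jPlanes
theorem fin_jSpin : StJSpin.{u} := Cfsg.Agent.H89.Ev2.jSpin fin_jPlanes
theorem fin_jGram : StJGram.{u} := Cfsg.Agent.H62.Ev2.jGram fin_jPlanes
theorem fin_invSq : StInvSq.{u} := Cfsg.Agent.H25.Ev2.invSq fin_sumType
theorem fin_brP : StBrP.{u} := Cfsg.Agent.H62.Ev2.brP
theorem fin_brM : StBrM.{u} := Cfsg.Agent.H62.Ev2.brM
theorem fin_noPlus : StNoPlus.{u} := Cfsg.Agent.H98.Ev2.noPlus fin_jGram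
theorem fin_noMinus : StNoMinus.{u} := Cfsg.Agent.H98.Ev2.noMinus fin_jGram
theorem fin_exJPlus : StExJPlus.{u} := Cfsg.Agent.H53.Ev2.exJPlus
theorem fin_exJMinus : StExJMinus.{u} := Cfsg.Agent.H53.Ev2.exJMinus

/-- The `r = 2` line of S5987 (closed). -/
theorem fin_r2M87 : StR2M87.{u} :=
  r2M87 fin_brM fin_invMinus fin_noMinus fin_jSpin fin_jTs fin_exJMinus fin_jEven

/-- The `r = 2` line of S5989 (closed). -/
theorem fin_r2P89 : StR2P89.{u} :=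
  r2P89 fin_brP fin_ortho fin_spanNd fin_isoGen fin_invOdd fin_noPlus fin_jSpin fin_exJPlus
    fin_jEven fin_jEig

/-- The `r = 2` line of S5991 (closed). -/
theorem fin_r2M91 : StR2M91.{u} :=
  r2M91 fin_brM fin_ortho fin_spanNd fin_isoGen fin_invOdd fin_noMinus fin_jSpin fin_exJMinus
    fin_jEven

/-- The `r = 2` line of S5973, modulo EV2-INVEXP. -/
theorem fin_r2P73_of (hInvExP : StInvExP.{u}) : StR2P73.{u} :=
  r2P73 fin_brP fin_invSq fin_jEig fin_invLowE fin_noPlus fin_jTs hInvExP fin_exJPlus fin_jSpin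
    fin_jEven

example : StR2M87.{u} := fin_r2M87
example : StR2P89.{u} := fin_r2P89
example : StR2M91.{u} := fin_r2M91

end Cfsg.Agent.H86.Ev2
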