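import Mathlib
import Cfsg.Agent.H88.AltFDefs

/-!
# S5165-NB (piece for helper88): the normalizer of a `p`-subgroup containing the base group
normalizes the base group
-/

set_option autoImplicit false
set_option linter.unusedSectionVars false
set_option linter.style.haveILetI false

namespace Cfsg.Agent.H86.AltF

open Cfsg Cfsg.Agent.H88.AltF

section general

variable {α : Type*}

theorem perm_apply_inv (f : Equiv.Perm α) (x : α) : f (f⁻¹ x) = x := f.apply_symm_apply x

theorem perm_inv_apply (f : Equiv.Perm α) (x : α) : f⁻¹ (f x) = x := f.symm_apply_apply x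

/-- The permutations preserving a set. -/
def setStab (T : Set α) : Subgroup (Equiv.Perm α) where
  carrier := {h | ∀ z, h z ∈ T ↔ z ∈ T}
  one_mem' := fun _ => Iff.rfl
  mul_mem' := by
    intro a b ha hb z
    rw [Equiv.Perm.mul_apply, ha, hb]
  inv_mem' := by
    intro a ha z
    rw [← ha (a⁻¹ z), perm_apply_inv]

theorem mem_setStab {T : Set α} {h : Equiv.Perm α} :
    h ∈ setStab T ↔ ∀ z, h z ∈ T ↔ z ∈ T := Iff.rfl

theorem mem_setStab_of_fix {T₁ T : Set α} {h : Equiv.Perm α} (h1 : ∀ z ∈ T₁, h z ∈ T₁)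
    (h2 : ∀ z, z ∉ T₁ → h z = z) (hT : T₁ ⊆ T) : h ∈ setStab T := by
  intro z
  by_cases hz : z ∈ T₁
  · exact ⟨fun _ => hT hz, fun _ => hT (h1 z hz)⟩
  · rw [h2 z hz]

theorem orbit_subset_of_le_setStab {T : Set α} {H : Subgroup (Equiv.Perm α)}
    (hH : H ≤ setStab T) {y : α} (hy : y ∈ T) : MulAction.orbit H y ⊆ T := by
  rintro _ ⟨h, rfl⟩
  exact (hH h.2 y).mpr hy

end general

section model

variable {I E : Type} [Fintype I] [DecidableEq I] [Fintype E] [DecidableEq E] [Subsingleton E]
  {p : ℕ} [Fact p.Prime]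

theorem fibP_pow (f : I → ZMod p) (n : ℕ) : fibP E f ^ n = fibP E (n • f) := by
  induction n with
  | zero => simp
  | succ n ih => rw [pow_succ, ih, ← fibP_add, succ_nsmul]

variable (E p) in
/-- The generators of the base group: translation by `1` on the fibre over `i`. -/
def bGen (i : I) : Equiv.Perm (Pt I E p) := fibP E (Pi.single i (1 : ZMod p))

theorem bGen_pow_apply (i : I) (k : ℕ) (x : ZMod p) :
    (bGen E p i ^ k) (Sum.inl (i, x)) = Sum.inl (i, x + (k : ZMod p)) := by
  unfold bGen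
  rw [fibP_pow, fibP_inl]
  simp

theorem bGen_pow_apply_ne (i i' : I) (h : i' ≠ i) (k : ℕ) (x : ZMod p) :
    (bGen E p i ^ k) (Sum.inl (i', x)) = Sum.inl (i', x) := by
  unfold bGen
  rw [fibP_pow, fibP_inl]
  simp [Pi.single_eq_of_ne h]

theorem bGen_pow_apply_inr (i : I) (k : ℕ) (e : E) :
    (bGen E p i ^ k) (Sum.inr e) = Sum.inr e := by
  unfold bGen
  rw [fibP_pow, fibP_inr]

theorem bGen_pow_mem (i : I) (k : ℕ) : bGen E p i ^ k ∈ baseB I E p := by
  unfold bGen
  rw [fibP_pow]
  exact fibP_mem_baseB E _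

theorem bGen_mem (i : I) : bGen E p i ∈ baseB I E p := fibP_mem_baseB E _

/-- The base group is generated by the `bGen i`. -/
theorem fibP_mem_closure (f : I → ZMod p) :
    fibP E f ∈ Subgroup.closure (Set.range (bGen E p (I := I))) := by
  haveI : NeZero p := ⟨(Fact.out : p.Prime).ne_zero⟩
  have key : ∀ s : Finset I, fibP E (∑ i ∈ s, Pi.single i (f i)) ∈
      Subgroup.closure (Set.range (bGen E p (I := I))) := by
    intro s
    induction s using Finset.induction_on with
    | empty => simp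
    | insert a s ha ih =>
      rw [Finset.sum_insert ha, fibP_add]
      refine Subgroup.mul_mem _ ?_ ih
      have h1 : fibP E (Pi.single a (f a)) = bGen E p a ^ (f a).val := by
        unfold bGen
        rw [fibP_pow]
        congr 1
        funext i'
        by_cases hi : i' = a
        · subst hi
          simp
        · simp [Pi.single_eq_of_ne hi]
      rw [h1]
      exact Subgroup.pow_mem _ (Subgroup.subset_closure (Set.mem_range_self a)) _
  have h2 := key Finset.univ
  rwa [Finset.univ_sum_single] at h2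

/-- A conjugate of a generator of the base group lying in a `p`-group containing the base
group lies in the base group. -/
theorem conj_bGen_mem (S : Subgroup (Equiv.Perm (Pt I E p))) (hS : IsPGroup p S)
    (hBS : baseB I E p ≤ S) (g : Equiv.Perm (Pt I E p)) (i : I)
    (hc : g * bGen E p i * g⁻¹ ∈ S) : g * bGen E p i * g⁻¹ ∈ baseB I E p := by
  classical
  haveI : NeZero p := ⟨(Fact.out : p.Prime).ne_zero⟩
  have hp := (Fact.out : p.Prime)
  obtain ⟨c, hcdef⟩ : ∃ c, c = g * bGen E p i * g⁻¹ := ⟨_, rfl⟩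
  rw [← hcdef] at hc ⊢
  have hcpow : ∀ (k : ℕ) (x : ZMod p),
      (c ^ k) (g (Sum.inl (i, x))) = g (Sum.inl (i, x + (k : ZMod p))) := by
    intro k x
    rw [hcdef, conj_pow]
    simp only [Equiv.Perm.mul_apply, perm_inv_apply]
    rw [bGen_pow_apply]
  have hcfix : ∀ z, (∀ x : ZMod p, z ≠ g (Sum.inl (i, x))) → c z = z := by
    intro z hz
    have h1 : bGen E p i (g⁻¹ z) = g⁻¹ z := by
      rcases hgz : g⁻¹ z with ⟨i', x⟩ | e
      · by_cases hi : i' = i
        · subst hi
          exfalso
          apply hz x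
          rw [← hgz, perm_apply_inv]
        · have h2 := bGen_pow_apply_ne (E := E) (p := p) i i' hi 1 x
          rwa [pow_one] at h2
      · have h2 := bGen_pow_apply_inr (E := E) (p := p) i 1 e
        rwa [pow_one] at h2
    rw [hcdef]
    simp only [Equiv.Perm.mul_apply]
    rw [h1, perm_apply_inv]
  -- a point of the support in some fibre
  obtain ⟨x, i', x', hxy⟩ : ∃ (x : ZMod p) (i' : I) (x' : ZMod p),
      g (Sum.inl (i, x)) = Sum.inl (i', x') := by
    rcases h0 : g (Sum.inl (i, 0)) with ⟨i', x'⟩ | e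
    · exact ⟨0, i', x', h0⟩
    · rcases h1 : g (Sum.inl (i, 1)) with ⟨i', x'⟩ | e'
      · exact ⟨1, i', x', h1⟩
      · exfalso
        have h2 : g (Sum.inl (i, (0 : ZMod p))) = g (Sum.inl (i, 1)) := by
          rw [h0, h1, Subsingleton.elim e e']
        have h3 := g.injective h2
        simp only [Sum.inl.injEq, Prod.mk.injEq, true_and] at h3
        exact zero_ne_one h3
  obtain ⟨A, hAdef⟩ : ∃ A : Finset (Pt I E p),
      A = Finset.univ.image (fun t : ZMod p => (Sum.inl (i', t) : Pt I E p)) := ⟨_, rfl⟩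
  obtain ⟨X, hXdef⟩ : ∃ X : Finset (Pt I E p),
      X = Finset.univ.image (fun t : ZMod p => g (Sum.inl (i, t))) := ⟨_, rfl⟩
  have hA : A.card = p := by
    rw [hAdef, Finset.card_image_of_injective _ (fun a b h => by simpa using h), Finset.card_univ,
      ZMod.card]
  have hX : X.card = p := by
    rw [hXdef, Finset.card_image_of_injective _
      (fun a b h => by simpa using g.injective h), Finset.card_univ, ZMod.card]
  have memA : ∀ z, z ∈ A ↔ ∃ t, z = Sum.inl (i', t) := by
    intro z
    rw [hAdef]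
    simp [eq_comm]
  have memX : ∀ z, z ∈ X ↔ ∃ t, z = g (Sum.inl (i, t)) := by
    intro z
    rw [hXdef]
    simp [eq_comm]
  obtain ⟨b, hbdef⟩ : ∃ b, b = bGen E p i' := ⟨_, rfl⟩
  have hbS : b ∈ S := hBS (by rw [hbdef]; exact bGen_mem i')
  have hbpow : ∀ (k : ℕ) (t : ZMod p), (b ^ k) (Sum.inl (i', t)) = Sum.inl (i', t + (k : ZMod p)) := by
    intro k t
    rw [hbdef, bGen_pow_apply]
  have hbfix : ∀ (k : ℕ) z, z ∉ A → (b ^ k) z = z := by
    intro k z hz
    rcases z with ⟨i'', t⟩ | e
    · have hne : i'' ≠ i' := by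
        rintro rfl
        exact hz ((memA _).mpr ⟨t, rfl⟩)
      rw [hbdef]
      exact bGen_pow_apply_ne i' i'' hne k t
    · rw [hbdef]
      exact bGen_pow_apply_inr i' k e
  have hbA : ∀ T : Set (Pt I E p), (↑A : Set (Pt I E p)) ⊆ T → b ∈ setStab T := by
    intro T hT
    apply mem_setStab_of_fix (T₁ := (↑A : Set (Pt I E p))) _ _ hT
    · intro z hz
      obtain ⟨t, rfl⟩ := (memA z).mp (Finset.mem_coe.mp hz)
      have h1 := hbpow 1 t
      rw [pow_one] at h1
      rw [Finset.mem_coe, memA]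
      exact ⟨_, h1⟩
    · intro z hz
      have h1 := hbfix 1 z (fun h => hz (Finset.mem_coe.mpr h))
      rwa [pow_one] at h1
  have hcX : ∀ T : Set (Pt I E p), (↑X : Set (Pt I E p)) ⊆ T → c ∈ setStab T := by
    intro T hT
    apply mem_setStab_of_fix (T₁ := (↑X : Set (Pt I E p))) _ _ hT
    · intro z hz
      obtain ⟨t, rfl⟩ := (memX z).mp (Finset.mem_coe.mp hz)
      have h1 := hcpow 1 t
      rw [pow_one] at h1
      rw [Finset.mem_coe, memX]
      exact ⟨_, h1⟩
    · intro z hz
      exact hcfix z (fun t ht => hz (Finset.mem_coe.mpr ((memX z).mpr ⟨t, ht⟩)))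
  obtain ⟨y, hy⟩ : ∃ y : Pt I E p, y = Sum.inl (i', x') := ⟨_, rfl⟩
  have hyA : y ∈ A := (memA y).mpr ⟨x', hy⟩
  have hyX : y ∈ X := (memX y).mpr ⟨x, by rw [hy, hxy]⟩
  -- the orbit of `y` under `⟨b, c⟩`
  obtain ⟨H, hHdef⟩ : ∃ H : Subgroup (Equiv.Perm (Pt I E p)),
      H = Subgroup.closure ({b, c} : Set (Equiv.Perm (Pt I E p))) := ⟨_, rfl⟩
  have hbH : b ∈ H := by rw [hHdef]; exact Subgroup.subset_closure (by simp)
  have hcH : c ∈ H := by rw [hHdef]; exact Subgroup.subset_closure (by simp)
  have hHS : H ≤ S := by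
    rw [hHdef, Subgroup.closure_le]
    rintro _ (rfl | rfl)
    · exact hbS
    · exact hc
  have hHp : IsPGroup p H := hS.to_le hHS
  have hHstab : H ≤ setStab (↑(A ∪ X) : Set (Pt I E p)) := by
    rw [hHdef, Subgroup.closure_le]
    rintro _ (rfl | rfl)
    · exact hbA _ (by intro z hz; exact Finset.mem_coe.mpr (Finset.mem_union_left _ hz))
    · exact hcX _ (by intro z hz; exact Finset.mem_coe.mpr (Finset.mem_union_right _ hz))
  have horb : MulAction.orbit H y = (↑(A ∪ X) : Set (Pt I E p)) := by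
    apply Set.Subset.antisymm
    · exact orbit_subset_of_le_setStab hHstab
        (Finset.mem_coe.mpr (Finset.mem_union_left _ hyA))
    · intro z hz
      rw [Finset.mem_coe, Finset.mem_union] at hz
      rcases hz with hz | hz
      · obtain ⟨t, rfl⟩ := (memA z).mp hz
        refine ⟨⟨b ^ (t - x').val, Subgroup.pow_mem _ hbH _⟩, ?_⟩
        show (b ^ (t - x').val) y = _
        rw [hy, hbpow, ZMod.natCast_zmod_val]
        simp
      · obtain ⟨t, rfl⟩ := (memX z).mp hz
        refine ⟨⟨c ^ (t - x).val, Subgroup.pow_mem _ hcH _⟩, ?_⟩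
        show (c ^ (t - x).val) y = _
        rw [hy, ← hxy, hcpow, ZMod.natCast_zmod_val]
        simp
  obtain ⟨m, hm⟩ := hHp.card_orbit y
  rw [horb, Nat.card_coe_set_eq, Set.ncard_coe_finset] at hm
  have hle : (A ∪ X).card + 1 ≤ 2 * p := by
    have h1 := Finset.card_union_add_card_inter A X
    have h2 : 1 ≤ (A ∩ X).card := Finset.card_pos.mpr ⟨y, Finset.mem_inter.mpr ⟨hyA, hyX⟩⟩
    omega
  have hge : p ≤ (A ∪ X).card :=
    calc p = A.card := hA.symm
      _ ≤ (A ∪ X).card := Finset.card_le_card Finset.subset_union_left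
  have hm1 : (A ∪ X).card = p := by
    rw [hm] at hle hge ⊢
    rcases m with _ | _ | m
    · have := hp.two_le
      simp at hge
      omega
    · simp
    · exfalso
      have h1 : p ^ 2 ≤ p ^ (m + 1 + 1) := Nat.pow_le_pow_right hp.pos (by omega)
      have h2 := hp.two_le
      nlinarith
  have hAX : A = A ∪ X :=
    Finset.eq_of_subset_of_card_le Finset.subset_union_left (by rw [hm1, hA])
  have hXA : X ⊆ A := by
    rw [hAX]
    exact Finset.subset_union_right
  -- now `c` acts on the fibre `A`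
  have hcy : c y ∈ A := by
    apply hXA
    have h1 := hcpow 1 x
    rw [pow_one, hxy, ← hy] at h1
    rw [h1]
    exact (memX _).mpr ⟨_, rfl⟩
  obtain ⟨x'', hx''⟩ := (memA _).mp hcy
  obtain ⟨bk, hbk⟩ : ∃ bk, bk = b ^ (x'' - x').val := ⟨_, rfl⟩
  have hbky : bk y = c y := by
    rw [hx'', hbk, hy, hbpow, ZMod.natCast_zmod_val]
    simp
  obtain ⟨c', hc'⟩ : ∃ c', c' = bk⁻¹ * c := ⟨_, rfl⟩
  have hc'y : c' y = y := by
    rw [hc', Equiv.Perm.mul_apply, ← hbky, perm_inv_apply]
  have hc'S : c' ∈ S := by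
    rw [hc', hbk]
    exact S.mul_mem (S.inv_mem (S.pow_mem hbS _)) hc
  have hc'A : c' ∈ setStab (↑A : Set (Pt I E p)) := by
    rw [hc', hbk]
    exact (setStab _).mul_mem ((setStab _).inv_mem ((setStab _).pow_mem (hbA _ subset_rfl) _))
      (hcX _ (by intro z hz; exact Finset.mem_coe.mpr (hXA (Finset.mem_coe.mp hz))))
  have hc'out : ∀ z, z ∉ A → c' z = z := by
    intro z hz
    have h1 : c z = z := hcfix z (fun t ht => hz (hXA ((memX z).mpr ⟨t, ht⟩)))
    have h2 : bk z = z := by rw [hbk]; exact hbfix _ z hz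
    rw [hc', Equiv.Perm.mul_apply, h1, Equiv.Perm.inv_eq_iff_eq, h2]
  have hc'1 : c' = 1 := by
    ext z
    rw [Equiv.Perm.one_apply]
    by_cases hzA : z ∈ A
    · by_cases hzy : z = y
      · rw [hzy, hc'y]
      · have hH'S : Subgroup.zpowers c' ≤ S := Subgroup.zpowers_le.mpr hc'S
        have hH'p : IsPGroup p (Subgroup.zpowers c') := hS.to_le hH'S
        obtain ⟨m', hm'⟩ := hH'p.card_orbit z
        have hsub : MulAction.orbit (Subgroup.zpowers c') z ⊆ (↑(A.erase y) : Set (Pt I E p)) := by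
          rintro _ ⟨h, rfl⟩
          have hh : (h : Equiv.Perm (Pt I E p)) ∈ setStab (↑A : Set (Pt I E p)) :=
            (Subgroup.zpowers_le.mpr hc'A) h.2
          have hst : Subgroup.zpowers c' ≤ MulAction.stabilizer (Equiv.Perm (Pt I E p)) y :=
            Subgroup.zpowers_le.mpr (MulAction.mem_stabilizer_iff.mpr hc'y)
          have hhy : (h : Equiv.Perm (Pt I E p)) y = y := MulAction.mem_stabilizer_iff.mp (hst h.2)
          show (h : Equiv.Perm (Pt I E p)) z ∈ _
          rw [Finset.mem_coe, Finset.mem_erase]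
          exact ⟨fun heq => hzy ((h : Equiv.Perm (Pt I E p)).injective (heq.trans hhy.symm)),
            Finset.mem_coe.mp ((hh z).mpr (Finset.mem_coe.mpr hzA))⟩
        have hcard : Nat.card (MulAction.orbit (Subgroup.zpowers c') z) ≤ p - 1 := by
          have h1 := Nat.card_mono (Finset.finite_toSet (A.erase y)) hsub
          rw [Nat.card_coe_set_eq (↑(A.erase y) : Set (Pt I E p)), Set.ncard_coe_finset,
            Finset.card_erase_of_mem hyA, hA] at h1
          exact h1
        have hm0 : m' = 0 := by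
          rw [hm'] at hcard
          by_contra h0
          have h1 : p ^ 1 ≤ p ^ m' := Nat.pow_le_pow_right hp.pos (Nat.one_le_iff_ne_zero.mpr h0)
          have h2 := hp.two_le
          rw [pow_one] at h1
          omega
        rw [hm0, pow_zero] at hm'
        haveI hsubs : Subsingleton (MulAction.orbit (Subgroup.zpowers c') z) :=
          (Nat.card_eq_one_iff_unique.mp hm').1
        have e1 : (⟨z, MulAction.mem_orbit_self z⟩ : MulAction.orbit (Subgroup.zpowers c') z)
            = ⟨c' z, ⟨⟨c', Subgroup.mem_zpowers c'⟩, rfl⟩⟩ := Subsingleton.elim _ _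
        exact (congrArg Subtype.val e1).symm
    · exact hc'out z hzA
  have hcb : c = bk := by
    rw [hc'] at hc'1
    exact (inv_mul_eq_one.mp hc'1).symm
  rw [hcb, hbk, hbdef]
  exact bGen_pow_mem i' _

theorem nb : StmtNB := by
  intro I E _ _ _ _ _ p _ S hS hBS g hg
  haveI : NeZero p := ⟨(Fact.out : p.Prime).ne_zero⟩
  apply Subgroup.mem_normalizer_fintype
  intro h hh
  obtain ⟨f, rfl⟩ := hh
  have hcl := fibP_mem_closure (E := E) f
  have hle : Subgroup.closure (Set.range (bGen E p (I := I))) ≤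
      (baseB I E p).comap (MulAut.conj g).toMonoidHom := by
    rw [Subgroup.closure_le]
    rintro _ ⟨i, rfl⟩
    show g * bGen E p i * g⁻¹ ∈ baseB I E p
    apply conj_bGen_mem S hS hBS g i
    exact (Subgroup.mem_normalizer_iff.mp hg _).mp (hBS (bGen_mem i))
  exact hle hcl

example : StmtNB := nb

end model

end Cfsg.Agent.H86.AltF
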