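import Mathlib
import Cfsg.Agent.H88.AltFDefs
import Cfsg.Agent.H86.AltFNB

/-!
# S5165-CQ (piece for helper88): `subQ` is self-centralizing
-/

set_option autoImplicit false
set_option linter.unusedSectionVars false
set_option linter.style.haveILetI false

namespace Cfsg.Agent.H86.AltF

open Cfsg Cfsg.Agent.H88.AltF

section model

variable {I E : Type} [Fintype I] [DecidableEq I] [Fintype E] [DecidableEq E] [Subsingleton E]
  {p : ℕ} [Fact p.Prime]

/-- A permutation commuting with `bGen i` is a translation on the fibre over `i`. -/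
theorem exists_trans_of_commute (g : Equiv.Perm (Pt I E p)) (i : I)
    (hg : g * bGen E p i = bGen E p i * g) :
    ∃ c : ZMod p, ∀ x : ZMod p, g (Sum.inl (i, x)) = Sum.inl (i, x + c) := by
  haveI : NeZero p := ⟨(Fact.out : p.Prime).ne_zero⟩
  have hb : ∀ x : ZMod p, bGen E p i (Sum.inl (i, x)) = Sum.inl (i, x + 1) := by
    intro x
    have h := bGen_pow_apply (E := E) (p := p) i 1 x
    rw [pow_one] at h
    rw [h]
    simp
  have hcomm : ∀ z, g (bGen E p i z) = bGen E p i (g z) := by
    intro z
    have h := congrArg (fun σ : Equiv.Perm (Pt I E p) => σ z) hg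
    simpa [Equiv.Perm.mul_apply] using h
  have hfib : ∀ x : ZMod p, ∃ y : ZMod p, g (Sum.inl (i, x)) = Sum.inl (i, y) := by
    intro x
    have hmoved : bGen E p i (g (Sum.inl (i, x))) ≠ g (Sum.inl (i, x)) := by
      rw [← hcomm, hb]
      intro h
      have h2 := g.injective h
      simp only [Sum.inl.injEq, Prod.mk.injEq, true_and] at h2
      exact one_ne_zero (add_eq_left.mp h2)
    rcases hz : g (Sum.inl (i, x)) with ⟨i', y⟩ | e
    · by_cases hi : i' = i
      · subst hi
        exact ⟨y, rfl⟩
      · exfalso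
        apply hmoved
        rw [hz]
        have h := bGen_pow_apply_ne (E := E) (p := p) i i' hi 1 y
        rwa [pow_one] at h
    · exfalso
      apply hmoved
      rw [hz]
      have h := bGen_pow_apply_inr (E := E) (p := p) i 1 e
      rwa [pow_one] at h
  choose γ hγ using hfib
  have hstep : ∀ x : ZMod p, γ (x + 1) = γ x + 1 := by
    intro x
    have h1 := hcomm (Sum.inl (i, x))
    rw [hb, hγ, hγ, hb] at h1
    simpa using h1
  have hnat : ∀ n : ℕ, γ (n : ZMod p) = (n : ZMod p) + γ 0 := by
    intro n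
    induction n with
    | zero => simp
    | succ n ih =>
      rw [Nat.cast_succ, hstep, ih]
      ring
  refine ⟨γ 0, fun x => ?_⟩
  rw [hγ]
  have h := hnat x.val
  rw [ZMod.natCast_zmod_val] at h
  rw [h]

theorem cq : StmtCQ := by
  intro I E _ _ _ _ _ p _ j g hg
  classical
  haveI : NeZero p := ⟨(Fact.out : p.Prime).ne_zero⟩
  rw [Subgroup.mem_centralizer_iff] at hg
  -- the generators
  have hgenT : ∀ v : ZMod p × ZMod p, sqP E j (Equiv.addRight v) ∈ subQ E j := fun v =>
    Subgroup.subset_closure (Or.inl ⟨v, rfl⟩)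
  have hgenF : ∀ f : I → ZMod p, (∀ k, f (j k) = 0) → fibP E f ∈ subQ E j := fun f hf =>
    Subgroup.subset_closure (Or.inr ⟨f, hf, rfl⟩)
  -- off the square
  have hoff : ∀ i, i ∉ Set.range j →
      ∃ c : ZMod p, ∀ x : ZMod p, g (Sum.inl (i, x)) = Sum.inl (i, x + c) := by
    intro i hi
    apply exists_trans_of_commute g i
    have hmem : bGen E p i ∈ subQ E j := by
      apply hgenF
      intro k
      have hne : j k ≠ i := fun h => hi ⟨k, h⟩
      simp [Pi.single_eq_of_ne hne]
    exact (hg _ hmem).symm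
  -- on the square
  have hT : ∀ u v : ZMod p × ZMod p, sqP E j (Equiv.addRight v) (Sum.inl (j u.1, u.2))
      = Sum.inl (j (u + v).1, (u + v).2) := by
    intro u v
    rw [sqP_apply]
    rfl
  have hcommT : ∀ (v : ZMod p × ZMod p) z,
      g (sqP E j (Equiv.addRight v) z) = sqP E j (Equiv.addRight v) (g z) := by
    intro v z
    have h := congrArg (fun σ : Equiv.Perm (Pt I E p) => σ z) (hg _ (hgenT v))
    simpa [Equiv.Perm.mul_apply] using h.symm
  obtain ⟨w0, hw0⟩ : ∃ w0 : ZMod p × ZMod p,
      g (Sum.inl (j 0, 0)) = Sum.inl (j w0.1, w0.2) := by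
    have hmoved : sqP E j (Equiv.addRight ((1 : ZMod p), (0 : ZMod p))) (g (Sum.inl (j 0, 0)))
        ≠ g (Sum.inl (j 0, 0)) := by
      rw [← hcommT]
      have h1 := hT (0, 0) ((1 : ZMod p), (0 : ZMod p))
      simp only at h1
      rw [h1]
      intro h
      have h2 := g.injective h
      simp only [Sum.inl.injEq, Prod.mk.injEq] at h2
      have h3 := j.injective h2.1
      simp at h3
    rcases hz : g (Sum.inl (j 0, 0)) with ⟨i', y⟩ | e
    · by_cases hi : i' ∈ Set.range j
      · obtain ⟨k, rfl⟩ := hi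
        exact ⟨(k, y), rfl⟩
      · exfalso
        apply hmoved
        rw [hz]
        exact sqP_apply_of_notMem E j _ i' hi y
    · exfalso
      apply hmoved
      rw [hz]
      exact sqP_apply_inr E j _ e
  have hsq : ∀ v : ZMod p × ZMod p,
      g (Sum.inl (j v.1, v.2)) = Sum.inl (j (w0 + v).1, (w0 + v).2) := by
    intro v
    have h1 := hT 0 v
    simp only [zero_add, Prod.fst_zero, Prod.snd_zero] at h1
    have h2 : (Sum.inl (j v.1, v.2) : Pt I E p)
        = sqP E j (Equiv.addRight v) (Sum.inl (j 0, 0)) := by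
      rw [h1]
    rw [h2, hcommT, hw0, hT]
  -- the fixed point
  have hinr : ∀ e : E, g (Sum.inr e) = Sum.inr e := by
    intro e
    rcases hz : g (Sum.inr e) with ⟨i', y⟩ | e'
    · exfalso
      by_cases hi : i' ∈ Set.range j
      · obtain ⟨k, rfl⟩ := hi
        have h1 := hsq ((k, y) - w0)
        rw [add_sub_cancel] at h1
        have h2 : g (Sum.inr e) = g (Sum.inl (j ((k, y) - w0).1, ((k, y) - w0).2)) := by
          rw [hz, h1]
        have h3 := g.injective h2
        simp at h3
      · obtain ⟨c, hc⟩ := hoff i' hi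
        have h1 := hc (y - c)
        rw [sub_add_cancel] at h1
        have h2 : g (Sum.inr e) = g (Sum.inl (i', y - c)) := by rw [hz, h1]
        have h3 := g.injective h2
        simp at h3
    · rw [Subsingleton.elim e' e]
  -- assemble
  choose c hc using hoff
  obtain ⟨f, hf⟩ : ∃ f : I → ZMod p, f = fun i => if h : i ∈ Set.range j then 0 else c i h :=
    ⟨_, rfl⟩
  have hf0 : ∀ k, f (j k) = 0 := by
    intro k
    rw [hf]
    simp
  have hfoff : ∀ i (hi : i ∉ Set.range j), f i = c i hi := by
    intro i hi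
    rw [hf]
    simp [hi]
  have hgeq : g = sqP E j (Equiv.addRight w0) * fibP E f := by
    ext z
    rw [Equiv.Perm.mul_apply]
    rcases z with ⟨i, x⟩ | e
    · by_cases hi : i ∈ Set.range j
      · obtain ⟨k, rfl⟩ := hi
        rw [fibP_inl, hf0, add_zero]
        have h1 := hT (k, x) w0
        have h2 := hsq (k, x)
        simp only at h1 h2
        rw [h1, h2, add_comm]
      · rw [fibP_inl, sqP_apply_of_notMem E j _ i hi, hc i hi x, hfoff i hi]
    · rw [fibP_inr, sqP_apply_inr, hinr]
  rw [hgeq]
  exact Subgroup.mul_mem _ (hgenT w0) (hgenF f hf0)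

example : StmtCQ := cq

end model

end Cfsg.Agent.H86.AltF
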