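import Mathlib
import Cfsg.Agent.H88.AltFDefs
import Cfsg.Agent.H86.AltFNB

/-!
# S5165-SCB (piece for helper88): every element of order dividing `p` is conjugate, under an even
permutation, into the base group
-/

set_option autoImplicit false
set_option linter.unusedSectionVars false
set_option linter.style.haveILetI false

namespace Cfsg.Agent.H86.AltF

open Cfsg Cfsg.Agent.H88.AltF

section model

variable {I E : Type} [Fintype I] [DecidableEq I] [Fintype E] [DecidableEq E] [Subsingleton E]
  {p : ℕ} [Fact p.Prime]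

/-- The sign of a permutation of the base. -/
theorem sign_baseP [NeZero p] (σ : Equiv.Perm I) :
    Equiv.Perm.sign (baseP E p σ) = Equiv.Perm.sign σ ^ p := by
  unfold baseP
  rw [Equiv.Perm.sign_sumCongr, Equiv.prodCongr_refl_right, Equiv.Perm.sign_prodCongrLeft]
  simp [Finset.prod_const, Finset.card_univ, ZMod.card]

/-- Permutations of the base normalize the base group. -/
theorem baseP_conj_fibP (σ : Equiv.Perm I) (f : I → ZMod p) :
    baseP E p σ * fibP E f * (baseP E p σ)⁻¹ = fibP E (fun i => f (σ⁻¹ i)) := by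
  rw [← baseP_inv]
  ext (⟨i, x⟩ | e)
  · simp [Equiv.Perm.mul_apply]
  · simp [Equiv.Perm.mul_apply]

/-- The support of a fibrewise translation. -/
theorem support_fibP [NeZero p] (f : I → ZMod p) :
    (fibP E f).support =
      ((Finset.univ.filter (fun i => f i ≠ 0)) ×ˢ (Finset.univ : Finset (ZMod p))).map
        ⟨Sum.inl, Sum.inl_injective⟩ := by
  ext (⟨i, x⟩ | e)
  · simp [Equiv.Perm.mem_support]
  · simp [Equiv.Perm.mem_support]

theorem scb : StmtSCb := by
  intro I E _ _ _ _ _ p _ hp2 hpI x hx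
  classical
  haveI : NeZero p := ⟨(Fact.out : p.Prime).ne_zero⟩
  have hp := (Fact.out : p.Prime)
  by_cases hx1 : x = 1
  · refine ⟨1, Equiv.Perm.sign_one, ?_⟩
    rw [hx1]
    simp only [mul_one, inv_one]
    exact (baseB I E p).one_mem
  -- the cycle type of `x`
  have hox : orderOf x = p := by
    have h1 : orderOf x ∣ p := orderOf_dvd_of_pow_eq_one hx
    rcases (Nat.dvd_prime hp).mp h1 with h | h
    · exact absurd (orderOf_eq_one_iff.mp h) hx1
    · exact h
  obtain ⟨n, hn⟩ := Equiv.Perm.cycleType_prime_order (σ := x) (by rw [hox]; exact hp)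
  rw [hox] at hn
  have hcardPt : Fintype.card (Pt I E p) ≤ Fintype.card I * p + 1 := by
    have h1 : Fintype.card (Pt I E p) = Fintype.card I * p + Fintype.card E := by
      simp [Fintype.card_sum, Fintype.card_prod, ZMod.card]
    have h2 : Fintype.card E ≤ 1 := Fintype.card_le_one_iff_subsingleton.mpr inferInstance
    omega
  have hnI : n + 1 ≤ Fintype.card I := by
    have h1 := Equiv.Perm.sum_cycleType_le x
    rw [hn, Multiset.sum_replicate, smul_eq_mul] at h1
    have h2 := hp.two_le
    by_contra hcon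
    have h3 : (Fintype.card I + 1) * p ≤ (n + 1) * p := Nat.mul_le_mul_right p (by omega)
    nlinarith
  obtain ⟨J, -, hJ⟩ := Finset.exists_subset_card_eq (s := (Finset.univ : Finset I))
    (n := n + 1) (by rw [Finset.card_univ]; exact hnI)
  obtain ⟨f₀, hf₀⟩ : ∃ f₀ : I → ZMod p, f₀ = fun i => if i ∈ J then 1 else 0 := ⟨_, rfl⟩
  have hfilter : Finset.univ.filter (fun i => f₀ i ≠ 0) = J := by
    ext i
    rw [hf₀]
    by_cases hi : i ∈ J <;> simp [hi]
  obtain ⟨y, hy⟩ : ∃ y, y = fibP E f₀ := ⟨_, rfl⟩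
  have hyp : y ^ p = 1 := by
    rw [hy, fibP_pow]
    have h0 : p • f₀ = 0 := by
      funext i
      simp
    rw [h0, fibP_zero]
  have hy1 : y ≠ 1 := by
    intro h
    rw [hy, ← fibP_zero E (I := I) (p := p)] at h
    have h2 := fibP_injective E h
    have hJne : J.Nonempty := by
      rw [← Finset.card_pos, hJ]
      omega
    obtain ⟨i, hi⟩ := hJne
    have h3 := congrFun h2 i
    rw [hf₀] at h3
    simp [hi] at h3
  have hoy : orderOf y = p := by
    have h1 : orderOf y ∣ p := orderOf_dvd_of_pow_eq_one hyp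
    rcases (Nat.dvd_prime hp).mp h1 with h | h
    · exact absurd (orderOf_eq_one_iff.mp h) hy1
    · exact h
  obtain ⟨n', hn'⟩ := Equiv.Perm.cycleType_prime_order (σ := y) (by rw [hoy]; exact hp)
  rw [hoy] at hn'
  have hnn : n' + 1 = n + 1 := by
    have h1 := Equiv.Perm.sum_cycleType y
    rw [hn', Multiset.sum_replicate, smul_eq_mul, hy, support_fibP, Finset.card_map,
      Finset.card_product, hfilter, hJ, Finset.card_univ, ZMod.card] at h1
    exact Nat.eq_of_mul_eq_mul_right hp.pos h1
  have hconj : IsConj x y := by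
    rw [Equiv.Perm.isConj_iff_cycleType_eq, hn, hn', hnn]
  obtain ⟨w, hw⟩ := isConj_iff.mp hconj
  rcases Int.units_eq_one_or (Equiv.Perm.sign w) with hs | hs
  · refine ⟨w, hs, ?_⟩
    rw [hw, hy]
    exact fibP_mem_baseB E f₀
  · -- correct the sign by a transposition of two fibres
    have hcard2 : 1 < Fintype.card I := lt_of_lt_of_le hp.one_lt hpI
    obtain ⟨i, i', hii⟩ := Fintype.exists_pair_of_one_lt_card hcard2
    obtain ⟨d, hd⟩ : ∃ d, d = baseP E p (Equiv.swap i i') := ⟨_, rfl⟩
    have hsd : Equiv.Perm.sign d = -1 := by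
      rw [hd, sign_baseP, Equiv.Perm.sign_swap hii]
      exact (hp.odd_of_ne_two hp2).neg_one_pow
    refine ⟨d * w, ?_, ?_⟩
    · rw [Equiv.Perm.sign_mul, hsd, hs]
      simp
    · have h1 : d * w * x * (d * w)⁻¹ = d * (w * x * w⁻¹) * d⁻¹ := by
        rw [mul_inv_rev]
        simp only [mul_assoc]
      rw [h1, hw, hy, hd, baseP_conj_fibP]
      exact fibP_mem_baseB E _

example : StmtSCb := scb

end model

end Cfsg.Agent.H86.AltF
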