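import Mathlib
import Cfsg.Agent.H49.PlusTwoOut

/-!
The order of `Aut(PΩ⁺_{2m}(q))` from the structure of `Out(PΩ⁺_{2m}(q))` (glue for S0817):
`|Aut| = |Out| · |Inn|` and `|Inn| = |PΩ⁺|` (helper49's `card_inn_pOmega`).
-/

set_option autoImplicit false

namespace Cfsg.Agent.H86.AutPlus

open Cfsg

theorem card_mulAut_eq_out_mul (G : Type*) [Group G] :
    Nat.card (MulAut G) = Nat.card (Cfsg.Out G) * Nat.card (Cfsg.Inn G) :=
  Subgroup.card_eq_card_quotient_mul_card_subgroup (Cfsg.Inn G)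

theorem card_mzmod (f : ℕ) : Nat.card (Multiplicative (ZMod f)) = f := by
  rw [Nat.card_congr Multiplicative.toAdd, Nat.card_zmod]

theorem card_perm3_prod (f : ℕ) :
    Nat.card (Equiv.Perm (Fin 3) × Multiplicative (ZMod f)) = 6 * f := by
  rw [Nat.card_prod, card_mzmod, Nat.card_perm, Nat.card_fin]
  rfl

theorem card_perm4_prod (f : ℕ) :
    Nat.card (Equiv.Perm (Fin 4) × Multiplicative (ZMod f)) = 24 * f := by
  rw [Nat.card_prod, card_mzmod, Nat.card_perm, Nat.card_fin]
  rfl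

theorem card_c2_prod (f : ℕ) : Nat.card (Multiplicative (ZMod 2 × ZMod f)) = 2 * f := by
  rw [Nat.card_congr Multiplicative.toAdd, Nat.card_prod, Nat.card_zmod, Nat.card_zmod]

theorem card_c2c2_prod (f : ℕ) :
    Nat.card (Multiplicative (ZMod 2 × ZMod 2 × ZMod f)) = 4 * f := by
  rw [Nat.card_congr Multiplicative.toAdd, Nat.card_prod, Nat.card_prod, Nat.card_zmod,
    Nat.card_zmod]
  ring

theorem card_d8_prod (f : ℕ) :
    Nat.card (DihedralGroup 4 × Multiplicative (ZMod f)) = 8 * f := by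
  rw [Nat.card_prod, card_mzmod, DihedralGroup.nat_card]

/-- For odd `q`: `m (q - 1) / 2` is odd exactly when `q ≡ 3 (mod 4)` and `m` is odd. -/
theorem plus_parity_iff (m q : ℕ) (hq : Odd q) :
    Even (m * (q - 1) / 2) ↔ ¬ (q % 4 = 3 ∧ Odd m) := by
  obtain ⟨t, rfl⟩ := hq
  have e : m * (2 * t + 1 - 1) / 2 = m * t := by
    rw [Nat.add_sub_cancel, Nat.mul_left_comm, Nat.mul_div_cancel_left _ (by norm_num : 0 < 2)]
  rw [e, Nat.even_mul, Nat.even_iff (n := t)]
  by_cases hm : Even m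
  · have : ¬ Odd m := Nat.not_odd_iff_even.mpr hm
    simp [hm, this]
  · have ho : Odd m := Nat.not_even_iff_odd.mp hm
    simp only [hm, false_or, ho, and_true]
    omega

section
variable {F : Type*} [Field F] [Fintype F]

theorem card_inn_plus (m : ℕ) (hm : 4 ≤ m) :
    Nat.card ↥(Cfsg.Inn (Cfsg.POmega F (Cfsg.quadFormPlus m F)))
      = Nat.card (Cfsg.POmega F (Cfsg.quadFormPlus m F)) :=
  Cfsg.Agent.H49.card_inn_pOmega (Cfsg.Agent.H49.QP m F) (Cfsg.Agent.H49.QP_nondeg m F)
    (Cfsg.Agent.H49.hasTS3_QP (F := F) m (by omega))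

/-- `|Aut(PΩ⁺_{2m}(q))|` from the two theorems on `Out(PΩ⁺_{2m}(q))` (`q` even, `q` odd). -/
theorem card_aut_plus (p f : ℕ) [Fact p.Prime] (hf : 1 ≤ f) (hF : Fintype.card F = p ^ f)
    (m : ℕ) (hm : 4 ≤ m)
    (h2 : p = 2 → if m = 4 then
        Nonempty (Cfsg.Out (Cfsg.POmega F (Cfsg.quadFormPlus m F))
          ≃* Equiv.Perm (Fin 3) × Multiplicative (ZMod f))
      else Nonempty (Cfsg.Out (Cfsg.POmega F (Cfsg.quadFormPlus m F))
          ≃* Multiplicative (ZMod 2 × ZMod f)))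
    (ho : p ≠ 2 → if m = 4 then
        Nonempty (Cfsg.Out (Cfsg.POmega F (Cfsg.quadFormPlus m F))
          ≃* Equiv.Perm (Fin 4) × Multiplicative (ZMod f))
      else if p ^ f % 4 = 3 ∧ Odd m then
        Nonempty (Cfsg.Out (Cfsg.POmega F (Cfsg.quadFormPlus m F))
          ≃* Multiplicative (ZMod 2 × ZMod 2 × ZMod f))
      else Nonempty (Cfsg.Out (Cfsg.POmega F (Cfsg.quadFormPlus m F))
          ≃* DihedralGroup 4 × Multiplicative (ZMod f))) :
    Nat.card (MulAut (Cfsg.POmega F (Cfsg.quadFormPlus m F)))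
      = (if m = 4 then 3 else 1) *
          (if p = 2 then 2 else (if Even (m * (p ^ f - 1) / 2) then 8 else 4)) * f *
        Nat.card (Cfsg.POmega F (Cfsg.quadFormPlus m F)) := by
  rw [card_mulAut_eq_out_mul, card_inn_plus m hm]
  congr 1
  by_cases hp2 : p = 2
  · rw [if_pos hp2]
    have h := h2 hp2
    by_cases hm4 : m = 4
    · rw [if_pos hm4] at h ⊢
      obtain ⟨e⟩ := h
      rw [Nat.card_congr e.toEquiv, card_perm3_prod]
    · rw [if_neg hm4] at h ⊢
      obtain ⟨e⟩ := h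
      rw [Nat.card_congr e.toEquiv, card_c2_prod]
  · rw [if_neg hp2]
    have h := ho hp2
    have hpodd : Odd p := (Fact.out : p.Prime).odd_of_ne_two hp2
    have hqodd : Odd (p ^ f) := hpodd.pow
    have hpar := plus_parity_iff m (p ^ f) hqodd
    by_cases hm4 : m = 4
    · rw [if_pos hm4] at h ⊢
      obtain ⟨e⟩ := h
      have he : Even (m * (p ^ f - 1) / 2) := by
        rw [hpar]
        rintro ⟨-, hodd⟩
        subst hm4
        exact absurd hodd (by decide)
      rw [if_pos he, Nat.card_congr e.toEquiv, card_perm4_prod]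
    · rw [if_neg hm4] at h ⊢
      by_cases hc : p ^ f % 4 = 3 ∧ Odd m
      · rw [if_pos hc] at h
        obtain ⟨e⟩ := h
        have hne : ¬ Even (m * (p ^ f - 1) / 2) := by
          rw [hpar]
          exact fun h => h hc
        rw [if_neg hne, Nat.card_congr e.toEquiv, card_c2c2_prod]
      · rw [if_neg hc] at h
        obtain ⟨e⟩ := h
        have he : Even (m * (p ^ f - 1) / 2) := by
          rw [hpar]
          exact hc
        rw [if_pos he, Nat.card_congr e.toEquiv, card_d8_prod]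

end

end Cfsg.Agent.H86.AutPlus
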