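import Mathlib
import Cfsg.Agent.H2.BrDefs
import Cfsg.Agent.S4500
import Cfsg.Agent.H81.Reg
import Cfsg.Agent.H80.CensusBG1
import Cfsg.Agent.H16.GCChar

/-!
# S4501-DEG4 (piece for helper2): a character of degree `4`
-/

set_option autoImplicit false

namespace Cfsg.Agent.H86.Br

open Cfsg

universe u

/-- The commutator subgroup of a nonabelian simple group is everything. -/
theorem commutator_eq_top_of_simple (G : Type u) [Group G] [IsSimpleGroup G]
    (hna : ∃ x y : G, x * y ≠ y * x) : commutator G = ⊤ := by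
  rcases (inferInstance : (commutator G).Normal).eq_bot_or_eq_top with h | h
  · exfalso
    obtain ⟨x, y, hxy⟩ := hna
    apply hxy
    have h1 : x * y * x⁻¹ * y⁻¹ ∈ commutator G := Cfsg.Agent.H16.comm_mem_commutator x y
    rw [h, Subgroup.mem_bot] at h1
    calc x * y = (x * y * x⁻¹ * y⁻¹) * (y * x) := by group
      _ = y * x := by rw [h1, one_mul]
  · exact h

/-- A nonabelian simple group has no nonprincipal linear character. -/
theorem nonlinear_of_simple (G : Type u) [Group G] [Finite G] [IsSimpleGroup G]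
    (hna : ∃ x y : G, x * y ≠ y * x) (χ : IrrCharacter G)
    (hne : (χ : G → ℂ) ≠ (fun _ => 1)) : charDegree (χ : G → ℂ) ≠ 1 := by
  intro h1
  apply hne
  have hle := Cfsg.Agent.H16.commutator_le_irrKer_of_linear χ h1
  rw [commutator_eq_top_of_simple G hna] at hle
  have h1' : χ.1 1 = 1 := by rw [Cfsg.Agent.H82.irr_one_eq_charDegree, h1]; simp
  funext g
  have hg : g ∈ Cfsg.Agent.H82.irrKer χ := hle (Subgroup.mem_top g)
  rw [Cfsg.Agent.H82.mem_irrKer, h1'] at hg
  exact hg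

theorem deg4 : Cfsg.Agent.H2.Br.StmtDeg4.{u} := by
  intro G _ _ _ hna p q a b hp hq hpq hp2 hq2 ha hcard
  have hcard' : Nat.card G = p ^ a * 2 ^ 2 * q ^ b := by rw [hcard]; ring
  obtain ⟨χ, hne, k, hk⟩ :=
    (Cfsg.Agent.S4500.result (G := G) p 2 q a 2 b hp Nat.prime_two hq hp2 hpq
      (Ne.symm hq2) ha hcard').1
  refine ⟨χ, ?_⟩
  have hdvd : 2 ^ k ∣ Nat.card G := hk ▸ Cfsg.Agent.H81.irr_charDegree_dvd χ
  have hk2 : k ≤ 2 := by
    rw [hcard'] at hdvd
    have hcop1 : Nat.Coprime (2 ^ k) (p ^ a) :=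
      Nat.Coprime.pow _ _ ((Nat.coprime_primes Nat.prime_two hp).mpr (Ne.symm hp2))
    have hcop2 : Nat.Coprime (2 ^ k) (q ^ b) :=
      Nat.Coprime.pow _ _ ((Nat.coprime_primes Nat.prime_two hq).mpr (Ne.symm hq2))
    have h1 : 2 ^ k ∣ p ^ a * 2 ^ 2 := hcop2.dvd_of_dvd_mul_right hdvd
    have h2 : 2 ^ k ∣ 2 ^ 2 := hcop1.dvd_of_dvd_mul_left h1
    exact (Nat.pow_dvd_pow_iff_le_right (by norm_num)).mp h2
  have hk0 : k ≠ 0 := by
    intro h0
    apply nonlinear_of_simple G hna χ hne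
    rw [hk, h0, pow_zero]
  have hk1 : k ≠ 1 := by
    intro h1
    have hcyc : ¬ IsCyclic G := by
      intro hc
      obtain ⟨x, y, hxy⟩ := hna
      exact hxy (isMulCommutative_iff.mp hc.isMulCommutative x y)
    apply Cfsg.Agent.H80.Census.noDegTwo G hcyc χ
    rw [hk, h1, pow_one]
  have hk' : k = 2 := by omega
  rw [hk, hk']; norm_num

example : Cfsg.Agent.H2.Br.StmtDeg4.{u} := deg4

end Cfsg.Agent.H86.Br
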