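import Mathlib
import Cfsg.Prelude.Def_KGroupFacts

/-!
Team project S5515 (a group with `F*(G) ≅ PΩ⁺₈(3)` and `G / F*(G) ≅ S₃` is unique): the
statements of the three pieces. All three are pure group theory.
-/

set_option autoImplicit false

namespace Cfsg.Agent.H86.Fs

universe u v

/-- FS-EMB: if `N ⊴ G` contains its centraliser and `N ≅ P` has trivial centre, then `G` is
isomorphic to the full preimage in `Aut(P)` of a subgroup `Q` of `Out(P)`, and `G / N ≅ Q`. -/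
def StEmb : Prop :=
  ∀ {G : Type u} [Group G] {P : Type v} [Group P] (N : Subgroup G) [N.Normal],
    Subgroup.centralizer (N : Set G) ≤ N → ∀ (_e : ↥N ≃* P), Subgroup.center P = ⊥ →
    ∃ Q : Subgroup (Cfsg.Out P),
      Nonempty (G ≃* ↥(Q.comap (QuotientGroup.mk' (Cfsg.Inn P)))) ∧ Nonempty (G ⧸ N ≃* ↥Q)

/-- FS-S4: any two subgroups of order 6 of `S₄ × 1` are conjugate. -/
def StS4 : Prop :=
  ∀ K₁ K₂ : Subgroup (Equiv.Perm (Fin 4) × Multiplicative (ZMod 1)),
    Nat.card ↥K₁ = 6 → Nat.card ↥K₂ = 6 →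
    ∃ g : Equiv.Perm (Fin 4) × Multiplicative (ZMod 1),
      K₂ = K₁.map (MulAut.conj g).toMonoidHom

/-- FS-CONJ: if any two subgroups of order 6 of `A / I ≅ S` are conjugate, then the full
preimages in `A` of two subgroups of order 6 of `A / I` are isomorphic. -/
def StConj : Prop :=
  ∀ {A : Type u} [Group A] (I : Subgroup A) [I.Normal] {S : Type v} [Group S]
    (_e : A ⧸ I ≃* S),
    (∀ K₁ K₂ : Subgroup S, Nat.card ↥K₁ = 6 → Nat.card ↥K₂ = 6 →
      ∃ g : S, K₂ = K₁.map (MulAut.conj g).toMonoidHom) →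
    ∀ Q₁ Q₂ : Subgroup (A ⧸ I), Nat.card ↥Q₁ = 6 → Nat.card ↥Q₂ = 6 →
      Nonempty (↥(Q₁.comap (QuotientGroup.mk' I)) ≃* ↥(Q₂.comap (QuotientGroup.mk' I)))

end Cfsg.Agent.H86.Fs
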