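import Mathlib
import Cfsg.Agent.H86.FsDefs

/-!
FS-CONJ (piece of S5515): full preimages of conjugate subgroups of a quotient are isomorphic.
-/

set_option autoImplicit false

namespace Cfsg.Agent.H86.Fs

universe u v

theorem conj : StConj.{u, v} := by
  intro A _ I _ S _ e hS Q₁ Q₂ h₁ h₂
  have hc : ∀ Q : Subgroup (A ⧸ I), Nat.card ↥(Q.map e.toMonoidHom) = Nat.card ↥Q := fun Q =>
    Nat.card_congr (e.subgroupMap Q).symm.toEquiv
  obtain ⟨g, hg⟩ := hS (Q₁.map e.toMonoidHom) (Q₂.map e.toMonoidHom) (by rw [hc, h₁])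
    (by rw [hc, h₂])
  obtain ⟨a, ha⟩ := QuotientGroup.mk_surjective (e.symm g)
  have hes : e (QuotientGroup.mk a) = g := by rw [ha, MulEquiv.apply_symm_apply]
  have hQ : ∀ x : A ⧸ I, x ∈ Q₂ ↔
      (QuotientGroup.mk a : A ⧸ I)⁻¹ * x * (QuotientGroup.mk a : A ⧸ I) ∈ Q₁ := by
    intro x
    constructor
    · intro hx
      have h1 : e x ∈ Q₂.map e.toMonoidHom := ⟨x, hx, rfl⟩
      rw [hg] at h1
      obtain ⟨_, ⟨y, hy, rfl⟩, hz⟩ := h1
      have h2 : e ((QuotientGroup.mk a : A ⧸ I) * y * (QuotientGroup.mk a : A ⧸ I)⁻¹) = e x := by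
        rw [map_mul, map_mul, map_inv, hes]
        exact hz
      have h3 := e.injective h2
      rw [← h3]
      have : (QuotientGroup.mk a : A ⧸ I)⁻¹ * ((QuotientGroup.mk a : A ⧸ I) * y *
          (QuotientGroup.mk a : A ⧸ I)⁻¹) * (QuotientGroup.mk a : A ⧸ I) = y := by group
      rw [this]
      exact hy
    · intro hx
      have h1 : e x ∈ (Q₁.map e.toMonoidHom).map (MulAut.conj g).toMonoidHom := by
        refine ⟨e ((QuotientGroup.mk a : A ⧸ I)⁻¹ * x * (QuotientGroup.mk a : A ⧸ I)),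
          ⟨_, hx, rfl⟩, ?_⟩
        change g * e ((QuotientGroup.mk a : A ⧸ I)⁻¹ * x * (QuotientGroup.mk a : A ⧸ I)) * g⁻¹
          = e x
        rw [map_mul, map_mul, map_inv, hes]
        group
      rw [← hg] at h1
      obtain ⟨y, hy, hyx⟩ := h1
      have := e.injective hyx
      rw [← this]
      exact hy
  have hmap : (Q₁.comap (QuotientGroup.mk' I)).map (MulAut.conj a).toMonoidHom
      = Q₂.comap (QuotientGroup.mk' I) := by
    ext b
    rw [Subgroup.mem_comap, QuotientGroup.mk'_apply, hQ]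
    constructor
    · rintro ⟨b', hb', rfl⟩
      have hb'' : (QuotientGroup.mk b' : A ⧸ I) ∈ Q₁ := hb'
      have : (QuotientGroup.mk a : A ⧸ I)⁻¹ *
          (QuotientGroup.mk ((MulAut.conj a).toMonoidHom b') : A ⧸ I) *
          (QuotientGroup.mk a : A ⧸ I) = (QuotientGroup.mk b' : A ⧸ I) := by
        change (QuotientGroup.mk a : A ⧸ I)⁻¹ * (QuotientGroup.mk (a * b' * a⁻¹) : A ⧸ I) *
          (QuotientGroup.mk a : A ⧸ I) = (QuotientGroup.mk b' : A ⧸ I)
        rw [QuotientGroup.mk_mul, QuotientGroup.mk_mul, QuotientGroup.mk_inv]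
        group
      rw [this]
      exact hb''
    · intro hb
      refine ⟨a⁻¹ * b * a, ?_, ?_⟩
      · change (QuotientGroup.mk (a⁻¹ * b * a) : A ⧸ I) ∈ Q₁
        rw [QuotientGroup.mk_mul, QuotientGroup.mk_mul, QuotientGroup.mk_inv]
        exact hb
      · change a * (a⁻¹ * b * a) * a⁻¹ = b
        group
  exact ⟨((MulAut.conj a).subgroupMap (Q₁.comap (QuotientGroup.mk' I))).trans
    (MulEquiv.subgroupCongr hmap)⟩

example : StConj.{u, v} := conj

end Cfsg.Agent.H86.Fs
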