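import Mathlib
import Cfsg.Agent.H86.FsDefs

/-!
FS-EMB (piece of S5515): a group with a self-centralising normal subgroup `N ≅ P` of trivial
centre is the full preimage in `Aut(P)` of a subgroup of `Out(P)`.
-/

set_option autoImplicit false

namespace Cfsg.Agent.H86.Fs

universe u v

theorem emb : StEmb.{u, v} := by
  intro G _ P _ N _ hC e hZ
  let c : G →* MulAut P := (MulAut.congr e).toMonoidHom.comp (MulAut.conjNormal (H := N))
  have hc : ∀ (g : G) (p : P), c g p = e (MulAut.conjNormal g (e.symm p)) := fun _ _ => rfl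
  have hcn : ∀ (g : G) (n : ↥N), ((MulAut.conjNormal g n : ↥N) : G) = g * (n : G) * g⁻¹ :=
    fun g n => MulAut.conjNormal_apply g n
  have hinj : Function.Injective c := by
    rw [injective_iff_map_eq_one]
    intro g hg
    have h1 : ∀ n : ↥N, g * (n : G) * g⁻¹ = n := by
      intro n
      have h0 : c g (e n) = e n := by rw [hg]; rfl
      rw [hc, MulEquiv.symm_apply_apply] at h0
      have h2 := e.injective h0
      rw [← hcn, h2]
    have hgC : g ∈ Subgroup.centralizer (N : Set G) := by
      rw [Subgroup.mem_centralizer_iff]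
      intro n hn
      have h := h1 ⟨n, hn⟩
      simp only at h
      calc n * g = (g * n * g⁻¹) * g := by rw [h]
        _ = g * n := by group
    have hgN := hC hgC
    have hcen : e ⟨g, hgN⟩ ∈ Subgroup.center P := by
      rw [Subgroup.mem_center_iff]
      intro p
      have h := h1 (e.symm p)
      have h' : (e.symm p) * (⟨g, hgN⟩ : ↥N) = ⟨g, hgN⟩ * (e.symm p) := by
        apply Subtype.ext
        simp only [Subgroup.coe_mul]
        calc ((e.symm p : ↥N) : G) * g = (g * (e.symm p : ↥N) * g⁻¹) * g := by rw [h]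
          _ = g * (e.symm p : ↥N) := by group
      have h'' := congrArg e h'
      rw [map_mul, map_mul, MulEquiv.apply_symm_apply] at h''
      exact h''
    rw [hZ, Subgroup.mem_bot] at hcen
    have h3 : (⟨g, hgN⟩ : ↥N) = 1 := e.injective (by rw [hcen, map_one])
    exact congrArg Subtype.val h3
  have hcN : ∀ n : ↥N, c (n : G) = MulAut.conj (e n) := by
    intro n
    ext p
    rw [hc, MulAut.conj_apply]
    have h : (MulAut.conjNormal (n : G) (e.symm p) : ↥N) = n * e.symm p * n⁻¹ := by
      apply Subtype.ext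
      rw [hcn]
      simp
    rw [h, map_mul, map_mul, map_inv, MulEquiv.apply_symm_apply]
  have hInn : Cfsg.Inn P ≤ c.range := by
    rintro _ ⟨p, rfl⟩
    exact ⟨((e.symm p : ↥N) : G), by rw [hcN, MulEquiv.apply_symm_apply]⟩
  refine ⟨c.range.map (QuotientGroup.mk' (Cfsg.Inn P)), ?_, ?_⟩
  · have hcomap : (c.range.map (QuotientGroup.mk' (Cfsg.Inn P))).comap
        (QuotientGroup.mk' (Cfsg.Inn P)) = c.range := by
      rw [Subgroup.comap_map_eq, QuotientGroup.ker_mk', sup_eq_left.mpr hInn]
    exact ⟨(MonoidHom.ofInjective hinj).trans (MulEquiv.subgroupCongr hcomap.symm)⟩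
  · let φ : G →* Cfsg.Out P := (QuotientGroup.mk' (Cfsg.Inn P)).comp c
    have hker : φ.ker = N := by
      ext g
      rw [MonoidHom.mem_ker]
      change (QuotientGroup.mk' (Cfsg.Inn P)) (c g) = 1 ↔ g ∈ N
      rw [QuotientGroup.mk'_apply, QuotientGroup.eq_one_iff]
      constructor
      · rintro ⟨p, hp⟩
        have h : c ((e.symm p : ↥N) : G) = c g := by
          rw [hcN, MulEquiv.apply_symm_apply]; exact hp
        rw [← hinj h]
        exact (e.symm p).2
      · intro hg
        exact ⟨e ⟨g, hg⟩, (hcN ⟨g, hg⟩).symm⟩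
    have hrange : φ.range = c.range.map (QuotientGroup.mk' (Cfsg.Inn P)) := by
      ext x
      constructor
      · rintro ⟨g, rfl⟩
        exact ⟨c g, ⟨g, rfl⟩, rfl⟩
      · rintro ⟨_, ⟨g, rfl⟩, rfl⟩
        exact ⟨g, rfl⟩
    exact ⟨(QuotientGroup.quotientMulEquivOfEq hker.symm).trans
      ((QuotientGroup.quotientKerEquivRange φ).trans (MulEquiv.subgroupCongr hrange))⟩

example : StEmb.{u, v} := emb

end Cfsg.Agent.H86.Fs
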