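import Mathlib
import Cfsg.Agent.H86.FsDefs
import Cfsg.Agent.S1265
import Cfsg.Agent.S2608
import Cfsg.Agent.H49.PlusTwoOut

/-!
Team project S5515: the assembly. A group with `F*(G) ≅ PΩ⁺₈(3)` and `G / F*(G) ≅ S₃` is
unique up to isomorphism, from S1265 (`C_G(F*(G)) ≤ F*(G)`), S2608 (`Out(PΩ⁺₈(3)) ≅ S₄ × C₁`)
and the three pieces of `FsDefs`.
-/

set_option autoImplicit false

namespace Cfsg.Agent.H86.Fs

universe u1 u2

/-- `PΩ⁺₈(3)` has trivial centre. -/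
theorem center_pOmega8_3 :
    Subgroup.center (Cfsg.POmega (ZMod 3) (Cfsg.quadFormPlus 4 (ZMod 3))) = ⊥ :=
  Cfsg.Agent.H49.pOmega_center (Cfsg.Agent.H49.QP 4 (ZMod 3)) (Cfsg.Agent.H49.QP_nondeg 4 (ZMod 3))
    (Cfsg.Agent.H49.hasTS3_QP (F := ZMod 3) 4 (by norm_num))

/-- `Out(PΩ⁺₈(3)) ≅ S₄ × C₁` (S2608 with `p = 3`, `f = 1`, `m = 4`). -/
theorem out_pOmega8_3 :
    Nonempty (Cfsg.Out (Cfsg.POmega (ZMod 3) (Cfsg.quadFormPlus 4 (ZMod 3)))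
      ≃* Equiv.Perm (Fin 4) × Multiplicative (ZMod 1)) := by
  haveI : Fact (Nat.Prime 3) := ⟨by norm_num⟩
  have h := Cfsg.Agent.S2608.result (F := ZMod 3) (p := 3) (f := 1) (m := 4) (le_refl 1)
    (by rw [ZMod.card]; rfl) (by norm_num) (le_refl 4)
  rw [if_pos rfl] at h
  exact h

theorem main_of (hEmb1 : StEmb.{u1, 0}) (hEmb2 : StEmb.{u2, 0}) (hS4 : StS4)
    (hConj : StConj.{0, 0})
    {G : Type u1} {G' : Type u2} [Group G] [Finite G] [Group G'] [Finite G']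
    (hF : Nonempty (↥(Cfsg.generalizedFittingSubgroup G)
      ≃* Cfsg.POmega (ZMod 3) (Cfsg.quadFormPlus 4 (ZMod 3))))
    (hF' : Nonempty (↥(Cfsg.generalizedFittingSubgroup G')
      ≃* Cfsg.POmega (ZMod 3) (Cfsg.quadFormPlus 4 (ZMod 3))))
    [hn : (Cfsg.generalizedFittingSubgroup G).Normal]
    [hn' : (Cfsg.generalizedFittingSubgroup G').Normal]
    (hq : Nonempty (G ⧸ Cfsg.generalizedFittingSubgroup G ≃* Equiv.Perm (Fin 3)))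
    (hq' : Nonempty (G' ⧸ Cfsg.generalizedFittingSubgroup G' ≃* Equiv.Perm (Fin 3))) :
    Nonempty (G ≃* G') := by
  obtain ⟨e⟩ := hF
  obtain ⟨e'⟩ := hF'
  obtain ⟨q⟩ := hq
  obtain ⟨q'⟩ := hq'
  obtain ⟨Q, ⟨i⟩, ⟨j⟩⟩ := hEmb1 (Cfsg.generalizedFittingSubgroup G) Cfsg.Agent.S1265.result e
    center_pOmega8_3
  obtain ⟨Q', ⟨i'⟩, ⟨j'⟩⟩ := hEmb2 (Cfsg.generalizedFittingSubgroup G') Cfsg.Agent.S1265.result e'
    center_pOmega8_3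
  have h6 : Nat.card (Equiv.Perm (Fin 3)) = 6 := by
    rw [Nat.card_perm, Nat.card_fin]; rfl
  have hQ : Nat.card ↥Q = 6 := by
    rw [← Nat.card_congr j.toEquiv, Nat.card_congr q.toEquiv, h6]
  have hQ' : Nat.card ↥Q' = 6 := by
    rw [← Nat.card_congr j'.toEquiv, Nat.card_congr q'.toEquiv, h6]
  obtain ⟨o⟩ := out_pOmega8_3
  obtain ⟨k⟩ := hConj (Cfsg.Inn (Cfsg.POmega (ZMod 3) (Cfsg.quadFormPlus 4 (ZMod 3)))) o hS4
    Q Q' hQ hQ'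
  exact ⟨(i.trans k).trans i'.symm⟩

end Cfsg.Agent.H86.Fs
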