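import Mathlib
import Cfsg.Agent.H86.FsDefs

/-!
FS-S4 (piece of S5515): any two subgroups of order 6 of `S₄ × 1` are conjugate (each is a
point stabiliser).
-/

set_option autoImplicit false

namespace Cfsg.Agent.H86.Fs

theorem fix_unique : ∀ s : Equiv.Perm (Fin 4), s ≠ 1 → s ^ 3 = 1 →
    ∃ x, s x = x ∧ ∀ y, s y = y → y = x := by decide

theorem stab_card : ∀ x : Fin 4,
    (Finset.univ.filter (fun s : Equiv.Perm (Fin 4) => s x = x)).card = 6 := by decide

/-- A subgroup of order 6 of `S₄ × 1` fixes a point. -/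
theorem exists_fix (K : Subgroup (Equiv.Perm (Fin 4) × Multiplicative (ZMod 1)))
    (hK : Nat.card ↥K = 6) : ∃ x : Fin 4, ∀ k ∈ K, k.1 x = x := by
  haveI : Fact (Nat.Prime 3) := ⟨by norm_num⟩
  haveI : Finite ↥K := Nat.finite_of_card_ne_zero (by rw [hK]; norm_num)
  obtain ⟨σ, hσ⟩ := exists_prime_orderOf_dvd_card' (G := ↥K) 3 (by rw [hK]; norm_num)
  have hs3 : (σ : Equiv.Perm (Fin 4) × Multiplicative (ZMod 1)).1 ^ 3 = 1 := by
    have h := pow_orderOf_eq_one σ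
    rw [hσ] at h
    have h' := congrArg (fun k : ↥K => (k : Equiv.Perm (Fin 4) × Multiplicative (ZMod 1)).1) h
    simpa using h'
  have hs1 : (σ : Equiv.Perm (Fin 4) × Multiplicative (ZMod 1)).1 ≠ 1 := by
    intro h
    have h1 : σ = 1 := by
      apply Subtype.ext
      apply Prod.ext
      · exact h
      · exact Subsingleton.elim _ _
    rw [h1, orderOf_one] at hσ
    omega
  obtain ⟨x, hx, -⟩ := fix_unique _ hs1 hs3
  refine ⟨x, fun k hk => ?_⟩
  have hidx : (Subgroup.zpowers σ).index = 2 := by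
    have h1 : Nat.card (Subgroup.zpowers σ) = 3 := by rw [Nat.card_zpowers, hσ]
    have h2 := Subgroup.card_mul_index (Subgroup.zpowers σ)
    rw [h1, hK] at h2
    omega
  haveI hnorm : (Subgroup.zpowers σ).Normal := Subgroup.normal_of_index_eq_two hidx
  have hconj : (⟨k, hk⟩ : ↥K) * σ * (⟨k, hk⟩ : ↥K)⁻¹ ∈ Subgroup.zpowers σ :=
    hnorm.conj_mem σ (Subgroup.mem_zpowers σ) _
  obtain ⟨n, hn⟩ := Subgroup.mem_zpowers_iff.mp hconj
  have h1 : k.1 * (σ : Equiv.Perm (Fin 4) × Multiplicative (ZMod 1)).1 * k.1⁻¹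
      = (σ : Equiv.Perm (Fin 4) × Multiplicative (ZMod 1)).1 ^ n := by
    have h := congrArg ((MonoidHom.fst (Equiv.Perm (Fin 4)) (Multiplicative (ZMod 1))).comp
      K.subtype) hn
    rw [map_zpow, map_mul, map_mul, map_inv] at h
    exact h.symm
  have h2 : ((σ : Equiv.Perm (Fin 4) × Multiplicative (ZMod 1)).1 ^ n) x = x :=
    Equiv.Perm.zpow_apply_eq_self_of_apply_eq_self hx n
  have h3 : k.1 * (σ : Equiv.Perm (Fin 4) × Multiplicative (ZMod 1)).1 * k.1⁻¹ ≠ 1 := by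
    intro h
    apply hs1
    have h' : (σ : Equiv.Perm (Fin 4) × Multiplicative (ZMod 1)).1
        = k.1⁻¹ * (k.1 * (σ : Equiv.Perm (Fin 4) × Multiplicative (ZMod 1)).1 * k.1⁻¹) * k.1 := by
      group
    rw [h', h]
    group
  have h4 : (k.1 * (σ : Equiv.Perm (Fin 4) × Multiplicative (ZMod 1)).1 * k.1⁻¹) ^ 3 = 1 := by
    rw [conj_pow, hs3]
    group
  obtain ⟨y, -, huy⟩ := fix_unique _ h3 h4
  have h5 : (k.1 * (σ : Equiv.Perm (Fin 4) × Multiplicative (ZMod 1)).1 * k.1⁻¹) (k.1 x)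
      = k.1 x := by
    simp [Equiv.Perm.mul_apply, hx]
  have h6 : (k.1 * (σ : Equiv.Perm (Fin 4) × Multiplicative (ZMod 1)).1 * k.1⁻¹) x = x := by
    rw [h1]
    exact h2
  exact (huy _ h5).trans (huy _ h6).symm

theorem s4 : StS4 := by
  intro K₁ K₂ h₁ h₂
  obtain ⟨x₁, hx₁⟩ := exists_fix K₁ h₁
  obtain ⟨x₂, hx₂⟩ := exists_fix K₂ h₂
  refine ⟨(Equiv.swap x₁ x₂, 1), ?_⟩
  -- the stabiliser of `x₂`
  let T : Subgroup (Equiv.Perm (Fin 4) × Multiplicative (ZMod 1)) :=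
    (MulAction.stabilizer (Equiv.Perm (Fin 4)) x₂).comap
      (MonoidHom.fst (Equiv.Perm (Fin 4)) (Multiplicative (ZMod 1)))
  have hmemT : ∀ k : Equiv.Perm (Fin 4) × Multiplicative (ZMod 1), k ∈ T ↔ k.1 x₂ = x₂ := by
    intro k
    rfl
  have hT : Nat.card ↥T ≤ 6 := by
    have hinj : Function.Injective
        (fun k : ↥T => (⟨(k : Equiv.Perm (Fin 4) × Multiplicative (ZMod 1)).1,
          (hmemT _).mp k.2⟩ : {s : Equiv.Perm (Fin 4) // s x₂ = x₂})) := by
      intro a b hab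
      apply Subtype.ext
      apply Prod.ext
      · exact congrArg Subtype.val hab
      · exact Subsingleton.elim _ _
    have h := Nat.card_le_card_of_injective _ hinj
    have h6 : Nat.card {s : Equiv.Perm (Fin 4) // s x₂ = x₂} = 6 := by
      rw [Nat.card_eq_fintype_card, Fintype.card_subtype, stab_card x₂]
    rw [h6] at h
    exact h
  have hK₂T : K₂ ≤ T := fun k hk => (hmemT k).mpr (hx₂ k hk)
  have hK₁T : K₁.map (MulAut.conj ((Equiv.swap x₁ x₂, 1) :
      Equiv.Perm (Fin 4) × Multiplicative (ZMod 1))).toMonoidHom ≤ T := by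
    rintro _ ⟨k, hk, rfl⟩
    rw [hmemT]
    change (Equiv.swap x₁ x₂ * k.1 * (Equiv.swap x₁ x₂)⁻¹) x₂ = x₂
    simp [Equiv.Perm.mul_apply, hx₁ k hk]
  have : Finite ↥T := Finite.of_injective (fun k : ↥T =>
    (k : Equiv.Perm (Fin 4) × Multiplicative (ZMod 1))) Subtype.val_injective
  have e2 : K₂ = T := Subgroup.eq_of_le_of_card_ge hK₂T (by rw [h₂]; exact hT)
  have hc : Nat.card ↥(K₁.map (MulAut.conj ((Equiv.swap x₁ x₂, 1) :
      Equiv.Perm (Fin 4) × Multiplicative (ZMod 1))).toMonoidHom) = 6 := by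
    rw [← h₁]
    exact Nat.card_congr ((MulAut.conj ((Equiv.swap x₁ x₂, 1) :
      Equiv.Perm (Fin 4) × Multiplicative (ZMod 1))).subgroupMap K₁).symm.toEquiv
  have e1 := Subgroup.eq_of_le_of_card_ge hK₁T (by rw [hc]; exact hT)
  rw [e2, e1]

example : StS4 := s4

end Cfsg.Agent.H86.Fs
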