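import Cfsg.Agent.H86.GsDefs

set_option autoImplicit false

/-!
S5665 team project (helper86): the assembly from the pieces (as hypotheses).
-/

namespace Cfsg.Agent.H86.Gs

open Cfsg Cfsg.Geo Cfsg.Agent.H95
open scoped MatrixGroups Matrix

universe u

section Aux

variable {m : ℕ} {F : Type*} [Field F] {J : Mat m F} {δ : F}

lemma norm_ne (C : Ctx J δ) {a b : F} (h : ¬ (a = 0 ∧ b = 0)) : a * a + δ * b * b ≠ 0 := by
  by_cases hb : b = 0
  · subst hb
    have ha : a ≠ 0 := fun ha => h ⟨ha, rfl⟩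
    simpa using ha
  · intro h0
    apply C.irr (a / b)
    field_simp
    linear_combination h0

lemma psi_zero (J : Mat m F) : psi J (0 : V m F) = 0 := by
  unfold psi
  rw [sympForm_zero_left]

lemma ne_zero_of_psi {e : V m F} (he : psi J e ≠ 0) : e ≠ 0 := by
  rintro rfl
  exact he (psi_zero J)

/-- `proj e x` is a combination of `e` and `J e`. -/
lemma proj_eq (J : Mat m F) (e x : V m F) :
    proj J e x = ((psi J e)⁻¹ * sympForm m F x (J *ᵥ e)) • e
      + (-((psi J e)⁻¹ * sympForm m F x e)) • (J *ᵥ e) := by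
  unfold proj
  module

lemma proj_eq_zero (C : Ctx J δ) {e x : V m F} (he : psi J e ≠ 0) (h : proj J e x = 0) :
    sympForm m F x e = 0 ∧ sympForm m F x (J *ᵥ e) = 0 := by
  rw [proj_eq] at h
  obtain ⟨h1, h2⟩ := C.indep (ne_zero_of_psi he) h
  have hi : (psi J e)⁻¹ ≠ 0 := inv_ne_zero he
  constructor
  · rcases mul_eq_zero.mp (neg_eq_zero.mp h2) with h | h
    · exact absurd h hi
    · exact h
  · rcases mul_eq_zero.mp h1 with h | h
    · exact absurd h hi
    · exact h

lemma psi_proj_ne (C : Ctx J δ) {e x : V m F} (he : psi J e ≠ 0) (h : proj J e x ≠ 0) :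
    psi J (proj J e x) ≠ 0 := by
  rw [proj_eq, C.psi_comb]
  apply mul_ne_zero _ he
  apply norm_ne C
  rintro ⟨h1, h2⟩
  apply h
  rw [proj_eq, h1, h2, zero_smul, zero_smul, add_zero]

end Aux

/-- The maximality statement of S5665 from the pieces. -/
theorem main_of (hExt : StExt.{u}) (hNorm : StNorm.{u}) (hTor : StTor.{u}) (hZ : StZ.{u})
    (hSpan : StSpan.{u}) (hSemi : StSemi.{u}) (hProp : StProp.{u}) (hProper : StProper.{u})
    {F : Type u} [Field F] [Fintype F] (m : ℕ) (hm : 7 ≤ m) (hodd : Odd (Fintype.card F))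
    (K : Subalgebra F (Matrix (Fin m ⊕ Fin m) (Fin m ⊕ Fin m) F))
    (hK : Cfsg.Geo.IsFieldSubalgebra 2 K)
    (hac : Cfsg.Geo.IsAdjointClosedFor (Cfsg.sympForm m F) K)
    (hnsa : ¬ Cfsg.Geo.IsSelfAdjointFor (Cfsg.sympForm m F) K) :
    Cfsg.Geo.IsMaximalIn (Cfsg.spGL m F) (Cfsg.Geo.subalgebraNormalizer K ⊓ Cfsg.spGL m F) := by
  classical
  obtain ⟨J, δ, C, hKd⟩ := hExt hodd K hK hac hnsa
  have hJK : J ∈ K := (hKd J).mpr ⟨0, 1, by simp⟩
  -- tori lie in every overgroup of the normaliser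
  have hHT : ∀ M : Subgroup (GL (Fin m ⊕ Fin m) F),
      subalgebraNormalizer K ⊓ spGL m F ≤ M → HasTor J δ M := by
    intro M hM e α β he hαβ c hc
    obtain ⟨c', hc'sp, hc'J, hc'x⟩ := hTor J δ C e α β he hαβ
    have hcc : c = c' := by
      apply Units.ext
      apply H17.matrix_ext_mulVec
      intro x
      rw [hc x, hc'x x]
    subst hcc
    apply hM
    refine ⟨hNorm K J hKd c ?_ ?_, hc'sp⟩
    · have e1 : (c : Mat m F) * J * ((c⁻¹ : GL (Fin m ⊕ Fin m) F) : Mat m F) = J := by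
        rw [hc'J, mul_assoc, ← Units.val_mul, mul_inv_cancel, Units.val_one, mul_one]
      rw [e1]
      exact hJK
    · have e1 : ((c⁻¹ : GL (Fin m ⊕ Fin m) F) : Mat m F) * J * (c : Mat m F) = J := by
        rw [mul_assoc, ← hc'J, ← mul_assoc, ← Units.val_mul, inv_mul_cancel, Units.val_one,
          one_mul]
      rw [e1]
      exact hJK
  refine ⟨lt_of_le_of_ne inf_le_right ?_, ?_⟩
  · -- properness
    intro hEq
    obtain ⟨v, hv⟩ : ∃ v : V m F, v ≠ 0 := by
      refine ⟨Pi.single (Sum.inl ⟨0, by omega⟩) 1, ?_⟩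
      intro h
      have := congrFun h (Sum.inl ⟨0, by omega⟩)
      simp at this
    have h1 : sympTransv v 1 ∈ subalgebraNormalizer K ⊓ spGL m F := by
      rw [hEq]
      exact sympTransv_mem_spGL v 1
    exact hProper J δ C (by omega) K hKd v hv h1.1
  · intro M hNM hMsp
    by_cases hcase : ∃ g ∈ M, ∃ e e₁ : V m F, psi J e ≠ 0 ∧ psi J e₁ ≠ 0 ∧
        sympForm m F ((g : Mat m F) *ᵥ e) e₁ = 0 ∧
        sympForm m F ((g : Mat m F) *ᵥ e) (J *ᵥ e₁) = 0 ∧
        proj J e₁ ((g : Mat m F) *ᵥ (J *ᵥ e)) ≠ 0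
    · right
      obtain ⟨g, hg, e, e₁, he, he₁, h1, h2, hne⟩ := hcase
      have hz := hZ J δ C M hMsp (hHT M hNM) g hg e e₁ he he₁ h1 h2
      have hzgood := psi_proj_ne C he₁ hne
      have hall := hProp J δ C (by omega) M hMsp (hHT M hNM) _ hzgood hz
      exact le_antisymm hMsp (spGL_le_of_transv M (fun v c => hall v c))
    · left
      push Not at hcase
      have hstar : ∀ g ∈ M, ∀ e : V m F, psi J e ≠ 0 → ∃ a b : F,
          (g : Mat m F) *ᵥ (J *ᵥ e) = a • ((g : Mat m F) *ᵥ e)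
            + b • (J *ᵥ ((g : Mat m F) *ᵥ e)) := by
        intro g hg e he
        apply hSpan J δ C (by omega) ((g : Mat m F) *ᵥ e) ((g : Mat m F) *ᵥ (J *ᵥ e))
        intro e₁ he₁ h1 h2
        exact (proj_eq_zero C he₁ (hcase g hg e e₁ he he₁ h1 h2)).1
      have hgood : ∀ g ∈ M, ∀ e : V m F, psi J e ≠ 0 → psi J ((g : Mat m F) *ᵥ e) ≠ 0 := by
        intro g hg e he h0
        obtain ⟨a, b, hab⟩ := hstar g hg e he
        have h1 : sympForm m F ((g : Mat m F) *ᵥ e) ((g : Mat m F) *ᵥ (J *ᵥ e)) = psi J e :=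
          hMsp hg e (J *ᵥ e)
        rw [hab, sympForm_add_right, sympForm_smul_right, sympForm_smul_right, sympForm_self,
          mul_zero, zero_add] at h1
        apply he
        rw [← h1]
        unfold psi at h0
        rw [h0, mul_zero]
      have hK1 : ∀ g ∈ M,
          (g : Mat m F) * J * ((g⁻¹ : GL (Fin m ⊕ Fin m) F) : Mat m F) ∈ K := by
        intro g hg
        obtain ⟨a, b, hab⟩ := hSemi J δ C (by omega)
          ((g : Mat m F) * J * ((g⁻¹ : GL (Fin m ⊕ Fin m) F) : Mat m F)) (fun e he => by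
            have he' := hgood g⁻¹ (M.inv_mem hg) e he
            obtain ⟨a, b, h⟩ := hstar g hg _ he'
            refine ⟨a, b, ?_⟩
            have hgg : (g : Mat m F) *ᵥ (((g⁻¹ : GL (Fin m ⊕ Fin m) F) : Mat m F) *ᵥ e) = e := by
              rw [Matrix.mulVec_mulVec, ← Units.val_mul, mul_inv_cancel, Units.val_one,
                Matrix.one_mulVec]
            rw [← Matrix.mulVec_mulVec, ← Matrix.mulVec_mulVec, h, hgg])
        rw [hab]
        exact (hKd _).mpr ⟨a, b, rfl⟩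
      apply le_antisymm _ hNM
      intro g hg
      refine ⟨hNorm K J hKd g (hK1 g hg) ?_, hMsp hg⟩
      have := hK1 g⁻¹ (M.inv_mem hg)
      rwa [inv_inv] at this

end Cfsg.Agent.H86.Gs
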