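import Cfsg.Agent.H86.GsZ

set_option autoImplicit false
set_option maxHeartbeats 1000000

/-!
S5665 team project (helper86): piece GS-PROP (propagation of one good transvection centre).
-/

namespace Cfsg.Agent.H86.Gs

open Cfsg Cfsg.Geo Cfsg.Agent.H95
open scoped MatrixGroups Matrix

universe u

section AuxP

variable {m : ℕ} {F : Type*} [Field F] {J : Mat m F} {δ : F}

lemma proj_self {e : V m F} (he : psi J e ≠ 0) : proj J e e = e := by
  unfold proj
  rw [sympForm_self, zero_smul, sub_zero, smul_smul]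
  have : (psi J e)⁻¹ * sympForm m F e (J *ᵥ e) = 1 := inv_mul_cancel₀ he
  rw [this, one_smul]

/-- `f x (J (proj e x)) = psi (proj e x)`. -/
lemma form_J_proj (C : Ctx J δ) (e x : V m F) :
    sympForm m F x (J *ᵥ proj J e x) = psi J (proj J e x) := by
  obtain ⟨a, ha⟩ : ∃ a : F, a = (psi J e)⁻¹ * sympForm m F x (J *ᵥ e) := ⟨_, rfl⟩
  obtain ⟨b, hb⟩ : ∃ b : F, b = -((psi J e)⁻¹ * sympForm m F x e) := ⟨_, rfl⟩
  have hJ : J *ᵥ (a • e + b • (J *ᵥ e)) = (-(δ * b)) • e + a • (J *ᵥ e) := by
    rw [Matrix.mulVec_add, Matrix.mulVec_smul, Matrix.mulVec_smul, C.sq]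
    module
  rw [proj_eq, ← ha, ← hb, C.psi_comb, hJ, sympForm_add_right, sympForm_smul_right,
    sympForm_smul_right]
  by_cases he : psi J e = 0
  · rw [ha, hb, he]
    simp
  · rw [ha, hb]
    field_simp
    ring

lemma psi_add (C : Ctx J δ) (x y : V m F) :
    psi J (x + y) = psi J x + psi J y + 2 * sympForm m F x (J *ᵥ y) := by
  unfold psi
  rw [Matrix.mulVec_add]
  simp only [sympForm_add_left, sympForm_add_right]
  rw [C.skew' y x, sympForm_skew (J *ᵥ y) x]
  ring

lemma psi_neg (x : V m F) : psi J (-x) = psi J x := by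
  unfold psi
  rw [Matrix.mulVec_neg, show -x = (-1 : F) • x by simp,
    show -(J *ᵥ x) = (-1 : F) • (J *ᵥ x) by simp, sympForm_smul_left, sympForm_smul_right]
  ring

end AuxP

theorem gsProp (hTor : StTor.{u}) (hGood : StGood.{u}) : StProp.{u} := by
  intro m F _ J δ C hm M hMsp hHT z hz hzX v
  have h1δ : (1 : F) + δ ≠ 0 := by
    have := C.irr 1
    rwa [mul_one] at this
  have h2 := C.two
  obtain ⟨α₁, hα₁⟩ : ∃ α₁ : F, α₁ = (1 - δ) / (1 + δ) := ⟨_, rfl⟩
  obtain ⟨β₁, hβ₁⟩ : ∃ β₁ : F, β₁ = 2 / (1 + δ) := ⟨_, rfl⟩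
  have hβ0 : β₁ ≠ 0 := by rw [hβ₁]; exact div_ne_zero h2 h1δ
  have hk : α₁ * α₁ + δ * β₁ * β₁ = 1 := by
    rw [hα₁, hβ₁]
    field_simp
    ring
  -- (a) a good centre gives its whole K-line
  have hA : ∀ z : V m F, psi J z ≠ 0 → z ∈ transvCenters M →
      ∀ a b : F, a • z + b • (J *ᵥ z) ∈ transvCenters M := by
    intro z hz hzX a b
    obtain ⟨c, hcsp, -, hcx⟩ := hTor J δ C z α₁ β₁ hz hk
    have hcM : c ∈ M := hHT z α₁ β₁ hz hk c hcx
    have hcz : (c : Mat m F) *ᵥ z = α₁ • z + β₁ • (J *ᵥ z) := by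
      rw [hcx]
      unfold tor
      rw [proj_self hz]
      module
    have hz₁ : α₁ • z + β₁ • (J *ᵥ z) ∈ transvCenters M := by
      rw [← hcz]
      exact transvCenters_mulVec hcM hcsp hzX
    have hf : sympForm m F z (α₁ • z + β₁ • (J *ᵥ z)) = β₁ * psi J z := by
      rw [sympForm_add_right, sympForm_smul_right, sympForm_smul_right, sympForm_self]
      unfold psi
      ring
    have hf0 : sympForm m F z (α₁ • z + β₁ • (J *ᵥ z)) ≠ 0 := by
      rw [hf]
      exact mul_ne_zero hβ0 hz
    by_cases hs : a - b * α₁ / β₁ = 0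
    · have e : a • z + b • (J *ᵥ z) = (b / β₁) • (α₁ • z + β₁ • (J *ᵥ z)) := by
        have ha : a = b * α₁ / β₁ := by linear_combination hs
        rw [ha]
        match_scalars <;> field_simp
      rw [e]
      exact transvCenters_smul hz₁ _
    · obtain ⟨s, hsd⟩ : ∃ s : F, s = a - b * α₁ / β₁ := ⟨_, rfl⟩
      rw [← hsd] at hs
      have h3 := transvCenters_transv hz₁ hzX
        (b / (β₁ * s) / sympForm m F z (α₁ • z + β₁ • (J *ᵥ z)))
      rw [div_mul_cancel₀ _ hf0] at h3
      have ha : a = s + b * α₁ / β₁ := by rw [hsd]; ring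
      have e : a • z + b • (J *ᵥ z) = s •
          (z + (b / (β₁ * s)) • (α₁ • z + β₁ • (J *ᵥ z))) := by
        rw [ha]
        match_scalars <;> field_simp
      rw [e]
      exact transvCenters_smul h3 _
  -- (b) from a good centre to a good vector not K-orthogonal to it
  have hB : ∀ z e' : V m F, psi J z ≠ 0 → z ∈ transvCenters M → psi J e' ≠ 0 →
      ¬ (sympForm m F z e' = 0 ∧ sympForm m F z (J *ᵥ e') = 0) → e' ∈ transvCenters M := by
    intro z e' hz hzX he' hno
    obtain ⟨c, hcsp, -, hcx⟩ := hTor J δ C e' α₁ β₁ he' hk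
    have hcM : c ∈ M := hHT e' α₁ β₁ he' hk c hcx
    obtain ⟨l, hl⟩ : ∃ l : V m F, l = proj J e' z := ⟨_, rfl⟩
    have hl0 : l ≠ 0 := by
      intro h0
      rw [hl] at h0
      exact hno (proj_eq_zero C he' h0)
    have hpl : psi J l ≠ 0 := by rw [hl]; exact psi_proj_ne C he' (by rw [← hl]; exact hl0)
    have hcz : (c : Mat m F) *ᵥ z = z + ((α₁ - 1) • l + β₁ • (J *ᵥ l)) := by
      rw [hcx, hl]
      rfl
    have hczX : z + ((α₁ - 1) • l + β₁ • (J *ᵥ l)) ∈ transvCenters M := by
      rw [← hcz]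
      exact transvCenters_mulVec hcM hcsp hzX
    have hzl : sympForm m F z l = 0 := by
      rw [hl, sympForm_skew, form_proj_self, neg_zero]
    have hzJl : sympForm m F z (J *ᵥ l) = psi J l := by
      rw [hl]
      exact form_J_proj C e' z
    have hf : sympForm m F z (z + ((α₁ - 1) • l + β₁ • (J *ᵥ l))) = β₁ * psi J l := by
      rw [sympForm_add_right, sympForm_add_right, sympForm_smul_right, sympForm_smul_right,
        sympForm_self, hzl, hzJl]
      ring
    have hf0 : sympForm m F z (z + ((α₁ - 1) • l + β₁ • (J *ᵥ l))) ≠ 0 := by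
      rw [hf]
      exact mul_ne_zero hβ0 hpl
    have h3 := transvCenters_transv hczX hzX
      (-1 / sympForm m F z (z + ((α₁ - 1) • l + β₁ • (J *ᵥ l))))
    rw [div_mul_cancel₀ _ hf0] at h3
    -- l₂ := (1 - α₁) l - β₁ J l
    have hl₂ : (1 - α₁) • l + (-β₁) • (J *ᵥ l) ∈ transvCenters M := by
      have e : (1 - α₁) • l + (-β₁) • (J *ᵥ l)
          = z + (-1 : F) • (z + ((α₁ - 1) • l + β₁ • (J *ᵥ l))) := by
        module
      rw [e]
      exact h3
    have hpl₂ : psi J ((1 - α₁) • l + (-β₁) • (J *ᵥ l)) ≠ 0 := by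
      rw [C.psi_comb]
      apply mul_ne_zero _ hpl
      apply norm_ne C
      rintro ⟨-, h⟩
      exact hβ0 (neg_eq_zero.mp h)
    -- express l through e'
    obtain ⟨a, ha⟩ : ∃ a : F, a = (psi J e')⁻¹ * sympForm m F z (J *ᵥ e') := ⟨_, rfl⟩
    obtain ⟨b, hb⟩ : ∃ b : F, b = -((psi J e')⁻¹ * sympForm m F z e') := ⟨_, rfl⟩
    have hle : l = a • e' + b • (J *ᵥ e') := by
      rw [hl, proj_eq, ha, hb]
    have hJl : J *ᵥ l = (-(δ * b)) • e' + a • (J *ᵥ e') := by
      rw [hle, Matrix.mulVec_add, Matrix.mulVec_smul, Matrix.mulVec_smul, C.sq]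
      module
    obtain ⟨a', ha'⟩ : ∃ a' : F, a' = (1 - α₁) * a + β₁ * δ * b := ⟨_, rfl⟩
    obtain ⟨b', hb'⟩ : ∃ b' : F, b' = (1 - α₁) * b - β₁ * a := ⟨_, rfl⟩
    have hl₂e : (1 - α₁) • l + (-β₁) • (J *ᵥ l) = a' • e' + b' • (J *ᵥ e') := by
      rw [hJl, hle, ha', hb']
      module
    rw [hl₂e] at hl₂ hpl₂
    have hN : a' * a' + δ * b' * b' ≠ 0 := by
      intro h0
      apply hpl₂
      rw [C.psi_comb, h0, zero_mul]
    have hfin := hA _ hpl₂ hl₂ (a' / (a' * a' + δ * b' * b')) (-b' / (a' * a' + δ * b' * b'))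
    have e : (a' / (a' * a' + δ * b' * b')) • (a' • e' + b' • (J *ᵥ e'))
        + (-b' / (a' * a' + δ * b' * b')) • (J *ᵥ (a' • e' + b' • (J *ᵥ e'))) = e' := by
      rw [Matrix.mulVec_add, Matrix.mulVec_smul, Matrix.mulVec_smul, C.sq]
      have e1 : (a' / (a' * a' + δ * b' * b')) • (a' • e' + b' • (J *ᵥ e'))
          + (-b' / (a' * a' + δ * b' * b')) • (a' • (J *ᵥ e') + b' • -(δ • e'))
          = ((a' * a' + δ * b' * b') / (a' * a' + δ * b' * b')) • e' := by
        match_scalars <;> ring
      rw [e1, div_self hN, one_smul]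
    rw [e] at hfin
    exact hfin
  -- (c) all good vectors
  have hC : ∀ e' : V m F, psi J e' ≠ 0 → e' ∈ transvCenters M := by
    intro e' he'
    by_cases h : sympForm m F z e' = 0 ∧ sympForm m F z (J *ᵥ e') = 0
    · obtain ⟨hze, hzJe⟩ := h
      -- κ e' ∈ {e', e' + J e'}
      have key : ∀ w : V m F, psi J (z + w) ≠ 0 → sympForm m F z (J *ᵥ w) = 0 →
          sympForm m F w (J *ᵥ e') = psi J e' → sympForm m F z (J *ᵥ e') = 0 →
          e' ∈ transvCenters M := by
        intro w hgood hzw hwe hze'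
        have h1 : z + w ∈ transvCenters M := by
          apply hB z (z + w) hz hzX hgood
          rintro ⟨-, h⟩
          rw [Matrix.mulVec_add, sympForm_add_right, hzw, add_zero] at h
          exact hz h
        apply hB (z + w) e' hgood h1 he'
        rintro ⟨-, h⟩
        rw [sympForm_add_left, hze', hwe, zero_add] at h
        exact he' h
      by_cases hs : psi J z + psi J e' = 0
      · -- use w = e' + J e'
        have hw : psi J (e' + J *ᵥ e') = (1 + δ) * psi J e' := by
          have := C.psi_comb 1 1 e'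
          rw [one_smul, one_smul] at this
          rw [this]
          ring
        have hzJw : sympForm m F z (J *ᵥ (e' + J *ᵥ e')) = 0 := by
          rw [Matrix.mulVec_add, C.sq, sympForm_add_right, hzJe,
            show -(δ • e') = (-δ) • e' by rw [neg_smul], sympForm_smul_right, hze]
          ring
        apply key (e' + J *ᵥ e')
        · rw [psi_add C, hzJw, hw]
          intro h0
          have : δ * psi J e' = 0 := by linear_combination h0 - hs
          rcases mul_eq_zero.mp this with h | h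
          · exact C.delta_ne h
          · exact he' h
        · exact hzJw
        · rw [sympForm_add_left, sympForm_self, add_zero]
          rfl
        · exact hzJe
      · apply key e'
        · rw [psi_add C, hzJe]
          intro h0
          apply hs
          linear_combination h0
        · exact hzJe
        · rfl
        · exact hzJe
    · exact hB z e' hz hzX he' h
  -- (d) arbitrary vectors
  by_cases hv : psi J v ≠ 0
  · exact hC v hv
  · push Not at hv
    by_cases hv0 : v = 0
    · have := transvCenters_smul hzX 0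
      rwa [zero_smul, ← hv0] at this
    · obtain ⟨x, hx⟩ : ∃ x : V m F, sympForm m F v x ≠ 0 := by
        by_contra hcon
        push Not at hcon
        apply hv0
        apply (H17.sympBilin_nondegenerate (F := F) m).1
        intro y
        rw [H17.sympBilin_apply]
        exact hcon y
      obtain ⟨y₁, y₂, hy₁, hy₂, -, -, -, -, hxy⟩ := hGood J δ C hm 0 x
        (by rw [sympForm_zero_right]) (by rw [Matrix.mulVec_zero, sympForm_zero_right])
      obtain ⟨e₀, he₀, hve₀⟩ : ∃ e₀ : V m F, psi J e₀ ≠ 0 ∧ sympForm m F v e₀ ≠ 0 := by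
        by_cases h1 : sympForm m F v y₁ = 0
        · refine ⟨y₂, hy₂, ?_⟩
          intro h2'
          apply hx
          rw [hxy, sympForm_add_right, h1, h2', add_zero]
        · exact ⟨y₁, hy₁, h1⟩
      have hsum : psi J (v + -e₀) + psi J (v + e₀) = 2 * psi J e₀ := by
        rw [psi_add C, psi_add C, psi_neg, hv, Matrix.mulVec_neg,
          show -(J *ᵥ e₀) = (-1 : F) • (J *ᵥ e₀) by simp, sympForm_smul_right]
        ring
      by_cases hm1 : psi J (v + -e₀) ≠ 0
      · have hw := hC _ hm1
        have hu := hC e₀ he₀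
        have hf : sympForm m F (v + -e₀) e₀ = sympForm m F v e₀ := by
          rw [sympForm_add_left, show -e₀ = (-1 : F) • e₀ by simp, sympForm_smul_left,
            sympForm_self]
          ring
        have h3 := transvCenters_transv hu hw (1 / sympForm m F (v + -e₀) e₀)
        rw [div_mul_cancel₀ _ (by rw [hf]; exact hve₀)] at h3
        have e : v + -e₀ + (1 : F) • e₀ = v := by module
        rwa [e] at h3
      · push Not at hm1
        have hp1 : psi J (v + e₀) ≠ 0 := by
          intro h0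
          rw [hm1, h0, add_zero] at hsum
          rcases mul_eq_zero.mp hsum.symm with h | h
          · exact h2 h
          · exact he₀ h
        have hw := hC _ hp1
        have hu := hC e₀ he₀
        have hf : sympForm m F (v + e₀) e₀ = sympForm m F v e₀ := by
          rw [sympForm_add_left, sympForm_self, add_zero]
        have h3 := transvCenters_transv hu hw (-1 / sympForm m F (v + e₀) e₀)
        rw [div_mul_cancel₀ _ (by rw [hf]; exact hve₀)] at h3
        have e : v + e₀ + (-1 : F) • e₀ = v := by module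
        rwa [e] at h3

end Cfsg.Agent.H86.Gs

universe u

example : Cfsg.Agent.H86.Gs.StTor.{u} → Cfsg.Agent.H86.Gs.StGood.{u} →
    Cfsg.Agent.H86.Gs.StProp.{u} := Cfsg.Agent.H86.Gs.gsProp
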