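import Cfsg.Agent.H86.GsMain

set_option autoImplicit false
set_option maxHeartbeats 1000000

/-!
S5665 team project (helper86): piece GS-Z (the Heisenberg step).
-/

namespace Cfsg.Agent.H86.Gs

open Cfsg Cfsg.Geo Cfsg.Agent.H95
open scoped MatrixGroups Matrix

universe u

section AuxZ

variable {m : ℕ} {F : Type*} [Field F]

lemma sympTransv_add' (z : V m F) (d d' : F) :
    sympTransv z (d + d') = sympTransv z d * sympTransv z d' := by
  apply Units.ext
  apply H17.matrix_ext_mulVec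
  intro x
  rw [Units.val_mul, ← Matrix.mulVec_mulVec, sympTransv_mulVec, sympTransv_mulVec,
    sympTransv_mulVec]
  simp only [sympForm_add_left, sympForm_smul_left, sympForm_self, mul_zero, add_zero]
  module

lemma sympTransv_zero' (z : V m F) : sympTransv z (0 : F) = 1 := by
  apply Units.ext
  apply H17.matrix_ext_mulVec
  intro x
  rw [sympTransv_mulVec, Units.val_one, Matrix.one_mulVec, zero_mul, zero_smul, add_zero]

/-- The parameters `d` with `sympTransv z d ∈ M`. -/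
def transvParams (M : Subgroup (GL (Fin m ⊕ Fin m) F)) (z : V m F) : AddSubgroup F where
  carrier := {d | sympTransv z d ∈ M}
  zero_mem' := by
    show sympTransv z 0 ∈ M
    rw [sympTransv_zero']
    exact M.one_mem
  add_mem' := by
    intro d d' hd hd'
    show sympTransv z (d + d') ∈ M
    rw [sympTransv_add']
    exact M.mul_mem hd hd'
  neg_mem' := by
    intro d hd
    show sympTransv z (-d) ∈ M
    have h : sympTransv z (-d) = (sympTransv z d)⁻¹ := by
      rw [eq_inv_iff_mul_eq_one, ← sympTransv_add', neg_add_cancel, sympTransv_zero']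
    rw [h]
    exact M.inv_mem hd

lemma mem_transvParams (M : Subgroup (GL (Fin m ⊕ Fin m) F)) (z : V m F) (d : F) :
    d ∈ transvParams M z ↔ sympTransv z d ∈ M := Iff.rfl

/-- Conjugating an `spS` map by a symplectic element. -/
lemma spS_conj {h : GL (Fin m ⊕ Fin m) F} (hh : h ∈ spGL m F) (a y : V m F) (c : F)
    {g : GL (Fin m ⊕ Fin m) F} (hg : ∀ x : V m F, (g : Mat m F) *ᵥ x = spS a y c x)
    (x : V m F) :
    ((h * g * h⁻¹ : GL (Fin m ⊕ Fin m) F) : Mat m F) *ᵥ x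
      = spS ((h : Mat m F) *ᵥ a) ((h : Mat m F) *ᵥ y) c x := by
  rw [Units.val_mul, Units.val_mul, ← Matrix.mulVec_mulVec, ← Matrix.mulVec_mulVec, hg]
  unfold spS
  simp only [Matrix.mulVec_add, Matrix.mulVec_smul, spGL_inv_form hh]
  rw [Matrix.mulVec_mulVec, ← Units.val_mul, mul_inv_cancel, Units.val_one, Matrix.one_mulVec]

/-- Two `spS` maps with the same centre commute up to a transvection. -/
lemma spS_comm {M : Subgroup (GL (Fin m ⊕ Fin m) F)} (z w w' : V m F) (γ γ' : F)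
    (hw : sympForm m F z w = 0) (hw' : sympForm m F z w' = 0)
    {g₁ g₂ : GL (Fin m ⊕ Fin m) F} (h₁ : g₁ ∈ M) (h₂ : g₂ ∈ M)
    (e₁ : ∀ x : V m F, (g₁ : Mat m F) *ᵥ x = spS z w γ x)
    (e₂ : ∀ x : V m F, (g₂ : Mat m F) *ᵥ x = spS z w' γ' x) :
    sympTransv z (-(2 * sympForm m F w w')) ∈ M := by
  have key : g₁ * g₂ = g₂ * g₁ * sympTransv z (-(2 * sympForm m F w w')) := by
    apply Units.ext
    apply H17.matrix_ext_mulVec
    intro x
    have L : ((g₁ * g₂ : GL (Fin m ⊕ Fin m) F) : Mat m F) *ᵥ x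
        = spS z (w + w') (γ + γ' + sympForm m F w' w) x := by
      rw [Units.val_mul, ← Matrix.mulVec_mulVec, e₂, e₁]
      exact spS_comp z _ _ γ γ' x hw hw'
    have R : ((g₂ * g₁ * sympTransv z (-(2 * sympForm m F w w')) :
        GL (Fin m ⊕ Fin m) F) : Mat m F) *ᵥ x
        = spS z (w' + w) (γ' + (γ + -(2 * sympForm m F w w')) + sympForm m F w w') x := by
      rw [Units.val_mul, Units.val_mul, ← Matrix.mulVec_mulVec, ← Matrix.mulVec_mulVec,
        sympTransv_mulVec, e₁, e₂, spS_transv z _ γ _ x hw]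
      exact spS_comp z _ _ γ' _ x hw' hw
    rw [L, R, add_comm w' w]
    congr 1
    rw [sympForm_skew w' w]
    ring
  have e3 : sympTransv z (-(2 * sympForm m F w w')) = (g₂ * g₁)⁻¹ * (g₁ * g₂) := by
    rw [key]
    group
  rw [e3]
  exact M.mul_mem (M.inv_mem (M.mul_mem h₂ h₁)) (M.mul_mem h₁ h₂)

lemma proj_smul (J : Mat m F) (e x : V m F) (c : F) :
    proj J e (c • x) = c • proj J e x := by
  unfold proj
  rw [sympForm_smul_left, sympForm_smul_left]
  module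

/-- `f (proj e x) x = 0`. -/
lemma form_proj_self (J : Mat m F) (e x : V m F) :
    sympForm m F (proj J e x) x = 0 := by
  rw [proj_eq, sympForm_add_left, sympForm_smul_left, sympForm_smul_left,
    sympForm_skew e x, sympForm_skew (J *ᵥ e) x]
  ring

end AuxZ

theorem gsZ (hTor : StTor.{u}) (hHeis : StHeis.{u}) (hAdd : StAdd.{u}) : StZ.{u} := by
  intro m F _ _ J δ C M hMsp hHT g hg e e₁ he he₁ h1 h2
  have hgsp : g ∈ spGL m F := hMsp hg
  obtain ⟨ψ, hψ⟩ : ∃ ψ : F, ψ = psi J e := ⟨_, rfl⟩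
  have hψ0 : ψ ≠ 0 := by rw [hψ]; exact he
  obtain ⟨p, hp⟩ : ∃ p : V m F, p = (g : Mat m F) *ᵥ e := ⟨_, rfl⟩
  obtain ⟨a₀, ha₀⟩ : ∃ a₀ : V m F, a₀ = (g : Mat m F) *ᵥ (J *ᵥ e) := ⟨_, rfl⟩
  obtain ⟨a, ha⟩ : ∃ a : V m F, a = ψ⁻¹ • a₀ := ⟨_, rfl⟩
  obtain ⟨y, hy⟩ : ∃ y : V m F, y = proj J e₁ a₀ := ⟨_, rfl⟩
  obtain ⟨z, hz⟩ : ∃ z : V m F, z = (2 * ψ⁻¹) • y := ⟨_, rfl⟩
  rw [← hp] at h1 h2
  rw [← ha₀, ← hy]
  have hpa₀ : sympForm m F p a₀ = ψ := by
    rw [hp, ha₀, hψ]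
    exact hgsp e (J *ᵥ e)
  have hpa : sympForm m F p a = 1 := by
    rw [ha, sympForm_smul_right, hpa₀, inv_mul_cancel₀ hψ0]
  have hap : sympForm m F a p = -1 := by rw [sympForm_skew, hpa]
  -- the reflection `n`
  obtain ⟨n, hnsp, -, hnx⟩ := hTor J δ C e₁ (-1) 0 he₁ (by ring)
  have hnM : n ∈ M := hHT e₁ (-1) 0 he₁ (by ring) n hnx
  have hnx' : ∀ x : V m F, (n : Mat m F) *ᵥ x = x - (2 : F) • proj J e₁ x := by
    intro x
    rw [hnx]
    unfold tor
    module
  have hprojp : proj J e₁ p = 0 := by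
    unfold proj
    rw [h1, h2, zero_smul, zero_smul, sub_zero, smul_zero]
  have hnp : (n : Mat m F) *ᵥ p = p := by
    rw [hnx', hprojp, smul_zero, sub_zero]
  have hna : (n : Mat m F) *ᵥ a = a - z := by
    rw [hnx', ha, proj_smul, ← hy, hz]
    module
  have hye : y = ((psi J e₁)⁻¹ * sympForm m F a₀ (J *ᵥ e₁)) • e₁
      + (-((psi J e₁)⁻¹ * sympForm m F a₀ e₁)) • (J *ᵥ e₁) := by
    rw [hy, proj_eq]
  have hyp : sympForm m F y p = 0 := by
    rw [hye, sympForm_add_left, sympForm_smul_left, sympForm_smul_left, sympForm_skew e₁ p,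
      sympForm_skew (J *ᵥ e₁) p, h1, h2]
    ring
  have hzp : sympForm m F z p = 0 := by
    rw [hz, sympForm_smul_left, hyp, mul_zero]
  have hya₀ : sympForm m F y a₀ = 0 := by
    rw [hy]
    exact form_proj_self J e₁ a₀
  have hza : sympForm m F z a = 0 := by
    rw [hz, ha, sympForm_smul_left, sympForm_smul_right, hya₀]
    ring
  -- the torus elements
  have hden : ∀ t : F, t * t + δ ≠ 0 := C.irr
  obtain ⟨α, hα⟩ : ∃ α : F → F, ∀ t, α t = (t * t - δ) / (t * t + δ) := ⟨_, fun _ => rfl⟩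
  obtain ⟨β, hβ⟩ : ∃ β : F → F, ∀ t, β t = 2 * t / (t * t + δ) := ⟨_, fun _ => rfl⟩
  have hαβ : ∀ t : F, α t * α t + δ * β t * β t = 1 := by
    intro t
    rw [hα, hβ]
    have hd2 : t ^ 2 + δ ≠ 0 := by rw [pow_two]; exact hden t
    rw [show t * t = t ^ 2 by ring]
    field_simp
    ring
  have tor_data : ∀ t : F, ∃ c : GL (Fin m ⊕ Fin m) F, c ∈ M ∧ c ∈ spGL m F ∧
      ∀ x : V m F, (c : Mat m F) *ᵥ x = x + sympForm m F x a • ((α t - 1) • p + (β t * ψ) • a)
        - sympForm m F x p • ((α t - 1) • a - (β t * δ * ψ⁻¹) • p) := by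
    intro t
    obtain ⟨c', hc'sp, -, hc'x⟩ := hTor J δ C e (α t) (β t) he (hαβ t)
    refine ⟨g * c' * g⁻¹,
      M.mul_mem (M.mul_mem hg (hHT e _ _ he (hαβ t) c' hc'x)) (M.inv_mem hg),
      (spGL m F).mul_mem ((spGL m F).mul_mem hgsp hc'sp) ((spGL m F).inv_mem hgsp), ?_⟩
    intro x
    rw [Units.val_mul, Units.val_mul, ← Matrix.mulVec_mulVec, ← Matrix.mulVec_mulVec, hc'x]
    unfold tor proj
    rw [spGL_inv_form hgsp, spGL_inv_form hgsp, ← hp, ← ha₀, ← hψ]
    simp only [Matrix.mulVec_add, Matrix.mulVec_smul, Matrix.mulVec_sub, C.sq,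
      Matrix.mulVec_neg]
    rw [Matrix.mulVec_mulVec, ← Units.val_mul, mul_inv_cancel, Units.val_one,
      Matrix.one_mulVec, ← hp, ← ha₀, ha, sympForm_smul_right]
    match_scalars <;> field_simp <;> ring
  have tor_p : ∀ (t : F) (c : GL (Fin m ⊕ Fin m) F),
      (∀ x : V m F, (c : Mat m F) *ᵥ x = x + sympForm m F x a • ((α t - 1) • p + (β t * ψ) • a)
        - sympForm m F x p • ((α t - 1) • a - (β t * δ * ψ⁻¹) • p)) →
      (c : Mat m F) *ᵥ p = α t • p + (β t * ψ) • a := by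
    intro t c hc
    rw [hc, hpa, sympForm_self]
    module
  have tor_a : ∀ (t : F) (c : GL (Fin m ⊕ Fin m) F),
      (∀ x : V m F, (c : Mat m F) *ᵥ x = x + sympForm m F x a • ((α t - 1) • p + (β t * ψ) • a)
        - sympForm m F x p • ((α t - 1) • a - (β t * δ * ψ⁻¹) • p)) →
      (c : Mat m F) *ᵥ a = (-(β t * δ * ψ⁻¹)) • p + α t • a := by
    intro t c hc
    rw [hc, hap, sympForm_self]
    module
  obtain ⟨c₁, hc₁M, hc₁sp, hc₁x⟩ := tor_data 1
  have hc₁z : (c₁ : Mat m F) *ᵥ z = z := by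
    rw [hc₁x, hza, hzp, zero_smul, zero_smul, add_zero, sub_zero]
  -- the constant
  obtain ⟨Cc, hCc⟩ : ∃ Cc : F, Cc = -(16 * δ * ψ / (1 + δ)) := ⟨_, rfl⟩
  have h1δ : (1 : F) + δ ≠ 0 := by
    have := hden 1
    rwa [mul_one] at this
  have hCc0 : Cc ≠ 0 := by
    rw [hCc]
    apply neg_ne_zero.mpr
    apply div_ne_zero _ h1δ
    have h2 := C.two
    have h16 : (16 : F) ≠ 0 := by
      have : (16 : F) = 2 * 2 * 2 * 2 := by norm_num
      rw [this]
      exact mul_ne_zero (mul_ne_zero (mul_ne_zero h2 h2) h2) h2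
    exact mul_ne_zero (mul_ne_zero h16 C.delta_ne) hψ0
  have main : ∀ t : F, Cc / (t * t + δ) ∈ transvParams M z := by
    intro t
    obtain ⟨c, hcM, hcsp, hcx⟩ := tor_data t
    have hcp := tor_p t c hcx
    have hca := tor_a t c hcx
    have hform : ∀ x : V m F, (c : Mat m F) *ᵥ x = x + sympForm m F x a • ((c : Mat m F) *ᵥ p - p)
        - sympForm m F x p • ((c : Mat m F) *ᵥ a - a) := by
      intro x
      rw [hcp, hca, hcx]
      module
    have hu := hHeis p a z c n hcsp hnsp hpa hzp hza hform ⟨_, _, hcp⟩ ⟨_, _, hca⟩ hnp hna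
    obtain ⟨w, hw⟩ : ∃ w : V m F, w = p - (c : Mat m F) *ᵥ p := ⟨_, rfl⟩
    rw [← hw] at hu
    have huM : n * c * n⁻¹ * c⁻¹ ∈ M :=
      M.mul_mem (M.mul_mem (M.mul_mem hnM hcM) (M.inv_mem hnM)) (M.inv_mem hcM)
    have hv := spS_conj hc₁sp z w _ hu
    rw [hc₁z] at hv
    have hvM : c₁ * (n * c * n⁻¹ * c⁻¹) * c₁⁻¹ ∈ M :=
      M.mul_mem (M.mul_mem hc₁M huM) (M.inv_mem hc₁M)
    have hwe : w = (1 - α t) • p + (-(β t * ψ)) • a := by
      rw [hw, hcp]
      module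
    have hzw : sympForm m F z w = 0 := by
      rw [hwe, sympForm_add_right, sympForm_smul_right, sympForm_smul_right, hzp, hza]
      ring
    have hzw' : sympForm m F z ((c₁ : Mat m F) *ᵥ w) = 0 := by
      have := hc₁sp z w
      change sympForm m F ((c₁ : Mat m F) *ᵥ z) ((c₁ : Mat m F) *ᵥ w) = sympForm m F z w at this
      rw [hc₁z] at this
      rw [this, hzw]
    have hmem := spS_comm z w ((c₁ : Mat m F) *ᵥ w) _ _ hzw hzw' huM hvM hu hv
    have hc₁w : (c₁ : Mat m F) *ᵥ w = ((1 - α t) * α 1 + β t * ψ * (β 1 * δ * ψ⁻¹)) • p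
        + ((1 - α t) * (β 1 * ψ) - β t * ψ * α 1) • a := by
      rw [hwe, Matrix.mulVec_add, Matrix.mulVec_smul, Matrix.mulVec_smul, tor_p 1 c₁ hc₁x,
        tor_a 1 c₁ hc₁x]
      module
    have hval : -(2 * sympForm m F w ((c₁ : Mat m F) *ᵥ w)) = Cc / (t * t + δ) := by
      rw [hc₁w]
      nth_rewrite 1 [hwe]
      simp only [sympForm_add_left, sympForm_add_right, sympForm_smul_left, sympForm_smul_right,
        sympForm_self, hpa, hap]
      rw [hCc, hα, hα, hβ, hβ]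
      have hd2 : t ^ 2 + δ ≠ 0 := by rw [pow_two]; exact hden t
      rw [show t * t = t ^ 2 by ring]
      field_simp
      ring
    rw [mem_transvParams, ← hval]
    exact hmem
  have htop := hAdd C.two δ Cc C.irr hCc0 (transvParams M z) main
  have hzC : z ∈ transvCenters M := by
    intro d
    have : d ∈ transvParams M z := by rw [htop]; exact AddSubgroup.mem_top d
    exact this
  have hyz : y = (ψ / 2) • z := by
    rw [hz, smul_smul]
    have h2 := C.two
    have : ψ / 2 * (2 * ψ⁻¹) = 1 := by field_simp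
    rw [this, one_smul]
  rw [hyz]
  exact transvCenters_smul hzC _

end Cfsg.Agent.H86.Gs

universe u

example : Cfsg.Agent.H86.Gs.StTor.{u} → Cfsg.Agent.H86.Gs.StHeis.{u} → Cfsg.Agent.H86.Gs.StAdd.{u} →
    Cfsg.Agent.H86.Gs.StZ.{u} := Cfsg.Agent.H86.Gs.gsZ
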