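import Mathlib
import Cfsg.Agent.H86.NdDefs
import Cfsg.Agent.H95.OhFin

/-!
# ND-FWD (helper86, backup copy): shape of an invariant nondegenerate subspace of odd dimension
-/

set_option autoImplicit false

namespace Cfsg.Agent.H86.Nd

open Cfsg.Agent.H45 Cfsg.Agent.H42.Spd Cfsg.Agent.H42.Ti Cfsg.Agent.H14.Ot Cfsg.Agent.H95.Oh
  Cfsg.Agent.H86.Ev2 Module

universe u v

theorem ndFwdB : StNdFwd.{u, v} := by
  intro F _ _ V _ _ _ r B T hO hev W hW hnd hodd
  obtain ⟨j, hj, hle, -⟩ := Cfsg.Agent.H95.Oh.fin_fwd F V r B T hO W hW hnd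
  obtain ⟨s, hs⟩ := Cfsg.Agent.H95.Oh.fin_omodc F V r B T hO
  have hce : Even (cc F r) := by
    unfold cc
    split_ifs with h
    · exact h
    · exact even_two_mul _
  have hkle : kk T W ≤ kk T ⊤ := Submodule.finrank_mono (inf_le_inf_right _ le_top)
  obtain ⟨c2, hc2⟩ := hce
  obtain ⟨t, ht⟩ := hodd
  obtain ⟨e, he⟩ := hev
  have h1 : cc F r * j = 2 * (c2 * j) := by rw [hc2]; ring
  have h2 : cc F r * s = 2 * (c2 * s) := by rw [hc2]; ring
  refine ⟨j, by omega, hle, by omega⟩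

example : StNdFwd.{u, v} := ndFwdB

end Cfsg.Agent.H86.Nd
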