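import Mathlib
import Cfsg.Agent.H86.NdDefs
import Cfsg.Agent.H86.Ev2R2P73
import Cfsg.Agent.H48.EpDefs
import Cfsg.Agent.H77.TmDefs

/-!
# S5989 team project (helper86): the main assembly (plus space)
-/

set_option autoImplicit false
open scoped MatrixGroups

namespace Cfsg.Agent.H86.Nd

open Cfsg.Agent.H45 Cfsg.Agent.H42.Spd Cfsg.Agent.H42.Ti Cfsg.Agent.H14.Ot Cfsg.Agent.H95.Oh
  Cfsg.Agent.H86.Ev2 Module

universe u

/-- The fixed space of the identity is everything. -/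
theorem fixdim_one (F : Type u) [Field F] (ι : Type) [Fintype ι] [DecidableEq ι] :
    Module.finrank F ↥(LinearMap.ker (Matrix.toLin'
      ((1 : Matrix.GeneralLinearGroup ι F) : Matrix ι ι F) - 1)) = Fintype.card ι := by
  have h1 : Matrix.toLin' ((1 : Matrix.GeneralLinearGroup ι F) : Matrix ι ι F) - 1
      = (0 : Module.End F (ι → F)) := by
    rw [Units.val_one, Matrix.toLin'_one]
    exact sub_self _
  rw [h1, LinearMap.ker_zero, finrank_top, Module.finrank_fintype_fun_eq_card]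

set_option maxHeartbeats 1000000 in
/-- S5989 from its pieces. -/
theorem nd_main_plus (hBr : StBrP.{u}) (hOrd : Cfsg.Agent.H77.Tm.StOrd)
    (hSign : Cfsg.Agent.H48.Ep.StSign.{u}) (hEx : StExP.{u}) (hStruct : StNdStruct.{u})
    (hCnt : StNdCnt.{u}) (hAB : StArBackP) (hAF : StArFwdP) (hTwo : StR2P89.{u})
    (hP : StRpP.{u})
    {F : Type u} [Field F] [Fintype F] {p : ℕ} [Fact p.Prime] [CharP F p] {q : ℕ} (hq : Fintype.card F = q)
    (hodd : Odd q) (d m : ℕ) (hd : 4 ≤ d) (hm : Odd m) (hmd : m < d)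
    (W₀ : Submodule F (Fin d ⊕ Fin d → F)) (hW₀ : Module.finrank F ↥W₀ = m ∧ Cfsg.Geo.IsNondegenerateOn (QuadraticMap.polar (Cfsg.quadFormPlus d F)) W₀)
    (r : ℕ) [Fact r.Prime]
    (hrΩ : r ∣ Nat.card {W : Submodule F (Fin d ⊕ Fin d → F) // Module.finrank F ↥W = m ∧ Cfsg.Geo.IsNondegenerateOn (QuadraticMap.polar (Cfsg.quadFormPlus d F)) W ∧ Cfsg.Geo.AreIsometricFor (Cfsg.quadFormPlus d F) W W₀})
    (i c : ℕ) (hi : i = orderOf (q : ZMod r)) (hc : c = if Even i then i else 2 * i) :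
    (∀ x : GL (Fin d ⊕ Fin d) F, x ∈ Cfsg.Geo.omegaGL (Cfsg.quadFormPlus d F) →
      (∃ z : F, ((x ^ r : GL (Fin d ⊕ Fin d) F) : Matrix (Fin d ⊕ Fin d) (Fin d ⊕ Fin d) F) = z • (1 : Matrix (Fin d ⊕ Fin d) (Fin d ⊕ Fin d) F)) →
      (∀ z : F, (x : Matrix (Fin d ⊕ Fin d) (Fin d ⊕ Fin d) F) ≠ z • (1 : Matrix (Fin d ⊕ Fin d) (Fin d ⊕ Fin d) F)) →
      ∃ W : Submodule F (Fin d ⊕ Fin d → F), (Module.finrank F ↥W = m ∧ Cfsg.Geo.IsNondegenerateOn (QuadraticMap.polar (Cfsg.quadFormPlus d F)) W ∧ Cfsg.Geo.AreIsometricFor (Cfsg.quadFormPlus d F) W W₀) ∧ W.map (Matrix.toLin' (x : Matrix (Fin d ⊕ Fin d) (Fin d ⊕ Fin d) F)) ≤ W) ↔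
    ((r = 2 ∧ Odd d ∧ q % 8 ≠ 1) ∨
     (r ≠ p ∧ 2 < r ∧ Odd i ∧ c ≤ m ∧ 0 < m % c ∧ m % c < (2 * d) % c) ∨
     (r ≠ p ∧ 2 < r ∧ Even i ∧ (((2 * d) % c = 0 ∧ Odd ((2 * d) / i)) ∨ (i ≤ m ∧ 0 < m % c ∧ m % c < (2 * d) % c)))) := by
  have hp : p.Prime := Fact.out
  have hrP : r.Prime := Fact.out
  subst hq
  have h2F : (2 : F) ≠ 0 := Cfsg.Agent.H49.two_ne_zero_of_odd_card hodd
  have hp2 : p ≠ 2 := by
    intro h
    apply h2F
    have h1 : ((p : ℕ) : F) = 0 := CharP.cast_eq_zero F p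
    rw [h] at h1
    exact_mod_cast h1
  have hm1 : 1 ≤ m := by
    obtain ⟨t, ht⟩ := hm
    omega
  by_cases hr2 : r = 2
  · subst hr2
    have key := hTwo F d m hodd hd hm hmd W₀ hW₀
    constructor
    · intro hL
      exact Or.inl ⟨rfl, key.mp hL⟩
    · rintro (⟨-, h⟩ | ⟨-, h, -⟩ | ⟨-, h, -⟩)
      · exact key.mpr h
      · omega
      · omega
  · by_cases hrp : r = p
    · obtain ⟨x, hxΩ, hxp, hxns, hxW⟩ := hP F p d m hp2 hd hm hmd
      constructor
      · intro hL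
        obtain ⟨W, ⟨hWm, hWnd, -⟩, hWinv⟩ := hL x hxΩ ⟨1, by rw [hrp, hxp]; simp⟩ hxns
        exact absurd hWinv (hxW W hWm hWnd)
      · rintro (⟨h, -⟩ | ⟨h, -⟩ | ⟨h, -⟩)
        · exact absurd h hr2
        · exact absurd hrp h
        · exact absurd hrp h
    · have hr3 : 2 < r := by have := hrP.two_le; omega
      have hrq : ¬ r ∣ Fintype.card F := by
        obtain ⟨f, -, hf⟩ := FiniteField.card F p
        intro h
        rw [hf] at h
        exact hrp ((Nat.prime_dvd_prime_iff_eq hrP hp).mp (hrP.dvd_of_dvd_pow h))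
      obtain ⟨hipos, -, -⟩ := hOrd (Fintype.card F) r hrP hrq
      have hii : ii F r = i := by rw [hi]; rfl
      have hcc : cc F r = c := by
        rw [hc, hi]; rfl
      rw [← hi] at hipos
      have hcpos : 0 < c := by
        rw [hc]; split_ifs <;> omega
      have hrodd : Odd r := hrP.odd_of_ne_two hr2
      obtain ⟨B, hB, hPlus⟩ := brP_bridge hBr F d h2F
      have hcard : Fintype.card (Fin d ⊕ Fin d) = 2 * d := by simp; ring
      have hev : Even (Fintype.card (Fin d ⊕ Fin d)) := by rw [hcard]; exact even_two_mul d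
      have hRhs : ((r = 2 ∧ Odd d ∧ Fintype.card F % 8 ≠ 1) ∨
          (r ≠ p ∧ 2 < r ∧ Odd i ∧ c ≤ m ∧ 0 < m % c ∧ m % c < (2 * d) % c) ∨
          (r ≠ p ∧ 2 < r ∧ Even i ∧ (((2 * d) % c = 0 ∧ Odd ((2 * d) / i)) ∨
            (i ≤ m ∧ 0 < m % c ∧ m % c < (2 * d) % c)))) ↔ RhsOddP d m i c := by
        unfold RhsOddP
        constructor
        · rintro (⟨h, -⟩ | ⟨-, -, h⟩ | ⟨-, -, h⟩)
          · exact absurd h hr2
          · exact Or.inl h
          · exact Or.inr h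
        · rintro (h | h)
          · exact Or.inr (Or.inl ⟨hrp, hr3, h⟩)
          · exact Or.inr (Or.inr ⟨hrp, hr3, h⟩)
      rw [hRhs]
      constructor
      · intro hL
        by_contra hneg
        rcases hAF d m i c hipos hc hm hmd hd hneg with
          ⟨A, hA1, hAle, hAadm, hAno⟩ | ⟨hmc, h2 | ⟨A, hA1, hAle, hAadm, hAlt, hmlt⟩⟩
        · obtain ⟨x, hxΩ, hxr, hxfix, hxns⟩ := hEx F p r hrP hr2 hrp d A hd hA1
            (by rw [hcc]; exact hAle) (by rw [hcc, hii]; exact hAadm)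
          obtain ⟨W, ⟨hWm, hWnd, -⟩, hWinv⟩ := hL x hxΩ ⟨1, by rw [hxr]; simp⟩ hxns
          obtain ⟨A', hA'fix, -, -, hup⟩ := hStruct F p (Fin d ⊕ Fin d) (Cfsg.Agent.H49.QP d F) B
            h2F hB hev r hrP hr2 hrp x (omega_isom _ hxΩ) hxr
          rw [hcc, hcard] at hA'fix
          rw [hcc] at hxfix
          have hAA : A' = A := by
            have h1 : c * A' = c * A := by omega
            exact Nat.eq_of_mul_eq_mul_left hcpos h1
          subst hAA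
          obtain ⟨j, e, hjA, he, hWje⟩ := hup W (by rw [hWm]; exact hm) hWnd hWinv
          rw [hcc, hWm] at hWje
          exact hAno j e hjA (by omega) hWje.symm
        · exact hCnt F p (Fin d ⊕ Fin d) (Cfsg.Agent.H49.QP d F) B h2F hB r m hrP hr2 hrp hm1
            (by rw [hcc]; exact hmc) W₀ hW₀ 1 (Subgroup.one_mem _) (one_pow r)
            (by rw [fixdim_one, hcard]; omega) (by rw [fixdim_one, hcard, hcc]; exact h2) hrΩ
        · obtain ⟨x, hxΩ, hxr, hxfix, hxns⟩ := hEx F p r hrP hr2 hrp d A hd hA1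
            (by rw [hcc]; exact hAle) (by rw [hcc, hii]; exact hAadm)
          rw [hcc] at hxfix
          exact hCnt F p (Fin d ⊕ Fin d) (Cfsg.Agent.H49.QP d F) B h2F hB r m hrP hr2 hrp hm1
            (by rw [hcc]; exact hmc) W₀ hW₀ x (omega_isom _ hxΩ) hxr
            (by omega) (by rw [hcc]; omega) hrΩ
      · intro hR x hxΩ ⟨z, hz⟩ _
        obtain ⟨y, hyO, hyr, hyW, -⟩ := hSign F d x r z (by omega) hrodd (omega_isom _ hxΩ) hz
        obtain ⟨A, hAfix, hA0, hfixall, -⟩ := hStruct F p (Fin d ⊕ Fin d)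
          (Cfsg.Agent.H49.QP d F) B h2F hB hev r hrP hr2 hrp y hyO hyr
        rw [hcc, hcard] at hAfix
        rw [hii] at hA0
        obtain ⟨j, e, hj, he1, he, hje⟩ := hAB d m i c A hipos hc hm hmd hR (by omega)
          (by intro h; exact (hA0 (by omega)).mp hPlus)
        obtain ⟨W, hW, hWinv⟩ := hfixall m W₀ j e hW₀ hj he1 (by omega) (by rw [hcc]; exact hje)
        exact ⟨W, hW, hyW W hWinv⟩

end Cfsg.Agent.H86.Nd
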