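import Mathlib
import Cfsg.Agent.H86.NdMainP
import Cfsg.Agent.H86.NdFwdB
import Cfsg.Agent.H86.Ev2Fin
import Cfsg.Agent.H24.TmOrd
import Cfsg.Agent.H27.EpSign
import Cfsg.Agent.H85.NdExClosed
import Cfsg.Agent.H85.NdArBackP
import Cfsg.Agent.H85.NdArFwdP
import Cfsg.Agent.H3.NdBack
import Cfsg.Agent.H3.NdOrbTrans
import Cfsg.Agent.H61.NdStruct
import Cfsg.Agent.H28.NdCnt
import Cfsg.Agent.H98.NdUniOmega
import Cfsg.Agent.H98.NdUex1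
import Cfsg.Agent.H98.NdUex2
import Cfsg.Agent.H75.NdRpP
import Cfsg.Agent.H12.NdUex3

/-!
# S5989 team project (helper86): all pieces wired (plus space)
-/

set_option autoImplicit false
open scoped MatrixGroups

namespace Cfsg.Agent.H86.Nd

open Cfsg.Agent.H86.Ev2

universe u v

theorem fin_ndFwd : StNdFwd.{u, v} := ndFwdB
theorem fin_ndBack : StNdBack.{u, v} := Cfsg.Agent.H3.Nd.ndBack
theorem fin_ndStruct : StNdStruct.{u} := Cfsg.Agent.H61.Nd.ndStruct fin_ndFwd fin_ndBack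
theorem fin_ndOrbTrans : StNdOrbTrans.{u} := Cfsg.Agent.H3.Nd.ndOrbTrans
theorem fin_ndCnt : StNdCnt.{u} := Cfsg.Agent.H28.Nd.ndCnt_of_orbTrans fin_ndOrbTrans
theorem fin_exP : StExP.{u} := Cfsg.Agent.H85.Nd.exPClosed
theorem fin_uniOmega : StUniOmega.{u} := Cfsg.Agent.H98.Nd.uniOmega

/-- The `r = p` line of S5989. -/
theorem fin_rpP : StRpP.{u} :=
  Cfsg.Agent.H75.Nd.rpP fin_uniOmega Cfsg.Agent.H98.Nd.uex1 Cfsg.Agent.H98.Nd.uex2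
    Cfsg.Agent.H12.Nd.uex3

/-- S5989 (closed). -/
theorem fin_S5989
    {F : Type u} [Field F] [Fintype F] {p : ℕ} [Fact p.Prime] [CharP F p] {q : ℕ} (hq : Fintype.card F = q)
    (hodd : Odd q) (d m : ℕ) (hd : 4 ≤ d) (hm : Odd m) (hmd : m < d)
    (W₀ : Submodule F (Fin d ⊕ Fin d → F)) (hW₀ : Module.finrank F ↥W₀ = m ∧ Cfsg.Geo.IsNondegenerateOn (QuadraticMap.polar (Cfsg.quadFormPlus d F)) W₀)
    (r : ℕ) [Fact r.Prime]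
    (hrΩ : r ∣ Nat.card {W : Submodule F (Fin d ⊕ Fin d → F) // Module.finrank F ↥W = m ∧ Cfsg.Geo.IsNondegenerateOn (QuadraticMap.polar (Cfsg.quadFormPlus d F)) W ∧ Cfsg.Geo.AreIsometricFor (Cfsg.quadFormPlus d F) W W₀})
    (i c : ℕ) (hi : i = orderOf (q : ZMod r)) (hc : c = if Even i then i else 2 * i) :
    (∀ x : GL (Fin d ⊕ Fin d) F, x ∈ Cfsg.Geo.omegaGL (Cfsg.quadFormPlus d F) →
      (∃ z : F, ((x ^ r : GL (Fin d ⊕ Fin d) F) : Matrix (Fin d ⊕ Fin d) (Fin d ⊕ Fin d) F) = z • (1 : Matrix (Fin d ⊕ Fin d) (Fin d ⊕ Fin d) F)) →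
      (∀ z : F, (x : Matrix (Fin d ⊕ Fin d) (Fin d ⊕ Fin d) F) ≠ z • (1 : Matrix (Fin d ⊕ Fin d) (Fin d ⊕ Fin d) F)) →
      ∃ W : Submodule F (Fin d ⊕ Fin d → F), (Module.finrank F ↥W = m ∧ Cfsg.Geo.IsNondegenerateOn (QuadraticMap.polar (Cfsg.quadFormPlus d F)) W ∧ Cfsg.Geo.AreIsometricFor (Cfsg.quadFormPlus d F) W W₀) ∧ W.map (Matrix.toLin' (x : Matrix (Fin d ⊕ Fin d) (Fin d ⊕ Fin d) F)) ≤ W) ↔
    ((r = 2 ∧ Odd d ∧ q % 8 ≠ 1) ∨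
     (r ≠ p ∧ 2 < r ∧ Odd i ∧ c ≤ m ∧ 0 < m % c ∧ m % c < (2 * d) % c) ∨
     (r ≠ p ∧ 2 < r ∧ Even i ∧ (((2 * d) % c = 0 ∧ Odd ((2 * d) / i)) ∨ (i ≤ m ∧ 0 < m % c ∧ m % c < (2 * d) % c)))) :=
  nd_main_plus fin_brP Cfsg.Agent.H24.Tm.ord Cfsg.Agent.H27.Ep.sign fin_exP fin_ndStruct fin_ndCnt
    Cfsg.Agent.H85.Nd.arBackP Cfsg.Agent.H85.Nd.arFwdP fin_r2P89 fin_rpP
    hq hodd d m hd hm hmd W₀ hW₀ r hrΩ i c hi hc

end Cfsg.Agent.H86.Nd
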