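import Mathlib
import Cfsg.Agent.H86.NdMainP
import Cfsg.Agent.H86.Ev2R2M87

/-!
# S5991 team project (helper86): the main assembly (minus space)
-/

set_option autoImplicit false
open scoped MatrixGroups

namespace Cfsg.Agent.H86.Nd

open Cfsg.Agent.H45 Cfsg.Agent.H42.Spd Cfsg.Agent.H42.Ti Cfsg.Agent.H14.Ot Cfsg.Agent.H95.Oh
  Cfsg.Agent.H86.Ev2 Module

universe u

set_option maxHeartbeats 1000000 in
/-- S5991 from its pieces. -/
theorem nd_main_minus (hBr : StBrM.{u}) (hOrd : Cfsg.Agent.H77.Tm.StOrd)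
    (hSign : Cfsg.Agent.H77.Tm.StSign.{u}) (hEx : StExM.{u}) (hStruct : StNdStruct.{u})
    (hCnt : StNdCnt.{u}) (hAB : StArBackM) (hAF : StArFwdM) (hTwo : StR2M91.{u})
    (hPO : StRpMOdd.{u}) (hPE : StRpMEven.{u})
    {F : Type u} [Field F] [Fintype F] {p : ℕ} [Fact p.Prime] [CharP F p] {q : ℕ} (hq : Fintype.card F = q)
    (hodd : Odd q) (d m : ℕ) (hd : 4 ≤ d) (hm : Odd m) (hmd : m < d) (a b : F) (hab : ∀ x y : F, x ^ 2 + a * x * y + b * y ^ 2 = 0 → x = 0 ∧ y = 0)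
    (W₀ : Submodule F ((Fin (d - 1) ⊕ Fin (d - 1)) ⊕ Fin 2 → F)) (hW₀ : Module.finrank F ↥W₀ = m ∧ Cfsg.Geo.IsNondegenerateOn (QuadraticMap.polar (Cfsg.quadFormMinus (d - 1) F a b)) W₀)
    (r : ℕ) [Fact r.Prime]
    (hrΩ : r ∣ Nat.card {W : Submodule F ((Fin (d - 1) ⊕ Fin (d - 1)) ⊕ Fin 2 → F) // Module.finrank F ↥W = m ∧ Cfsg.Geo.IsNondegenerateOn (QuadraticMap.polar (Cfsg.quadFormMinus (d - 1) F a b)) W ∧ Cfsg.Geo.AreIsometricFor (Cfsg.quadFormMinus (d - 1) F a b) W W₀})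
    (i c : ℕ) (hi : i = orderOf (q : ZMod r)) (hc : c = if Even i then i else 2 * i) :
    (∀ x : GL ((Fin (d - 1) ⊕ Fin (d - 1)) ⊕ Fin 2) F, x ∈ Cfsg.Geo.omegaGL (Cfsg.quadFormMinus (d - 1) F a b) →
      (∃ z : F, ((x ^ r : GL ((Fin (d - 1) ⊕ Fin (d - 1)) ⊕ Fin 2) F) : Matrix ((Fin (d - 1) ⊕ Fin (d - 1)) ⊕ Fin 2) ((Fin (d - 1) ⊕ Fin (d - 1)) ⊕ Fin 2) F) = z • (1 : Matrix ((Fin (d - 1) ⊕ Fin (d - 1)) ⊕ Fin 2) ((Fin (d - 1) ⊕ Fin (d - 1)) ⊕ Fin 2) F)) →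
      (∀ z : F, (x : Matrix ((Fin (d - 1) ⊕ Fin (d - 1)) ⊕ Fin 2) ((Fin (d - 1) ⊕ Fin (d - 1)) ⊕ Fin 2) F) ≠ z • (1 : Matrix ((Fin (d - 1) ⊕ Fin (d - 1)) ⊕ Fin 2) ((Fin (d - 1) ⊕ Fin (d - 1)) ⊕ Fin 2) F)) →
      ∃ W : Submodule F ((Fin (d - 1) ⊕ Fin (d - 1)) ⊕ Fin 2 → F), (Module.finrank F ↥W = m ∧ Cfsg.Geo.IsNondegenerateOn (QuadraticMap.polar (Cfsg.quadFormMinus (d - 1) F a b)) W ∧ Cfsg.Geo.AreIsometricFor (Cfsg.quadFormMinus (d - 1) F a b) W W₀) ∧ W.map (Matrix.toLin' (x : Matrix ((Fin (d - 1) ⊕ Fin (d - 1)) ⊕ Fin 2) ((Fin (d - 1) ⊕ Fin (d - 1)) ⊕ Fin 2) F)) ≤ W) ↔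
    ((r = 2 ∧ (Even d ∨ q % 8 ≠ 7)) ∨
     (r ≠ p ∧ 2 < r ∧ Odd i ∧ ((2 * d) % c = 0 ∨ (c ≤ m ∧ 0 < m % c ∧ m % c < (2 * d) % c))) ∨
     (r ≠ p ∧ 2 < r ∧ Even i ∧ (((2 * d) % c = 0 ∧ Even ((2 * d) / i)) ∨ (0 < (2 * d) % c ∧ i ≤ m ∧ 0 < m % c ∧ m % c < (2 * d) % c)))) := by
  have hp : p.Prime := Fact.out
  have hrP : r.Prime := Fact.out
  subst hq
  have h2F : (2 : F) ≠ 0 := Cfsg.Agent.H49.two_ne_zero_of_odd_card hodd
  have hp2 : p ≠ 2 := by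
    intro h
    apply h2F
    have h1 : ((p : ℕ) : F) = 0 := CharP.cast_eq_zero F p
    rw [h] at h1
    exact_mod_cast h1
  have hm1 : 1 ≤ m := by
    obtain ⟨t, ht⟩ := hm
    omega
  have hk : 3 ≤ d - 1 := by omega
  have hmk : m ≤ d - 1 := by omega
  have hd1 : d - 1 + 1 = d := by omega
  by_cases hr2 : r = 2
  · subst hr2
    have key := hTwo F (d - 1) m a b hodd hk hm hmk hab W₀ hW₀
    rw [hd1] at key
    constructor
    · intro hL
      exact Or.inl ⟨rfl, key.mp hL⟩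
    · rintro (⟨-, h⟩ | ⟨-, h, -⟩ | ⟨-, h, -⟩)
      · exact key.mpr h
      · omega
      · omega
  · by_cases hrp : r = p
    · have hex : ∃ x : GL ((Fin (d - 1) ⊕ Fin (d - 1)) ⊕ Fin 2) F,
          x ∈ Cfsg.Geo.omegaGL (Cfsg.quadFormMinus (d - 1) F a b) ∧ x ^ p = 1 ∧
          (∀ z : F, (x : Matrix ((Fin (d - 1) ⊕ Fin (d - 1)) ⊕ Fin 2)
            ((Fin (d - 1) ⊕ Fin (d - 1)) ⊕ Fin 2) F) ≠ z • (1 : Matrix ((Fin (d - 1) ⊕
            Fin (d - 1)) ⊕ Fin 2) ((Fin (d - 1) ⊕ Fin (d - 1)) ⊕ Fin 2) F)) ∧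
          ∀ W : Submodule F ((Fin (d - 1) ⊕ Fin (d - 1)) ⊕ Fin 2 → F),
            IsNW (Cfsg.quadFormMinus (d - 1) F a b) m W₀ W →
            ¬ W.map (Matrix.toLin' (x : Matrix ((Fin (d - 1) ⊕ Fin (d - 1)) ⊕ Fin 2)
              ((Fin (d - 1) ⊕ Fin (d - 1)) ⊕ Fin 2) F)) ≤ W := by
        rcases Nat.even_or_odd (d - 1) with hke | hko
        · obtain ⟨x, hxΩ, hxp, hxns, hxW⟩ := hPO F p (d - 1) m a b hp2 hab hke hk hm hmk
          exact ⟨x, hxΩ, hxp, hxns, fun W hW => hxW W hW.1 hW.2.1⟩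
        · exact hPE F p (d - 1) m a b hp2 hab hko hk hm hmk W₀ hW₀
      obtain ⟨x, hxΩ, hxp, hxns, hxW⟩ := hex
      constructor
      · intro hL
        obtain ⟨W, hW, hWinv⟩ := hL x hxΩ ⟨1, by rw [hrp, hxp]; simp⟩ hxns
        exact absurd hWinv (hxW W hW)
      · rintro (⟨h, -⟩ | ⟨h, -⟩ | ⟨h, -⟩)
        · exact absurd h hr2
        · exact absurd hrp h
        · exact absurd hrp h
    · have hr3 : 2 < r := by have := hrP.two_le; omega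
      have hrq : ¬ r ∣ Fintype.card F := by
        obtain ⟨f, -, hf⟩ := FiniteField.card F p
        intro h
        rw [hf] at h
        exact hrp ((Nat.prime_dvd_prime_iff_eq hrP hp).mp (hrP.dvd_of_dvd_pow h))
      obtain ⟨hipos, -, -⟩ := hOrd (Fintype.card F) r hrP hrq
      have hii : ii F r = i := by rw [hi]; rfl
      have hcc : cc F r = c := by
        rw [hc, hi]; rfl
      rw [← hi] at hipos
      have hcpos : 0 < c := by
        rw [hc]; split_ifs <;> omega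
      have hrodd : Odd r := hrP.odd_of_ne_two hr2
      obtain ⟨B, hB, hNP⟩ := brM_bridge hBr F (d - 1) a b h2F hab
      have hcard : Fintype.card ((Fin (d - 1) ⊕ Fin (d - 1)) ⊕ Fin 2) = 2 * d := by
        simp; omega
      have hev : Even (Fintype.card ((Fin (d - 1) ⊕ Fin (d - 1)) ⊕ Fin 2)) := by
        rw [hcard]; exact even_two_mul d
      have h2k : 2 * (d - 1) + 2 = 2 * d := by omega
      have hRhs : ((r = 2 ∧ (Even d ∨ Fintype.card F % 8 ≠ 7)) ∨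
          (r ≠ p ∧ 2 < r ∧ Odd i ∧ ((2 * d) % c = 0 ∨
            (c ≤ m ∧ 0 < m % c ∧ m % c < (2 * d) % c))) ∨
          (r ≠ p ∧ 2 < r ∧ Even i ∧ (((2 * d) % c = 0 ∧ Even ((2 * d) / i)) ∨
            (0 < (2 * d) % c ∧ i ≤ m ∧ 0 < m % c ∧ m % c < (2 * d) % c)))) ↔
          RhsOddM d m i c := by
        unfold RhsOddM
        constructor
        · rintro (⟨h, -⟩ | ⟨-, -, h⟩ | ⟨-, -, h⟩)
          · exact absurd h hr2
          · exact Or.inl h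
          · exact Or.inr h
        · rintro (h | h)
          · exact Or.inr (Or.inl ⟨hrp, hr3, h⟩)
          · exact Or.inr (Or.inr ⟨hrp, hr3, h⟩)
      rw [hRhs]
      constructor
      · intro hL
        by_contra hneg
        rcases hAF d m i c hipos hc hm hmd hd hneg with
          ⟨A, hA1, hAle, hAadm, hAno⟩ | ⟨hmc, h2 | ⟨A, hA1, hAle, hAadm, hAlt, hmlt⟩⟩
        · obtain ⟨x, hxΩ, hxr, hxfix, hxns⟩ := hEx F p r hrP hr2 hrp (d - 1) A a b hk hab hA1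
            (by rw [hcc, h2k]; exact hAle) (by rw [hcc, hii, h2k]; exact hAadm)
          obtain ⟨W, ⟨hWm, hWnd, -⟩, hWinv⟩ := hL x hxΩ ⟨1, by rw [hxr]; simp⟩ hxns
          obtain ⟨A', hA'fix, -, -, hup⟩ := hStruct F p ((Fin (d - 1) ⊕ Fin (d - 1)) ⊕ Fin 2)
            (Cfsg.Agent.H49.QMin (d - 1) F a b) B
            h2F hB hev r hrP hr2 hrp x (omega_isom _ hxΩ) hxr
          rw [hcc, hcard] at hA'fix
          rw [hcc, h2k] at hxfix
          have hAA : A' = A := by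
            have h1 : c * A' = c * A := Nat.add_left_cancel (hA'fix.trans hxfix.symm)
            exact Nat.eq_of_mul_eq_mul_left hcpos h1
          subst hAA
          obtain ⟨j, e, hjA, he, hWje⟩ := hup W (by rw [hWm]; exact hm) hWnd hWinv
          rw [hcc, hWm] at hWje
          exact hAno j e hjA (by omega) hWje.symm
        · exact hCnt F p ((Fin (d - 1) ⊕ Fin (d - 1)) ⊕ Fin 2)
            (Cfsg.Agent.H49.QMin (d - 1) F a b) B h2F hB r m hrP hr2 hrp hm1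
            (by rw [hcc]; exact hmc) W₀ hW₀ 1 (Subgroup.one_mem _) (one_pow r)
            (by rw [fixdim_one, hcard]; omega) (by rw [fixdim_one, hcard, hcc]; exact h2) hrΩ
        · obtain ⟨x, hxΩ, hxr, hxfix, hxns⟩ := hEx F p r hrP hr2 hrp (d - 1) A a b hk hab hA1
            (by rw [hcc, h2k]; exact hAle) (by rw [hcc, hii, h2k]; exact hAadm)
          rw [hcc, h2k] at hxfix
          have hfe := Nat.eq_sub_of_add_eq hxfix
          exact hCnt F p ((Fin (d - 1) ⊕ Fin (d - 1)) ⊕ Fin 2)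
            (Cfsg.Agent.H49.QMin (d - 1) F a b) B h2F hB r m hrP hr2 hrp hm1
            (by rw [hcc]; exact hmc) W₀ hW₀ x (omega_isom _ hxΩ) hxr
            (lt_of_lt_of_eq hmlt hfe.symm) (by rw [hcc]; exact lt_of_eq_of_lt hfe hAlt) hrΩ
      · intro hR x hxΩ ⟨z, hz⟩ _
        obtain ⟨y, hyO, hyr, hyW⟩ := hSign F (d - 1) a b x r z hrodd (omega_isom _ hxΩ) hz
        obtain ⟨A, hAfix, hA0, hfixall, -⟩ := hStruct F p ((Fin (d - 1) ⊕ Fin (d - 1)) ⊕ Fin 2)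
          (Cfsg.Agent.H49.QMin (d - 1) F a b) B h2F hB hev r hrP hr2 hrp y hyO hyr
        rw [hcc, hcard] at hAfix
        rw [hii] at hA0
        obtain ⟨j, e, hj, he1, he, hje⟩ := hAB d m i c A hipos hc hm hmd hR (by omega)
          (by intro h hh; exact hNP ((hA0 (by omega)).mpr hh))
        obtain ⟨W, hW, hWinv⟩ := hfixall m W₀ j e hW₀ hj he1 (by omega) (by rw [hcc]; exact hje)
        exact ⟨W, hW, hyW W hWinv⟩

end Cfsg.Agent.H86.Nd
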