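import Mathlib
import Cfsg.Agent.H86.NdMainM
import Cfsg.Agent.H86.NdFinP
import Cfsg.Agent.H24.TmSign
import Cfsg.Agent.H24.TmScal
import Cfsg.Agent.H43.NdArBackM
import Cfsg.Agent.H43.NdArFwdM
import Cfsg.Agent.H12.NdUex2M
import Cfsg.Agent.Helper55.NdUex3M
import Cfsg.Agent.H79.NdUex4M
import Cfsg.Agent.H32.NdUnip4A
import Cfsg.Agent.H53.NdUnip4B
import Cfsg.Agent.H75.NdDiscPerp
import Cfsg.Agent.H75.NdRpMOdd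
import Cfsg.Agent.H3.NdRpMEven

/-!
# S5991 team project (helper86): all pieces wired (minus space)
-/

set_option autoImplicit false
open scoped MatrixGroups

namespace Cfsg.Agent.H86.Nd

open Cfsg.Agent.H86.Ev2

universe u v

theorem fin_exM : StExM.{u} := Cfsg.Agent.H85.Nd.exMClosed

/-- The `r = p` line of S5991, `d` odd. -/
theorem fin_rpMOdd : StRpMOdd.{u} :=
  Cfsg.Agent.H75.Nd.rpMOdd fin_uniOmega Cfsg.Agent.H12.Nd.uex2M Cfsg.Agent.Helper55.Nd.uex3M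

/-- The `r = p` line of S5991, `d` even. -/
theorem fin_rpMEven : StRpMEven.{u} :=
  Cfsg.Agent.H3.Nd.rpMEven fin_uniOmega Cfsg.Agent.H79.Nd.uex4M Cfsg.Agent.H32.Nd.unip4A
    Cfsg.Agent.H53.Nd.unip4B Cfsg.Agent.H75.Nd.discPerp

/-- S5991 (closed). -/
theorem fin_S5991
    {F : Type u} [Field F] [Fintype F] {p : ℕ} [Fact p.Prime] [CharP F p] {q : ℕ} (hq : Fintype.card F = q)
    (hodd : Odd q) (d m : ℕ) (hd : 4 ≤ d) (hm : Odd m) (hmd : m < d) (a b : F) (hab : ∀ x y : F, x ^ 2 + a * x * y + b * y ^ 2 = 0 → x = 0 ∧ y = 0)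
    (W₀ : Submodule F ((Fin (d - 1) ⊕ Fin (d - 1)) ⊕ Fin 2 → F)) (hW₀ : Module.finrank F ↥W₀ = m ∧ Cfsg.Geo.IsNondegenerateOn (QuadraticMap.polar (Cfsg.quadFormMinus (d - 1) F a b)) W₀)
    (r : ℕ) [Fact r.Prime]
    (hrΩ : r ∣ Nat.card {W : Submodule F ((Fin (d - 1) ⊕ Fin (d - 1)) ⊕ Fin 2 → F) // Module.finrank F ↥W = m ∧ Cfsg.Geo.IsNondegenerateOn (QuadraticMap.polar (Cfsg.quadFormMinus (d - 1) F a b)) W ∧ Cfsg.Geo.AreIsometricFor (Cfsg.quadFormMinus (d - 1) F a b) W W₀})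
    (i c : ℕ) (hi : i = orderOf (q : ZMod r)) (hc : c = if Even i then i else 2 * i) :
    (∀ x : GL ((Fin (d - 1) ⊕ Fin (d - 1)) ⊕ Fin 2) F, x ∈ Cfsg.Geo.omegaGL (Cfsg.quadFormMinus (d - 1) F a b) →
      (∃ z : F, ((x ^ r : GL ((Fin (d - 1) ⊕ Fin (d - 1)) ⊕ Fin 2) F) : Matrix ((Fin (d - 1) ⊕ Fin (d - 1)) ⊕ Fin 2) ((Fin (d - 1) ⊕ Fin (d - 1)) ⊕ Fin 2) F) = z • (1 : Matrix ((Fin (d - 1) ⊕ Fin (d - 1)) ⊕ Fin 2) ((Fin (d - 1) ⊕ Fin (d - 1)) ⊕ Fin 2) F)) →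
      (∀ z : F, (x : Matrix ((Fin (d - 1) ⊕ Fin (d - 1)) ⊕ Fin 2) ((Fin (d - 1) ⊕ Fin (d - 1)) ⊕ Fin 2) F) ≠ z • (1 : Matrix ((Fin (d - 1) ⊕ Fin (d - 1)) ⊕ Fin 2) ((Fin (d - 1) ⊕ Fin (d - 1)) ⊕ Fin 2) F)) →
      ∃ W : Submodule F ((Fin (d - 1) ⊕ Fin (d - 1)) ⊕ Fin 2 → F), (Module.finrank F ↥W = m ∧ Cfsg.Geo.IsNondegenerateOn (QuadraticMap.polar (Cfsg.quadFormMinus (d - 1) F a b)) W ∧ Cfsg.Geo.AreIsometricFor (Cfsg.quadFormMinus (d - 1) F a b) W W₀) ∧ W.map (Matrix.toLin' (x : Matrix ((Fin (d - 1) ⊕ Fin (d - 1)) ⊕ Fin 2) ((Fin (d - 1) ⊕ Fin (d - 1)) ⊕ Fin 2) F)) ≤ W) ↔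
    ((r = 2 ∧ (Even d ∨ q % 8 ≠ 7)) ∨
     (r ≠ p ∧ 2 < r ∧ Odd i ∧ ((2 * d) % c = 0 ∨ (c ≤ m ∧ 0 < m % c ∧ m % c < (2 * d) % c))) ∨
     (r ≠ p ∧ 2 < r ∧ Even i ∧ (((2 * d) % c = 0 ∧ Even ((2 * d) / i)) ∨ (0 < (2 * d) % c ∧ i ≤ m ∧ 0 < m % c ∧ m % c < (2 * d) % c)))) :=
  nd_main_minus fin_brM Cfsg.Agent.H24.Tm.ord (Cfsg.Agent.H24.Tm.sign Cfsg.Agent.H24.Tm.scal)
    fin_exM fin_ndStruct fin_ndCnt Cfsg.Agent.H43.Nd.arBackM Cfsg.Agent.H43.Nd.arFwdM fin_r2M91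
    fin_rpMOdd fin_rpMEven hq hodd d m hd hm hmd a b hab W₀ hW₀ r hrΩ i c hi hc

end Cfsg.Agent.H86.Nd
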