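import Mathlib

set_option autoImplicit false
set_option maxHeartbeats 400000

/-!
The normal closure of an abelian subgroup of a non-abelian nilpotent group has smaller nilpotency class.
-/

namespace Cfsg.Agent.H86

open scoped commutatorElement

/-- In a group `P`, the subgroup `E ⊔ [P,P]` has its commutator subgroup inside `γ₃(P)` when `E` is abelian. -/
theorem commutator_sup_commutator_le {P : Type*} [Group P] {E : Subgroup P}
    (hE : ∀ x ∈ E, ∀ y ∈ E, x * y = y * x) :
    ⁅E ⊔ (⊤ : Subgroup P).lowerCentralSeries 1, E ⊔ (⊤ : Subgroup P).lowerCentralSeries 1⁆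
      ≤ (⊤ : Subgroup P).lowerCentralSeries 2 := by
  have hZ : ((⊤ : Subgroup P).lowerCentralSeries 1).map
      (QuotientGroup.mk' ((⊤ : Subgroup P).lowerCentralSeries 2))
      ≤ Subgroup.center (P ⧸ (⊤ : Subgroup P).lowerCentralSeries 2) := by
    rintro _ ⟨c, hc, rfl⟩
    rw [Subgroup.mem_center_iff]
    intro q
    obtain ⟨g, rfl⟩ := QuotientGroup.mk'_surjective ((⊤ : Subgroup P).lowerCentralSeries 2) q
    have h1 : ⁅c, g⁆ ∈ (⊤ : Subgroup P).lowerCentralSeries 2 :=
      Subgroup.commutator_mem_commutator hc (Subgroup.mem_top g)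
    have h2 : QuotientGroup.mk' ((⊤ : Subgroup P).lowerCentralSeries 2) ⁅c, g⁆ = 1 :=
      (QuotientGroup.eq_one_iff _).2 h1
    rw [map_commutatorElement, commutatorElement_eq_one_iff_mul_comm] at h2
    exact h2.symm
  have hA : E.map (QuotientGroup.mk' ((⊤ : Subgroup P).lowerCentralSeries 2))
      ≤ Subgroup.centralizer
        ((E.map (QuotientGroup.mk' ((⊤ : Subgroup P).lowerCentralSeries 2)) : Subgroup _) : Set _) := by
    rintro _ ⟨x, hx, rfl⟩
    rw [Subgroup.mem_centralizer_iff]
    rintro _ ⟨y, hy, rfl⟩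
    rw [← map_mul, ← map_mul, hE y hy x hx]
  have h1 := sup_le hA (hZ.trans (Subgroup.center_le_centralizer _))
  have h2 := Subgroup.le_centralizer_iff.1 h1
  have h3 := sup_le h2 (hZ.trans (Subgroup.center_le_centralizer _))
  have h4 := Subgroup.commutator_eq_bot_iff_le_centralizer.2 h3
  rw [← Subgroup.map_sup, ← Subgroup.map_commutator, Subgroup.map_eq_bot_iff, QuotientGroup.ker_mk'] at h4
  exact h4

/-- The normal closure of an abelian subgroup of a non-abelian nilpotent group has smaller nilpotency class. -/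
theorem nilpotencyClass_normalClosure_lt {P : Type*} [Group P] [Group.IsNilpotent P]
    (hna : ¬ IsMulCommutative P) {E : Subgroup P} (hE : IsMulCommutative E) :
    Group.nilpotencyClass (Subgroup.normalClosure (E : Set P)) < Group.nilpotencyClass P := by
  have hE' : ∀ x ∈ E, ∀ y ∈ E, x * y = y * x := fun x hx y hy =>
    congrArg Subtype.val (hE.is_comm.comm (⟨x, hx⟩ : E) ⟨y, hy⟩)
  have hKK := commutator_sup_commutator_le hE'
  have hKn : (E ⊔ (⊤ : Subgroup P).lowerCentralSeries 1).Normal := by
    constructor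
    intro k hk g
    have e : g * k * g⁻¹ = ⁅g, k⁆ * k := by
      rw [commutatorElement_def]; group
    rw [e]
    refine mul_mem (Subgroup.mem_sup_right ?_) hk
    exact Subgroup.commutator_mem_commutator (Subgroup.mem_top g) (Subgroup.mem_top k)
  have hNK : Subgroup.normalClosure (E : Set P) ≤ E ⊔ (⊤ : Subgroup P).lowerCentralSeries 1 :=
    Subgroup.normalClosure_le_normal (le_sup_left : E ≤ E ⊔ (⊤ : Subgroup P).lowerCentralSeries 1)
  have step : ∀ i : ℕ, (Subgroup.normalClosure (E : Set P)).lowerCentralSeries (i + 1)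
      ≤ (⊤ : Subgroup P).lowerCentralSeries (i + 2) := by
    intro i
    induction i with
    | zero =>
      rw [Subgroup.lowerCentralSeries_succ, Subgroup.lowerCentralSeries_zero]
      exact (Subgroup.commutator_mono hNK hNK).trans hKK
    | succ i ih =>
      rw [Subgroup.lowerCentralSeries_succ, Subgroup.lowerCentralSeries_succ _ (i + 2)]
      exact Subgroup.commutator_mono ih le_top
  have hc2 : 2 ≤ Group.nilpotencyClass P := by
    by_contra hlt
    have h1 : Group.nilpotencyClass P ≤ 1 := by omega
    have h2 := Subgroup.lowerCentralSeries_eq_bot_iff_nilpotencyClass_le.2 h1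
    apply hna
    refine ⟨⟨fun x y => ?_⟩⟩
    have h3 : ⁅x, y⁆ ∈ (⊤ : Subgroup P).lowerCentralSeries 1 :=
      Subgroup.commutator_mem_commutator (Subgroup.mem_top x) (Subgroup.mem_top y)
    rw [h2, Subgroup.mem_bot, commutatorElement_eq_one_iff_mul_comm] at h3
    exact h3
  have h5 : (Subgroup.normalClosure (E : Set P)).lowerCentralSeries (Group.nilpotencyClass P - 1) = ⊥ := by
    have h6 := step (Group.nilpotencyClass P - 2)
    have e1 : Group.nilpotencyClass P - 2 + 1 = Group.nilpotencyClass P - 1 := by omega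
    have e2 : Group.nilpotencyClass P - 2 + 2 = Group.nilpotencyClass P := by omega
    rw [e1, e2, Subgroup.lowerCentralSeries_nilpotencyClass] at h6
    exact eq_bot_iff.2 h6
  have h7 : (⊤ : Subgroup (Subgroup.normalClosure (E : Set P))).lowerCentralSeries
      (Group.nilpotencyClass P - 1) = ⊥ := by
    rw [← Subgroup.top_subtype_lowerCentralSeries] at h5
    exact (Subgroup.map_eq_bot_iff_of_injective _ (Subgroup.subtype_injective _)).1 h5
  have h8 := Subgroup.lowerCentralSeries_eq_bot_iff_nilpotencyClass_le.1 h7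
  omega

end Cfsg.Agent.H86
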