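import Mathlib
import Cfsg.Prelude.Def_RootSubgroups
import Cfsg.Agent.H86.GrpLemmas

set_option autoImplicit false
set_option maxHeartbeats 400000

/-!
Odd transpositions and a normal `2`-subgroup.
-/

open Cfsg
open scoped commutatorElement

namespace Cfsg.Agent.H86

variable {G : Type*} [Group G]

lemma rootInv_mul_self {D : Set G} (hD : IsRootInvolutionSet D) {d : G} (hd : d ∈ D) : d * d = 1 := by
  have := pow_orderOf_eq_one d
  rw [hD.orderOf_eq d hd, pow_two] at this
  exact this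

lemma rootInv_inv {D : Set G} (hD : IsRootInvolutionSet D) {d : G} (hd : d ∈ D) : d⁻¹ = d :=
  inv_eq_of_mul_eq_one_left (rootInv_mul_self hD hd)

lemma oddTransp_pair {D : Set G} (hD : IsOddTranspositionSet D) {a b : G} (ha : a ∈ D) (hb : b ∈ D) :
    a * b = b * a ∨ Odd (orderOf (a * b)) := by
  rcases hD.1.pair a ha b hb with h | h | h
  · exact Or.inl h
  · exact Or.inr h
  · exact absurd h.1 (hD.2 a ha b hb)

/-- Elements of odd order in `O_2(G)` are trivial. -/
lemma eq_one_of_mem_pCore_two [Finite G] {x : G} (hx : x ∈ pCore 2 G) {m : ℕ} (hm : Odd m) (hxm : x ^ m = 1) :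
    x = 1 := by
  haveI : Fact (Nat.Prime 2) := ⟨Nat.prime_two⟩
  obtain ⟨k, hk⟩ := pCore_isPGroup 2 G ⟨x, hx⟩
  have hk' : x ^ 2 ^ k = 1 := by
    have := congrArg Subtype.val hk
    simpa using this
  have h1 : orderOf x ∣ 2 ^ k := orderOf_dvd_of_pow_eq_one hk'
  have h2 : orderOf x ∣ m := orderOf_dvd_of_pow_eq_one hxm
  have hcop : Nat.Coprime (2 ^ k) m := Nat.Coprime.pow_left k (Nat.coprime_two_left.2 hm)
  have h3 : orderOf x = 1 := Nat.eq_one_of_dvd_coprimes hcop h1 h2
  exact orderOf_eq_one_iff.1 h3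

variable {D : Set G} {Q : Subgroup G}

lemma conj_mul_inv_mem (hQn : Q.Normal) {q : G} (hq : q ∈ Q) (a : G) : q * a * q⁻¹ * a⁻¹ ∈ Q := by
  have : q * a * q⁻¹ * a⁻¹ = q * (a * q⁻¹ * a⁻¹) := by group
  rw [this]
  exact mul_mem hq (hQn.conj_mem _ (inv_mem hq) a)

/-- A member of `D` commuting with `a` commutes with every conjugate of `a` under the normal `2`-subgroup `Q`. -/
lemma comm_conj_of_comm (hD : IsOddTranspositionSet D) (hQn : Q.Normal)
    (hQ : ∀ x ∈ Q, ∀ m : ℕ, Odd m → x ^ m = 1 → x = 1) {a e q : G} (ha : a ∈ D) (he : e ∈ D)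
    (hea : e * a = a * e) (hq : q ∈ Q) : e * (q * a * q⁻¹) = (q * a * q⁻¹) * e := by
  have hd : q * a * q⁻¹ ∈ D := hD.1.conj_mem a ha q
  rcases oddTransp_pair hD he hd with h | h
  · exact h
  · have ha2 := rootInv_mul_self hD.1 ha
    have hainv := rootInv_inv hD.1 ha
    have heinv := rootInv_inv hD.1 he
    have ht : q * a * q⁻¹ * a⁻¹ ∈ Q := conj_mul_inv_mem hQn hq a
    generalize q * a * q⁻¹ = d at hd h ht ⊢
    have hsq : (e * d) ^ 2 ∈ Q := by
      have e1 : (e * d) ^ 2 = (e * (d * a⁻¹) * e⁻¹) * (a * (d * a⁻¹) * a⁻¹) := by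
        rw [hainv, heinv, pow_two]
        calc e * d * (e * d) = e * d * e * 1 * d := by group
          _ = e * d * e * (a * a) * d := by rw [ha2]
          _ = e * d * (e * a) * a * d * 1 := by group
          _ = e * d * (a * e) * a * d * (a * a) := by rw [hea, ha2]
          _ = e * (d * a) * e * (a * (d * a) * a) := by group
      rw [e1]
      exact mul_mem (hQn.conj_mem _ ht e) (hQn.conj_mem _ ht a)
    have h2 : (e * d) ^ 2 = 1 := by
      refine hQ _ hsq _ h ?_
      rw [← pow_mul, mul_comm, pow_mul, pow_orderOf_eq_one, one_pow]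
    have h1 : e * d = 1 := by
      obtain ⟨k, hk⟩ := h
      have h3 := pow_orderOf_eq_one (e * d)
      rw [hk, pow_succ, pow_mul, h2, one_pow, one_mul] at h3
      exact h3
    have h4 : d = e⁻¹ := eq_inv_of_mul_eq_one_right h1
    rw [h4, mul_inv_cancel, inv_mul_cancel]

/-- First part: a member of `D` commuting with `a` centralizes `[Q, a]`. -/
theorem comm_commutator_of_comm (hD : IsOddTranspositionSet D) (hQn : Q.Normal)
    (hQ : ∀ x ∈ Q, ∀ m : ℕ, Odd m → x ^ m = 1 → x = 1) {a e : G} (ha : a ∈ D) (he : e ∈ D)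
    (hea : e * a = a * e) : ∀ x ∈ ⁅Q, Subgroup.zpowers a⁆, e * x = x * e := by
  have hle : ⁅Q, Subgroup.zpowers a⁆ ≤ Subgroup.centralizer {e} := by
    rw [Subgroup.commutator_le]
    intro q hq z hz
    rw [Subgroup.mem_centralizer_iff]
    intro h hh
    rw [Set.mem_singleton_iff] at hh
    subst hh
    have ha2 := rootInv_mul_self hD.1 ha
    have hainv := rootInv_inv hD.1 ha
    obtain ⟨k, rfl⟩ := Subgroup.mem_zpowers_iff.1 hz
    have hz' : a ^ k = 1 ∨ a ^ k = a := by
      rcases Int.even_or_odd' k with ⟨j, hj | hj⟩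
      · left
        rw [hj, zpow_mul, zpow_two, ha2, one_zpow]
      · right
        rw [hj, zpow_add, zpow_mul, zpow_two, ha2, one_zpow, one_mul, zpow_one]
    rcases hz' with hz' | hz'
    · rw [hz', commutatorElement_one_right, mul_one, one_mul]
    · rw [hz', commutatorElement_def]
      have h1 := comm_conj_of_comm hD hQn hQ ha he hea hq
      have h2 : h * a⁻¹ = a⁻¹ * h := by rw [hainv]; exact hea
      calc h * (q * a * q⁻¹ * a⁻¹) = h * (q * a * q⁻¹) * a⁻¹ := by group
        _ = q * a * q⁻¹ * h * a⁻¹ := by rw [h1]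
        _ = q * a * q⁻¹ * (h * a⁻¹) := by group
        _ = q * a * q⁻¹ * (a⁻¹ * h) := by rw [h2]
        _ = q * a * q⁻¹ * a⁻¹ * h := by group
  intro x hx
  have := hle hx
  rw [Subgroup.mem_centralizer_iff] at this
  exact this e rfl

/-- Second part: an element of `Q` centralizing `a b` (of odd order, `b ≠ a`) centralizes `a`. -/
theorem comm_of_comm_mul (hD : IsOddTranspositionSet D) (hQn : Q.Normal)
    (hQ : ∀ x ∈ Q, ∀ m : ℕ, Odd m → x ^ m = 1 → x = 1) {a b q : G} (ha : a ∈ D) (hb : b ∈ D)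
    (hba : b ≠ a) (hodd : Odd (orderOf (a * b))) (hq : q ∈ Q) (hqr : (a * b) * q = q * (a * b)) :
    a * q = q * a := by
  have ha2 := rootInv_mul_self hD.1 ha
  have hb2 := rootInv_mul_self hD.1 hb
  have hainv := rootInv_inv hD.1 ha
  have hd : q * a * q⁻¹ ∈ D := hD.1.conj_mem a ha q
  have hd2 := rootInv_mul_self hD.1 hd
  have ht : q * a * q⁻¹ * a ∈ Q := by
    have := conj_mul_inv_mem hQn hq a
    rwa [hainv] at this
  -- it suffices that `t = 1`
  have hfin : q * a * q⁻¹ * a = 1 → a * q = q * a := by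
    intro h1
    have h2 : q * a * q⁻¹ = a⁻¹ := eq_inv_of_mul_eq_one_left h1
    rw [hainv] at h2
    calc a * q = (q * a * q⁻¹) * q := by rw [h2]
      _ = q * a := by group
  -- `t` commutes with `r = a b`
  have htr : (q * a * q⁻¹ * a) * (a * b) = (a * b) * (q * a * q⁻¹ * a) := by
    have hqr' : (b * a) * q⁻¹ = q⁻¹ * (b * a) := by
      have e1 : b * a = (a * b)⁻¹ := by
        rw [mul_inv_rev, hainv, rootInv_inv hD.1 hb]
      rw [e1]
      have h3 : q * (a * b)⁻¹ = (a * b)⁻¹ * q := by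
        calc q * (a * b)⁻¹ = (a * b)⁻¹ * ((a * b) * q) * (a * b)⁻¹ := by group
          _ = (a * b)⁻¹ * (q * (a * b)) * (a * b)⁻¹ := by rw [hqr]
          _ = (a * b)⁻¹ * q := by group
      calc (a * b)⁻¹ * q⁻¹ = q⁻¹ * (q * (a * b)⁻¹) * q⁻¹ := by group
        _ = q⁻¹ * ((a * b)⁻¹ * q) * q⁻¹ := by rw [h3]
        _ = q⁻¹ * (a * b)⁻¹ := by group
    calc (q * a * q⁻¹ * a) * (a * b) = q * a * q⁻¹ * (a * a) * b := by group
      _ = q * a * q⁻¹ * b := by rw [ha2, mul_one]
      _ = q * a * q⁻¹ * b * (a * a) := by rw [ha2, mul_one]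
      _ = q * a * (q⁻¹ * (b * a)) * a := by group
      _ = q * a * ((b * a) * q⁻¹) * a := by rw [hqr']
      _ = (q * (a * b)) * a * q⁻¹ * a := by group
      _ = ((a * b) * q) * a * q⁻¹ * a := by rw [hqr]
      _ = (a * b) * (q * a * q⁻¹ * a) := by group
  have hdb : q * a * q⁻¹ * b = (q * a * q⁻¹ * a) * (a * b) := by
    calc q * a * q⁻¹ * b = q * a * q⁻¹ * 1 * b := by group
      _ = q * a * q⁻¹ * (a * a) * b := by rw [ha2]
      _ = (q * a * q⁻¹ * a) * (a * b) := by group
  rcases oddTransp_pair hD hd ha with h | h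
  · -- `d a = a d`, so `t * t = 1`
    have ht2 : (q * a * q⁻¹ * a) * (q * a * q⁻¹ * a) = 1 := by
      calc (q * a * q⁻¹ * a) * (q * a * q⁻¹ * a) = (q * a * q⁻¹) * (a * (q * a * q⁻¹)) * a := by group
        _ = (q * a * q⁻¹) * ((q * a * q⁻¹) * a) * a := by rw [h]
        _ = ((q * a * q⁻¹) * (q * a * q⁻¹)) * (a * a) := by group
        _ = 1 := by rw [hd2, ha2, mul_one]
    rcases oddTransp_pair hD hd hb with h' | h'
    · -- `d b = b d` forces `r ^ 2 = 1`
      exfalso
      have h5 : (q * a * q⁻¹ * b) * (q * a * q⁻¹ * b) = 1 := by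
        calc (q * a * q⁻¹ * b) * (q * a * q⁻¹ * b) = (q * a * q⁻¹) * (b * (q * a * q⁻¹)) * b := by group
          _ = (q * a * q⁻¹) * ((q * a * q⁻¹) * b) * b := by rw [h']
          _ = ((q * a * q⁻¹) * (q * a * q⁻¹)) * (b * b) := by group
          _ = 1 := by rw [hd2, hb2, mul_one]
      rw [hdb] at h5
      have h6 : (a * b) * (a * b) = 1 := by
        calc (a * b) * (a * b) = 1 * ((a * b) * (a * b)) := by group
          _ = ((q * a * q⁻¹ * a) * (q * a * q⁻¹ * a)) * ((a * b) * (a * b)) := by rw [ht2]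
          _ = (q * a * q⁻¹ * a) * ((q * a * q⁻¹ * a) * (a * b)) * (a * b) := by group
          _ = (q * a * q⁻¹ * a) * ((a * b) * (q * a * q⁻¹ * a)) * (a * b) := by rw [htr]
          _ = ((q * a * q⁻¹ * a) * (a * b)) * ((q * a * q⁻¹ * a) * (a * b)) := by group
          _ = 1 := h5
      have h7 : a * b = 1 := by
        obtain ⟨k, hk⟩ := hodd
        have h3 := pow_orderOf_eq_one (a * b)
        rw [hk, pow_succ, pow_mul, pow_two, h6, one_pow, one_mul] at h3
        exact h3
      have h8 : b = a⁻¹ := eq_inv_of_mul_eq_one_right h7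
      rw [hainv] at h8
      exact hba h8
    · -- `d b` of odd order forces `t = 1`
      apply hfin
      refine hQ _ ht (orderOf (a * b) * orderOf (q * a * q⁻¹ * b)) (hodd.mul h') ?_
      have hc : Commute (q * a * q⁻¹ * a) (a * b) := htr
      have h9 : ((q * a * q⁻¹ * a) * (a * b)) ^ (orderOf (a * b) * orderOf (q * a * q⁻¹ * b)) = 1 := by
        rw [← hdb, mul_comm, pow_mul, pow_orderOf_eq_one, one_pow]
      rw [hc.mul_pow, pow_mul (a * b), pow_orderOf_eq_one, one_pow, mul_one] at h9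
      exact h9
  · apply hfin
    exact hQ _ ht _ h (pow_orderOf_eq_one _)

end Cfsg.Agent.H86
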