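import Mathlib
import Cfsg.Agent.H14.OtDefs
import Cfsg.Agent.H7.OmegaCenter
import Cfsg.Agent.H95.Quad
import Cfsg.Agent.H45.OmInvol
import Cfsg.Agent.H49.Spinor
import Cfsg.Agent.H49.NegOne
import Cfsg.Agent.H49.GeoGlue
import Cfsg.Agent.H86.OtPair

set_option autoImplicit false
set_option maxHeartbeats 1000000

/-! S5972 team project (helper14), piece OT-INVEX: if `-1` is not a square, the product of two
reflections in orthogonal vectors of norm `1` is an involution of `Ω` fixing no totally singular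
`d`-space. -/

namespace Cfsg.Agent.H86.Ot

open Cfsg.Agent.H45 Cfsg.Agent.H42.Spd Cfsg.Agent.H42.Ti Cfsg.Agent.H14.Ot Module Polynomial

universe u

theorem finrank_sup_singleton {F : Type*} [Field F] {V : Type*} [AddCommGroup V] [Module F V]
    [FiniteDimensional F V] (K : Submodule F V) (z : V) (hz : z ∉ K) :
    finrank F ↥(K ⊔ Submodule.span F {z}) = finrank F K + 1 := by
  have hz0 : z ≠ 0 := by
    rintro rfl
    exact hz K.zero_mem
  have hdisj : K ⊓ Submodule.span F {z} = ⊥ := by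
    rw [eq_bot_iff]
    rintro y ⟨hyK, hyz⟩
    obtain ⟨c, rfl⟩ := Submodule.mem_span_singleton.1 hyz
    rw [Submodule.mem_bot]
    by_cases hc : c = 0
    · rw [hc, zero_smul]
    · exfalso
      apply hz
      have h := K.smul_mem c⁻¹ hyK
      rwa [smul_smul, inv_mul_cancel₀ hc, one_smul] at h
  have h3 := Submodule.finrank_sup_add_finrank_inf_eq K (Submodule.span F {z})
  rw [hdisj, finrank_bot, finrank_span_singleton hz0] at h3
  omega

theorem oInvEx (hH : Cfsg.Agent.H14.Ot.StOHalf.{u, u}) : Cfsg.Agent.H14.Ot.StOInvEx.{u} := by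
  intro F _ _ d h2 hns hd
  classical
  obtain ⟨Q, hQ⟩ : ∃ Q : QuadraticForm F (Unit ⊕ (Fin d ⊕ Fin d) → F),
      Q = Cfsg.Agent.H7.qOdd d F := ⟨_, rfl⟩
  have hcoe : (⇑Q : (Unit ⊕ (Fin d ⊕ Fin d) → F) → F) = Cfsg.quadFormOdd d F := by
    rw [hQ]
    exact Cfsg.Agent.H7.qOdd_coe d
  obtain ⟨B, hB⟩ : ∃ B : (Unit ⊕ (Fin d ⊕ Fin d) → F) →ₗ[F] (Unit ⊕ (Fin d ⊕ Fin d) → F) →ₗ[F] F,
      B = QuadraticMap.polarBilin Q := ⟨_, rfl⟩
  have hBapp : ∀ u v, B u v = QuadraticMap.polar Q u v := by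
    intro u v
    rw [hB]
    rfl
  have hsymm : ∀ u v, B u v = B v u := by
    intro u v
    rw [hBapp, hBapp]
    exact QuadraticMap.polar_comm Q u v
  have hBself : ∀ v, B v v = 2 * Q v := by
    intro v
    rw [hBapp, QuadraticMap.polar_self]
    simp [two_mul]
  have hnd : ∀ u, (∀ v, B u v = 0) → u = 0 := by
    intro u hu
    have h := (Cfsg.Agent.H7.qOdd_nondeg (m := d) (F := F) h2).1
    apply h u
    intro v
    have := hu v
    rw [hB, hQ] at this
    exact this
  obtain ⟨u, hu⟩ : ∃ u : Unit ⊕ (Fin d ⊕ Fin d) → F, u = Pi.single (Sum.inl ()) 1 := ⟨_, rfl⟩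
  obtain ⟨v, hv⟩ : ∃ v : Unit ⊕ (Fin d ⊕ Fin d) → F, v = Cfsg.Agent.H7.hypV d ⟨0, hd⟩ :=
    ⟨_, rfl⟩
  have hQu : Q u = 1 := by
    rw [hu, hQ]
    exact Cfsg.Agent.H7.qOdd_zero d
  have hQv : Q v = 1 := by
    rw [hv, hQ]
    exact Cfsg.Agent.H7.qOdd_hypV d _
  have huv : QuadraticMap.polar (⇑Q) u v = 0 := by
    rw [hu, hv, hQ]
    exact Cfsg.Agent.H7.polar_qOdd_zero_hypV d _
  have hBuu : B u u = 2 := by rw [hBself, hQu, mul_one]
  have hBvv : B v v = 2 := by rw [hBself, hQv, mul_one]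
  have hBuv : B u v = 0 := by
    rw [hBapp]
    exact huv
  have hBvu : B v u = 0 := by
    rw [hsymm]
    exact hBuv
  have hpw : [u, v].Pairwise (fun a b => QuadraticMap.polar (⇑Q) a b = 0) :=
    List.pairwise_pair.2 huv
  obtain ⟨g, hg⟩ : ∃ g : ↥(Cfsg.isometryGroup F (⇑Q)),
      g = ([u, v].map (Cfsg.Agent.H49.reflG Q)).prod := ⟨_, rfl⟩
  have hgcoe : ((g : Matrix.GeneralLinearGroup (Unit ⊕ (Fin d ⊕ Fin d)) F) :
      Matrix (Unit ⊕ (Fin d ⊕ Fin d)) (Unit ⊕ (Fin d ⊕ Fin d)) F) =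
      ([u, v].map (fun w => Cfsg.reflectionMatrix (⇑Q) w)).prod := by
    rw [hg]
    exact Cfsg.Agent.H49.coe_prod_reflG Q [u, v]
  have hne : ∀ w ∈ [u, v], Q w ≠ 0 := by
    intro w hw
    simp only [List.mem_cons, List.not_mem_nil, or_false] at hw
    rcases hw with rfl | rfl
    · rw [hQu]
      exact one_ne_zero
    · rw [hQv]
      exact one_ne_zero
  have hgcomm : g ∈ commutator ↥(Cfsg.isometryGroup F (⇑Q)) := by
    rw [Cfsg.Agent.H49.mem_commutator_iff_of_prod_refl Q h2 g [u, v] hne hgcoe]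
    refine ⟨⟨1, rfl⟩, ?_⟩
    simp only [List.map_cons, List.map_nil, List.prod_cons, List.prod_nil, hQu, hQv, mul_one]
    exact ⟨1, (mul_one 1).symm⟩
  have hgg : g * g = 1 := by
    rw [hg]
    exact Cfsg.Agent.H45.prod_reflG_sq Q [u, v] hpw
  have hact : ∀ y, Matrix.mulVec ((g : Matrix.GeneralLinearGroup (Unit ⊕ (Fin d ⊕ Fin d)) F) :
      Matrix (Unit ⊕ (Fin d ⊕ Fin d)) (Unit ⊕ (Fin d ⊕ Fin d)) F) y =
      y - (B u y) • u - (B v y) • v := by
    intro y
    rw [hgcoe, Cfsg.Agent.H49.prod_refl_orthogonal Q [u, v] hpw y]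
    simp only [List.map_cons, List.map_nil, List.sum_cons, List.sum_nil, hQu, hQv, inv_one,
      one_mul, add_zero, hBapp]
    abel
  refine ⟨(g : Matrix.GeneralLinearGroup (Unit ⊕ (Fin d ⊕ Fin d)) F), ?_, ?_, ?_⟩
  · rw [← hcoe]
    exact (Cfsg.Agent.H49.mem_omegaGL_iff (⇑Q) _).2 ⟨g, hgcomm, rfl⟩
  · apply orderOf_eq_prime
    · rw [pow_two, ← Subgroup.coe_mul, hgg, Subgroup.coe_one]
    · intro h1
      have h := hact u
      rw [h1, Units.val_one, Matrix.one_mulVec, hBuu, hBvu, zero_smul, sub_zero] at h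
      have h3 : (2 : F) • u = 0 := sub_eq_self.mp h.symm
      rcases smul_eq_zero.1 h3 with h' | h'
      · exact h2 h'
      · rw [h', map_zero] at hQu
        exact zero_ne_one hQu
  · intro W hWQ hWinv
    have hWQ' : ∀ w ∈ W, Q w = 0 := by
      intro w hw
      have h := hWQ w hw
      rw [← hcoe] at h
      exact h
    obtain ⟨K, hK⟩ : ∃ K : Submodule F (Unit ⊕ (Fin d ⊕ Fin d) → F),
        K = LinearMap.ker (B u) ⊓ LinearMap.ker (B v) := ⟨_, rfl⟩
    have hmemK : ∀ y, y ∈ K ↔ B u y = 0 ∧ B v y = 0 := by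
      intro y
      rw [hK, Submodule.mem_inf, LinearMap.mem_ker, LinearMap.mem_ker]
    have hWK : W ≤ K := by
      intro w hw
      have h1 : Matrix.toLin' ((g : Matrix.GeneralLinearGroup (Unit ⊕ (Fin d ⊕ Fin d)) F) :
          Matrix (Unit ⊕ (Fin d ⊕ Fin d)) (Unit ⊕ (Fin d ⊕ Fin d)) F) w ∈ W :=
        hWinv (Submodule.mem_map_of_mem hw)
      rw [Matrix.toLin'_apply, hact] at h1
      have h3 : (B u w) • u + (B v w) • v ∈ W := by
        have h := W.sub_mem hw h1
        have e : w - (w - (B u w) • u - (B v w) • v) = (B u w) • u + (B v w) • v := by abel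
        rwa [e] at h
      have h4 := hWQ' _ h3
      rw [q_add', QuadraticMap.map_smul, QuadraticMap.map_smul, QuadraticMap.polar_smul_left,
        QuadraticMap.polar_smul_right, huv, hQu, hQv] at h4
      simp only [smul_eq_mul, mul_one, mul_zero, add_zero] at h4
      have hb : B v w = 0 := by
        by_contra hb
        apply hns
        refine ⟨B u w / B v w, ?_⟩
        field_simp
        linear_combination -h4
      have ha : B u w = 0 := by
        rw [hb, mul_zero, add_zero] at h4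
        exact mul_self_eq_zero.1 h4
      exact (hmemK w).2 ⟨ha, hb⟩
    have h2inv : (2 : F)⁻¹ * 2 = 1 := inv_mul_cancel₀ h2
    have hKnd : K ⊓ perp B K = ⊥ := by
      rw [eq_bot_iff]
      rintro y ⟨hyK, hyp⟩
      rw [Submodule.mem_bot]
      apply hnd
      intro z
      obtain ⟨hyu, hyv⟩ := (hmemK y).1 hyK
      have hk : z - ((2 : F)⁻¹ * B u z) • u - ((2 : F)⁻¹ * B v z) • v ∈ K := by
        rw [hmemK]
        constructor
        · rw [map_sub, map_sub, map_smul, map_smul, hBuu, hBuv, smul_eq_mul, smul_eq_mul,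
            mul_zero, sub_zero]
          linear_combination (-(B u z)) * h2inv
        · rw [map_sub, map_sub, map_smul, map_smul, hBvu, hBvv, smul_eq_mul, smul_eq_mul,
            mul_zero, sub_zero]
          linear_combination (-(B v z)) * h2inv
      have h5 := hyp _ hk
      rw [map_sub, map_sub, map_smul, map_smul, LinearMap.sub_apply, LinearMap.sub_apply,
        LinearMap.smul_apply, LinearMap.smul_apply, hyu, hyv, smul_zero, smul_zero, sub_zero,
        sub_zero] at h5
      rw [hsymm]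
      exact h5
    have hTI : TI B W := by
      intro w hw w' hw'
      rw [hBapp]
      unfold QuadraticMap.polar
      rw [hWQ' _ (W.add_mem hw hw'), hWQ' w hw, hWQ' w' hw']
      simp
    have hhalf := hH F (Unit ⊕ (Fin d ⊕ Fin d) → F) B hsymm K W hKnd hWK hTI
    have huK : u ∉ K := by
      intro h
      have h' := ((hmemK u).1 h).1
      rw [hBuu] at h'
      exact h2 h'
    have hvK : v ∉ K ⊔ Submodule.span F {u} := by
      intro h
      obtain ⟨k, hk, w, hw, hkw⟩ := Submodule.mem_sup.1 h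
      obtain ⟨c, rfl⟩ := Submodule.mem_span_singleton.1 hw
      have h6 : B v (k + c • u) = 0 := by
        rw [map_add, map_smul, ((hmemK k).1 hk).2, hBvu, smul_zero, add_zero]
      rw [hkw, hBvv] at h6
      exact h2 h6
    have h7 := finrank_sup_singleton K u huK
    have h8 := finrank_sup_singleton (K ⊔ Submodule.span F {u}) v hvK
    have h9 : finrank F ↥(K ⊔ Submodule.span F {u} ⊔ Submodule.span F {v}) ≤ 2 * d + 1 := by
      have h := Submodule.finrank_le (K ⊔ Submodule.span F {u} ⊔ Submodule.span F {v})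
      rw [Module.finrank_fintype_fun_eq_card] at h
      simp only [Fintype.card_sum, Fintype.card_unit, Fintype.card_fin] at h
      omega
    omega

example (hH : Cfsg.Agent.H14.Ot.StOHalf.{u, u}) : Cfsg.Agent.H14.Ot.StOInvEx.{u} := oInvEx hH

end Cfsg.Agent.H86.Ot
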