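import Mathlib
import Cfsg.Agent.H14.OtDefs
import Cfsg.Agent.H7.OmegaCenter
import Cfsg.Agent.H95.Quad

set_option autoImplicit false
set_option maxHeartbeats 1000000

/-! S5972 team project (helper14), piece OT-INVLOW: every isometry `x` of the standard odd
quadratic space with `x ^ 2 = 1` fixes a totally singular `m`-space, `m < d`. -/

namespace Cfsg.Agent.H86.Ot

open Cfsg.Agent.H45 Cfsg.Agent.H42.Spd Cfsg.Agent.H42.Ti Cfsg.Agent.H14.Ot Module Polynomial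

universe u

theorem oInvLow (hW : Cfsg.Agent.H14.Ot.StOWitt.{u, u}) : Cfsg.Agent.H14.Ot.StOInvLow.{u} := by
  intro F _ _ d m h2 hmd x hx hx2
  classical
  obtain ⟨Q, hQ⟩ : ∃ Q : QuadraticForm F (Unit ⊕ (Fin d ⊕ Fin d) → F),
      Q = Cfsg.Agent.H7.qOdd d F := ⟨_, rfl⟩
  have hQcoe : ∀ v, Q v = Cfsg.quadFormOdd d F v := by
    intro v
    rw [hQ]
    exact congrFun (Cfsg.Agent.H7.qOdd_coe d) v
  obtain ⟨B, hB⟩ : ∃ B : (Unit ⊕ (Fin d ⊕ Fin d) → F) →ₗ[F] (Unit ⊕ (Fin d ⊕ Fin d) → F) →ₗ[F] F,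
      B = QuadraticMap.polarBilin Q := ⟨_, rfl⟩
  have hBapp : ∀ u v, B u v = QuadraticMap.polar Q u v := by
    intro u v
    rw [hB]
    rfl
  have hsymm : ∀ u v, B u v = B v u := by
    intro u v
    rw [hBapp, hBapp]
    exact QuadraticMap.polar_comm Q u v
  have hBself : ∀ v, B v v = 2 * Q v := by
    intro v
    rw [hBapp, QuadraticMap.polar_self]
    simp [two_mul]
  have hnd : ∀ u, (∀ v, B u v = 0) → u = 0 := by
    intro u hu
    have h := (Cfsg.Agent.H7.qOdd_nondeg (m := d) (F := F) h2).1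
    apply h u
    intro v
    have := hu v
    rw [hB, hQ] at this
    exact this
  obtain ⟨T, hT⟩ : ∃ T : Module.End F (Unit ⊕ (Fin d ⊕ Fin d) → F),
      T = Matrix.toLin' (x : Matrix (Unit ⊕ (Fin d ⊕ Fin d)) (Unit ⊕ (Fin d ⊕ Fin d)) F) :=
    ⟨_, rfl⟩
  have hTapp : ∀ v, T v =
      Matrix.mulVec (x : Matrix (Unit ⊕ (Fin d ⊕ Fin d)) (Unit ⊕ (Fin d ⊕ Fin d)) F) v := by
    intro v
    rw [hT, Matrix.toLin'_apply]
  have hTT : ∀ v, T (T v) = v := by
    intro v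
    rw [hTapp, hTapp, Matrix.mulVec_mulVec]
    have h1 : (x : Matrix (Unit ⊕ (Fin d ⊕ Fin d)) (Unit ⊕ (Fin d ⊕ Fin d)) F) *
        (x : Matrix (Unit ⊕ (Fin d ⊕ Fin d)) (Unit ⊕ (Fin d ⊕ Fin d)) F) = 1 := by
      rw [← Units.val_mul, ← pow_two, hx2, Units.val_one]
    rw [h1, Matrix.one_mulVec]
  have hTQ : ∀ v, Q (T v) = Q v := by
    intro v
    rw [hQcoe, hQcoe, hTapp]
    exact (Cfsg.Agent.H95.mem_isometryGroup_iff _ x).1 hx v
  have hTB : ∀ u v, B (T u) (T v) = B u v := by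
    intro u v
    rw [hBapp, hBapp]
    unfold QuadraticMap.polar
    rw [← map_add, hTQ, hTQ, hTQ]
  obtain ⟨Vp, hVp⟩ : ∃ Vp : Submodule F (Unit ⊕ (Fin d ⊕ Fin d) → F),
      Vp = LinearMap.ker (T - 1) := ⟨_, rfl⟩
  obtain ⟨Vm, hVm⟩ : ∃ Vm : Submodule F (Unit ⊕ (Fin d ⊕ Fin d) → F),
      Vm = LinearMap.ker (T + 1) := ⟨_, rfl⟩
  have hmemp : ∀ v, v ∈ Vp ↔ T v = v := by
    intro v
    rw [hVp, LinearMap.mem_ker, LinearMap.sub_apply, Module.End.one_apply, sub_eq_zero]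
  have hmemm : ∀ v, v ∈ Vm ↔ T v = -v := by
    intro v
    rw [hVm, LinearMap.mem_ker, LinearMap.add_apply, Module.End.one_apply,
      add_eq_zero_iff_eq_neg]
  have h2inv : (2 : F) * (2 : F)⁻¹ = 1 := mul_inv_cancel₀ h2
  have horth : ∀ u ∈ Vp, ∀ w ∈ Vm, B u w = 0 := by
    intro u hu w hw
    have h1 := hTB u w
    rw [(hmemp u).1 hu, (hmemm w).1 hw, map_neg] at h1
    have h3 : (2 : F) * B u w = 0 := by
      rw [two_mul]
      nth_rewrite 1 [← h1]
      exact neg_add_cancel _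
    rcases mul_eq_zero.1 h3 with h | h
    · exact absurd h h2
    · exact h
  have hsplit : ∀ v, ∃ u ∈ Vp, ∃ w ∈ Vm, v = u + w := by
    intro v
    refine ⟨(2 : F)⁻¹ • (v + T v), ?_, (2 : F)⁻¹ • (v - T v), ?_, ?_⟩
    · rw [hmemp, map_smul, map_add, hTT, add_comm]
    · rw [hmemm, map_smul, map_sub, hTT, ← smul_neg, neg_sub]
    · rw [← smul_add]
      have e : v + T v + (v - T v) = (2 : F) • v := by
        rw [two_smul]
        abel
      rw [e, smul_smul, mul_comm, h2inv, one_smul]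
  have hVpnd : Vp ⊓ perp B Vp = ⊥ := by
    rw [eq_bot_iff]
    rintro y ⟨hyV, hyp⟩
    rw [Submodule.mem_bot]
    apply hnd
    intro v
    obtain ⟨u, hu, w, hw, rfl⟩ := hsplit v
    rw [map_add, hsymm y u, hyp u hu, horth y hyV w hw, add_zero]
  have hVmnd : Vm ⊓ perp B Vm = ⊥ := by
    rw [eq_bot_iff]
    rintro y ⟨hyV, hyp⟩
    rw [Submodule.mem_bot]
    apply hnd
    intro v
    obtain ⟨u, hu, w, hw, rfl⟩ := hsplit v
    rw [map_add, hsymm y w, hyp w hw, hsymm y u, horth u hu y hyV, add_zero]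
  have hdisj : Vp ⊓ Vm = ⊥ := by
    rw [eq_bot_iff]
    rintro y ⟨hyp, hym⟩
    rw [Submodule.mem_bot]
    have h1 : y = -y := by
      rw [← (hmemm y).1 hym]
      exact ((hmemp y).1 hyp).symm
    have h3 : (2 : F) • y = 0 := by
      rw [two_smul]
      nth_rewrite 1 [h1]
      exact neg_add_cancel y
    rcases smul_eq_zero.1 h3 with h | h
    · exact absurd h h2
    · exact h
  have hsup : Vp ⊔ Vm = ⊤ := by
    rw [eq_top_iff]
    intro v _
    obtain ⟨u, hu, w, hw, rfl⟩ := hsplit v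
    exact Submodule.add_mem_sup hu hw
  have hdim : finrank F Vp + finrank F Vm = 2 * d + 1 := by
    have h3 := Submodule.finrank_sup_add_finrank_inf_eq Vp Vm
    rw [hsup, hdisj, finrank_bot, finrank_top, Module.finrank_fintype_fun_eq_card] at h3
    simp only [Fintype.card_sum, Fintype.card_unit, Fintype.card_fin] at h3
    omega
  -- Witt with the degenerate case `j = 0`
  have witt0 : ∀ (K : Submodule F (Unit ⊕ (Fin d ⊕ Fin d) → F)) (j : ℕ),
      K ⊓ perp B K = ⊥ → (j = 0 ∨ 2 * j + 1 ≤ finrank F K) →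
      ∃ J : Submodule F (Unit ⊕ (Fin d ⊕ Fin d) → F), J ≤ K ∧ TI B J ∧ finrank F J = j := by
    intro K j hK hj
    rcases hj with rfl | hj
    · refine ⟨⊥, bot_le, ?_, finrank_bot F _⟩
      intro u hu v _
      rw [Submodule.mem_bot] at hu
      rw [hu, map_zero, LinearMap.zero_apply]
    · exact hW F (Unit ⊕ (Fin d ⊕ Fin d) → F) B h2 hsymm K j hK hj
  obtain ⟨mp, mm, hmsum, hmp, hmm⟩ : ∃ mp mm : ℕ, mp + mm = m ∧
      (mp = 0 ∨ 2 * mp + 1 ≤ finrank F Vp) ∧ (mm = 0 ∨ 2 * mm + 1 ≤ finrank F Vm) := by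
    refine ⟨min m ((finrank F Vp - 1) / 2), m - min m ((finrank F Vp - 1) / 2), ?_, ?_, ?_⟩
    · omega
    · omega
    · omega
  obtain ⟨Jp, hJpV, hJpTI, hJpdim⟩ := witt0 Vp mp hVpnd hmp
  obtain ⟨Jm, hJmV, hJmTI, hJmdim⟩ := witt0 Vm mm hVmnd hmm
  refine ⟨Jp ⊔ Jm, ?_, ?_, ?_⟩
  · have h3 := Submodule.finrank_sup_add_finrank_inf_eq Jp Jm
    have h4 : Jp ⊓ Jm = ⊥ := by
      rw [eq_bot_iff, ← hdisj]
      exact inf_le_inf hJpV hJmV
    rw [h4, finrank_bot] at h3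
    omega
  · intro w hw
    obtain ⟨u, hu, v, hv, rfl⟩ := Submodule.mem_sup.1 hw
    rw [← hQcoe]
    have hQu : Q u = 0 := by
      have h := hBself u
      rw [hJpTI u hu u hu] at h
      rcases mul_eq_zero.1 h.symm with h' | h'
      · exact absurd h' h2
      · exact h'
    have hQv : Q v = 0 := by
      have h := hBself v
      rw [hJmTI v hv v hv] at h
      rcases mul_eq_zero.1 h.symm with h' | h'
      · exact absurd h' h2
      · exact h'
    have hpol : QuadraticMap.polar Q u v = 0 := by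
      rw [← hBapp]
      exact horth u (hJpV hu) v (hJmV hv)
    have hadd : Q (u + v) = Q u + Q v + QuadraticMap.polar Q u v := by
      unfold QuadraticMap.polar
      ring
    rw [hadd, hQu, hQv, hpol]
    simp
  · rw [Submodule.map_le_iff_le_comap]
    intro w hw
    rw [Submodule.mem_comap, ← hT]
    obtain ⟨u, hu, v, hv, rfl⟩ := Submodule.mem_sup.1 hw
    rw [map_add, (hmemp u).1 (hJpV hu), (hmemm v).1 (hJmV hv)]
    exact Submodule.add_mem_sup hu (Jm.neg_mem hv)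

example (hW : Cfsg.Agent.H14.Ot.StOWitt.{u, u}) : Cfsg.Agent.H14.Ot.StOInvLow.{u} := oInvLow hW

end Cfsg.Agent.H86.Ot
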