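import Mathlib
import Cfsg.Prelude.Def_GeometricClasses
import Cfsg.Prelude.Def_LieClassical
import Cfsg.Agent.H95.Herm

/-!
# S5984-INVA (piece for helper99): eigenspaces of an involution, anti-isometric involutions

The statement as posted (no hypothesis on `q`) is FALSE for even `q` in odd characteristic
(`n = 1`, `F = 𝔽₉`, `q = 2`, `y = -1`): we prove it with `Odd q`, and with `card F = q ^ 2`.
-/

set_option autoImplicit false

open scoped MatrixGroups

namespace Cfsg.Agent.H86.Pair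

variable {F : Type*} [Field F]

/-- The `1`-eigenspace. -/
def Vp {n : ℕ} (y : Matrix (Fin n) (Fin n) F) : Submodule F (Fin n → F) :=
  LinearMap.ker (Matrix.toLin' (y - 1))

/-- The `-1`-eigenspace. -/
def Vm {n : ℕ} (y : Matrix (Fin n) (Fin n) F) : Submodule F (Fin n → F) :=
  LinearMap.ker (Matrix.toLin' (y + 1))

theorem Vp_def {n : ℕ} (y : Matrix (Fin n) (Fin n) F) :
    Vp y = LinearMap.ker (Matrix.toLin' (y - 1)) := rfl

theorem Vm_def {n : ℕ} (y : Matrix (Fin n) (Fin n) F) :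
    Vm y = LinearMap.ker (Matrix.toLin' (y + 1)) := rfl

theorem mem_Vp {n : ℕ} {y : Matrix (Fin n) (Fin n) F} {v : Fin n → F} :
    v ∈ Vp y ↔ y.mulVec v = v := by
  rw [Vp, LinearMap.mem_ker, Matrix.toLin'_apply, Matrix.sub_mulVec, Matrix.one_mulVec,
    sub_eq_zero]

theorem mem_Vm {n : ℕ} {y : Matrix (Fin n) (Fin n) F} {v : Fin n → F} :
    v ∈ Vm y ↔ y.mulVec v = -v := by
  rw [Vm, LinearMap.mem_ker, Matrix.toLin'_apply, Matrix.add_mulVec, Matrix.one_mulVec,
    add_eq_zero_iff_eq_neg]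

theorem Vp_inf_Vm {n : ℕ} (h2 : (2 : F) ≠ 0) (y : Matrix (Fin n) (Fin n) F) :
    Vp y ⊓ Vm y = ⊥ := by
  rw [eq_bot_iff]
  intro v hv
  obtain ⟨h1, h3⟩ := hv
  have h1' := mem_Vp.mp h1
  have h3' := mem_Vm.mp h3
  rw [h1'] at h3'
  have h4 : (2 : F) • v = 0 := by
    rw [two_smul]
    nth_rewrite 1 [h3']
    exact neg_add_cancel v
  rcases smul_eq_zero.mp h4 with h | h
  · exact absurd h h2
  · rw [Submodule.mem_bot]; exact h

theorem Vp_sup_Vm {n : ℕ} (h2 : (2 : F) ≠ 0) (y : Matrix (Fin n) (Fin n) F) (hy : y ^ 2 = 1) :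
    Vp y ⊔ Vm y = ⊤ := by
  rw [eq_top_iff]
  intro v _
  have hyy : y.mulVec (y.mulVec v) = v := by
    rw [Matrix.mulVec_mulVec, ← pow_two, hy, Matrix.one_mulVec]
  have hv : v = (2 : F)⁻¹ • (v + y.mulVec v) + (2 : F)⁻¹ • (v - y.mulVec v) := by
    rw [← smul_add]
    have : v + y.mulVec v + (v - y.mulVec v) = (2 : F) • v := by rw [two_smul]; abel
    rw [this, smul_smul, inv_mul_cancel₀ h2, one_smul]
  rw [hv]
  apply Submodule.add_mem_sup
  · apply Submodule.smul_mem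
    rw [mem_Vp, Matrix.mulVec_add, hyy, add_comm]
  · apply Submodule.smul_mem
    rw [mem_Vm, Matrix.mulVec_sub, hyy, neg_sub]

theorem map_eq_of_le_Vp {n : ℕ} (y : Matrix (Fin n) (Fin n) F) (A : Submodule F (Fin n → F))
    (hA : A ≤ Vp y) : A.map (Matrix.toLin' y) = A := by
  ext x
  rw [Submodule.mem_map]
  constructor
  · rintro ⟨a, ha, rfl⟩
    rw [Matrix.toLin'_apply, mem_Vp.mp (hA ha)]
    exact ha
  · intro hx
    exact ⟨x, hx, by rw [Matrix.toLin'_apply, mem_Vp.mp (hA hx)]⟩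

theorem map_eq_of_le_Vm {n : ℕ} (y : Matrix (Fin n) (Fin n) F) (A : Submodule F (Fin n → F))
    (hA : A ≤ Vm y) : A.map (Matrix.toLin' y) = A := by
  ext x
  rw [Submodule.mem_map]
  constructor
  · rintro ⟨a, ha, rfl⟩
    rw [Matrix.toLin'_apply, mem_Vm.mp (hA ha)]
    exact A.neg_mem ha
  · intro hx
    refine ⟨-x, A.neg_mem hx, ?_⟩
    rw [Matrix.toLin'_apply, Matrix.mulVec_neg, mem_Vm.mp (hA hx), neg_neg]

theorem hermForm_neg_left {n q : ℕ} (u v : Fin n → F) :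
    Cfsg.hermForm n F q (-u) v = - Cfsg.hermForm n F q u v := by
  have := Cfsg.Agent.H95.hermForm_smul_left (q := q) (-1 : F) u v
  rw [neg_one_smul, neg_one_mul] at this
  exact this

theorem hermForm_neg_right {n q : ℕ} (hodd : Odd q) (u v : Fin n → F) :
    Cfsg.hermForm n F q u (-v) = - Cfsg.hermForm n F q u v := by
  have := Cfsg.Agent.H95.hermForm_smul_right (q := q) (-1 : F) u v
  rw [neg_one_smul, hodd.neg_one_pow, neg_one_mul] at this
  exact this

/-- Over a field with `q ^ 2` elements of characteristic `≠ 2`, `q` is odd. -/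
theorem odd_of_card_sq [Fintype F] {q : ℕ} (hq : Fintype.card F = q ^ 2) (h2 : (2 : F) ≠ 0) :
    Odd q := by
  obtain ⟨p, hp⟩ := CharP.exists F
  haveI := hp
  obtain ⟨k, hpp, hk⟩ := FiniteField.card F p
  by_contra hodd
  rw [Nat.not_odd_iff_even] at hodd
  have h2q : 2 ∣ q ^ 2 := dvd_pow hodd.two_dvd (by norm_num)
  rw [← hq, hk] at h2q
  have h2p : 2 ∣ p := Nat.Prime.dvd_of_dvd_pow Nat.prime_two h2q
  have hp2 : p = 2 := ((Nat.prime_dvd_prime_iff_eq Nat.prime_two hpp).mp h2p).symm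
  subst hp2
  exact h2 (by exact_mod_cast CharP.cast_eq_zero F 2)

/-- INVA with `Odd q` (the posted statement without this hypothesis is false). -/
theorem exists_pair_of_anti_involution_of_odd {q n : ℕ} (hodd : Odd q) (h2 : (2 : F) ≠ 0)
    (y : Matrix (Fin n) (Fin n) F) (hy : y ^ 2 = 1)
    (hanti : ∀ u v : Fin n → F,
      Cfsg.hermForm n F q (y.mulVec u) (y.mulVec v) = - Cfsg.hermForm n F q u v) :
    ∃ A B : Submodule F (Fin n → F),
      Cfsg.Geo.IsTotallySingularFor (Cfsg.hermForm n F q) A ∧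
      Cfsg.Geo.IsTotallySingularFor (Cfsg.hermForm n F q) B ∧
      A ⊓ B = ⊥ ∧ A ⊔ B = ⊤ ∧
      A.map (Matrix.toLin' y) = A ∧ B.map (Matrix.toLin' y) = B := by
  have hzero : ∀ c : F, c = -c → c = 0 := by
    intro c hc
    have h4 : (2 : F) * c = 0 := by
      rw [two_mul]
      nth_rewrite 1 [hc]
      exact neg_add_cancel c
    rcases mul_eq_zero.mp h4 with h | h
    · exact absurd h h2
    · exact h
  refine ⟨Vp y, Vm y, ?_, ?_, Vp_inf_Vm h2 y, Vp_sup_Vm h2 y hy, map_eq_of_le_Vp y _ le_rfl,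
    map_eq_of_le_Vm y _ le_rfl⟩
  · intro u hu v hv
    have h := hanti u v
    rw [mem_Vp.mp hu, mem_Vp.mp hv] at h
    exact hzero _ h
  · intro u hu v hv
    have h := hanti u v
    rw [mem_Vm.mp hu, mem_Vm.mp hv, hermForm_neg_left, hermForm_neg_right hodd, neg_neg] at h
    exact hzero _ h

/-- INVA with `card F = q ^ 2`. -/
theorem exists_pair_of_anti_involution' [Fintype F] {q n : ℕ} (hq : Fintype.card F = q ^ 2)
    (h2 : (2 : F) ≠ 0)
    (y : Matrix (Fin n) (Fin n) F) (hy : y ^ 2 = 1)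
    (hanti : ∀ u v : Fin n → F,
      Cfsg.hermForm n F q (y.mulVec u) (y.mulVec v) = - Cfsg.hermForm n F q u v) :
    ∃ A B : Submodule F (Fin n → F),
      Cfsg.Geo.IsTotallySingularFor (Cfsg.hermForm n F q) A ∧
      Cfsg.Geo.IsTotallySingularFor (Cfsg.hermForm n F q) B ∧
      A ⊓ B = ⊥ ∧ A ⊔ B = ⊤ ∧
      A.map (Matrix.toLin' y) = A ∧ B.map (Matrix.toLin' y) = B :=
  exists_pair_of_anti_involution_of_odd (odd_of_card_sq hq h2) h2 y hy hanti

end Cfsg.Agent.H86.Pair
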