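import Mathlib
import Cfsg.Prelude.Def_GeometricClasses
import Cfsg.Prelude.Def_LieClassical
import Cfsg.Agent.H95.Herm
import Cfsg.Agent.H17.GUBlock
import Cfsg.Agent.H98.TenSQ
import Cfsg.Agent.H86.PairINVA

/-!
# S5984-INVB2 (piece for helper99): a unitary involution of determinant `1` fixes a good pair
-/

set_option autoImplicit false

open scoped MatrixGroups

namespace Cfsg.Agent.H86.Pair

variable {F : Type*} [Field F] [Fintype F]

omit [Fintype F] in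
/-- Two independent pairs inside complementary subspaces. -/
theorem inf_sup_eq_bot {n : ℕ} (P M A₁ B₁ A₂ B₂ : Submodule F (Fin n → F)) (hPM : P ⊓ M = ⊥)
    (hA₁ : A₁ ≤ P) (hB₁ : B₁ ≤ P) (hA₂ : A₂ ≤ M) (hB₂ : B₂ ≤ M)
    (h1 : A₁ ⊓ B₁ = ⊥) (h2 : A₂ ⊓ B₂ = ⊥) : (A₁ ⊔ A₂) ⊓ (B₁ ⊔ B₂) = ⊥ := by
  rw [eq_bot_iff]
  rintro x ⟨hxA, hxB⟩
  obtain ⟨a₁, ha₁, a₂, ha₂, rfl⟩ := Submodule.mem_sup.mp hxA
  obtain ⟨b₁, hb₁, b₂, hb₂, hb⟩ := Submodule.mem_sup.mp hxB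
  have hd : a₁ - b₁ = b₂ - a₂ := by
    rw [sub_eq_sub_iff_add_eq_add, add_comm b₂ b₁, hb]
  have hP : a₁ - b₁ ∈ P ⊓ M :=
    ⟨P.sub_mem (hA₁ ha₁) (hB₁ hb₁), by rw [hd]; exact M.sub_mem (hB₂ hb₂) (hA₂ ha₂)⟩
  rw [hPM, Submodule.mem_bot] at hP
  have hab1 : a₁ = b₁ := sub_eq_zero.mp hP
  have hab2 : b₂ = a₂ := by
    rw [hP] at hd
    exact sub_eq_zero.mp hd.symm
  have ha₁0 : a₁ ∈ A₁ ⊓ B₁ := ⟨ha₁, by rw [hab1]; exact hb₁⟩
  have ha₂0 : a₂ ∈ A₂ ⊓ B₂ := ⟨ha₂, by rw [← hab2]; exact hb₂⟩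
  rw [h1, Submodule.mem_bot] at ha₁0
  rw [h2, Submodule.mem_bot] at ha₂0
  rw [ha₁0, ha₂0, add_zero, Submodule.mem_bot]

/-- The sum of two mutually orthogonal totally singular subspaces is totally singular. -/
theorem ts_sup {q n : ℕ} (hq : Fintype.card F = q ^ 2) (A₁ A₂ : Submodule F (Fin n → F))
    (hs1 : Cfsg.Geo.IsTotallySingularFor (Cfsg.hermForm n F q) A₁)
    (hs2 : Cfsg.Geo.IsTotallySingularFor (Cfsg.hermForm n F q) A₂)
    (h12 : ∀ u ∈ A₁, ∀ v ∈ A₂, Cfsg.hermForm n F q u v = 0)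
    (h21 : ∀ u ∈ A₂, ∀ v ∈ A₁, Cfsg.hermForm n F q u v = 0) :
    Cfsg.Geo.IsTotallySingularFor (Cfsg.hermForm n F q) (A₁ ⊔ A₂) := by
  intro u hu v hv
  obtain ⟨a, ha, b, hb, rfl⟩ := Submodule.mem_sup.mp hu
  obtain ⟨a', ha', b', hb', rfl⟩ := Submodule.mem_sup.mp hv
  rw [Cfsg.Agent.H95.hermForm_add_left, Cfsg.Agent.H95.hermForm_add_right hq,
    Cfsg.Agent.H95.hermForm_add_right hq, hs1 a ha a' ha', h12 a ha b' hb', h21 b hb a' ha',
    hs2 b hb b' hb']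
  simp

theorem exists_pair_of_unitary_involution {q n : ℕ} (hq : Fintype.card F = q ^ 2)
    (h2 : (2 : F) ≠ 0) (he : Even n) (y : Matrix (Fin n) (Fin n) F) (hy : y ^ 2 = 1)
    (hU : ∀ u v : Fin n → F,
      Cfsg.hermForm n F q (y.mulVec u) (y.mulVec v) = Cfsg.hermForm n F q u v)
    (hdet : y.det = 1)
    (hsplit : ∀ (W : Submodule F (Fin n → F)) (k : ℕ), Module.finrank F W = 2 * k →
      (∀ u ∈ W, (∀ v ∈ W, Cfsg.hermForm n F q u v = 0) → u = 0) →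
      ∃ A B : Submodule F (Fin n → F), A ≤ W ∧ B ≤ W ∧
        Cfsg.Geo.IsTotallySingularFor (Cfsg.hermForm n F q) A ∧
        Cfsg.Geo.IsTotallySingularFor (Cfsg.hermForm n F q) B ∧
        A ⊓ B = ⊥ ∧ A ⊔ B = W) :
    ∃ A B : Submodule F (Fin n → F),
      Cfsg.Geo.IsTotallySingularFor (Cfsg.hermForm n F q) A ∧
      Cfsg.Geo.IsTotallySingularFor (Cfsg.hermForm n F q) B ∧
      A ⊓ B = ⊥ ∧ A ⊔ B = ⊤ ∧
      A.map (Matrix.toLin' y) = A ∧ B.map (Matrix.toLin' y) = B := by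
  have hodd := odd_of_card_sq hq h2
  have hinf := Vp_inf_Vm h2 y
  have hsup := Vp_sup_Vm h2 y hy
  have hzero : ∀ c : F, c = -c → c = 0 := by
    intro c hc
    have h4 : (2 : F) * c = 0 := by
      rw [two_mul]
      nth_rewrite 1 [hc]
      exact neg_add_cancel c
    rcases mul_eq_zero.mp h4 with h | h
    · exact absurd h h2
    · exact h
  -- the eigenspaces are orthogonal
  have hpm : ∀ u ∈ Vp y, ∀ v ∈ Vm y, Cfsg.hermForm n F q u v = 0 := by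
    intro u hu v hv
    have h := hU u v
    rw [mem_Vp.mp hu, mem_Vm.mp hv, hermForm_neg_right hodd] at h
    exact hzero _ h.symm
  have hmp : ∀ u ∈ Vm y, ∀ v ∈ Vp y, Cfsg.hermForm n F q u v = 0 := by
    intro u hu v hv
    have h := hU u v
    rw [mem_Vm.mp hu, mem_Vp.mp hv, hermForm_neg_left] at h
    exact hzero _ h.symm
  -- hence nondegenerate
  have hndp : ∀ u ∈ Vp y, (∀ v ∈ Vp y, Cfsg.hermForm n F q u v = 0) → u = 0 := by
    intro u hu huv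
    apply Cfsg.Agent.H17.hermForm_nd_right hq n u
    intro c
    have hc : c ∈ Vp y ⊔ Vm y := by rw [hsup]; trivial
    obtain ⟨a, ha, b, hb, rfl⟩ := Submodule.mem_sup.mp hc
    rw [Cfsg.Agent.H95.hermForm_add_right hq, huv a ha, hpm u hu b hb, add_zero]
  have hndm : ∀ u ∈ Vm y, (∀ v ∈ Vm y, Cfsg.hermForm n F q u v = 0) → u = 0 := by
    intro u hu huv
    apply Cfsg.Agent.H17.hermForm_nd_right hq n u
    intro c
    have hc : c ∈ Vp y ⊔ Vm y := by rw [hsup]; trivial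
    obtain ⟨a, ha, b, hb, rfl⟩ := Submodule.mem_sup.mp hc
    rw [Cfsg.Agent.H95.hermForm_add_right hq, huv b hb, hmp u hu a ha, add_zero]
  -- parities of the dimensions
  have hdim : Module.finrank F (Vp y) + Module.finrank F (Vm y) = n := by
    have h := Submodule.finrank_sup_add_finrank_inf_eq (Vp y) (Vm y)
    rw [hsup, hinf, finrank_top, finrank_bot, Module.finrank_fin_fun] at h
    omega
  have hevm : Even (Module.finrank F (Vm y)) := by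
    by_contra hne
    rw [Nat.not_even_iff_odd] at hne
    have hdet' := Cfsg.Agent.H98.Ten.det_involution h2 y (by rw [← pow_two]; exact hy)
    rw [hdet, ← Vm_def, hne.neg_one_pow] at hdet'
    apply h2
    have h3 : (2 : F) = 1 + 1 := by norm_num
    rw [h3]
    nth_rewrite 1 [hdet']
    exact neg_add_cancel 1
  have hevp : Even (Module.finrank F (Vp y)) := by
    rw [← hdim] at he
    exact (Nat.even_add.mp he).mpr hevm
  obtain ⟨kp, hkp⟩ := hevp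
  obtain ⟨km, hkm⟩ := hevm
  obtain ⟨Ap, Bp, hAp, hBp, hAps, hBps, hABp, hABp'⟩ := hsplit (Vp y) kp (by omega) hndp
  obtain ⟨Am, Bm, hAm, hBm, hAms, hBms, hABm, hABm'⟩ := hsplit (Vm y) km (by omega) hndm
  refine ⟨Ap ⊔ Am, Bp ⊔ Bm, ?_, ?_, ?_, ?_, ?_, ?_⟩
  · exact ts_sup hq Ap Am hAps hAms (fun u hu v hv => hpm u (hAp hu) v (hAm hv))
      (fun u hu v hv => hmp u (hAm hu) v (hAp hv))
  · exact ts_sup hq Bp Bm hBps hBms (fun u hu v hv => hpm u (hBp hu) v (hBm hv))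
      (fun u hu v hv => hmp u (hBm hu) v (hBp hv))
  · exact inf_sup_eq_bot (Vp y) (Vm y) Ap Bp Am Bm hinf hAp hBp hAm hBm hABp hABm
  · rw [sup_sup_sup_comm, hABp', hABm', hsup]
  · rw [Submodule.map_sup, map_eq_of_le_Vp y Ap hAp, map_eq_of_le_Vm y Am hAm]
  · rw [Submodule.map_sup, map_eq_of_le_Vp y Bp hBp, map_eq_of_le_Vm y Bm hBm]

end Cfsg.Agent.H86.Pair
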