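import Mathlib
import Cfsg.Prelude.Def_RootSubgroups

set_option autoImplicit false
set_option maxHeartbeats 400000

/-!
Quadratic pairs: the subgroup `E(σ)` generated by the minimal quadratic elements with the same fixed space and
commutator space as `σ`.
-/

open Cfsg

namespace Cfsg.Agent.H86

variable {k : Type*} [Field k] {M : Type*} [AddCommGroup M] [Module k M]

/-- The unit `1 + N` for a square-zero endomorphism `N`. -/
def unitOfSqZero (N : M →ₗ[k] M) (hN : N * N = 0) : LinearMap.GeneralLinearGroup k M where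
  val := 1 + N
  inv := 1 - N
  val_inv := by
    have : (1 + N) * (1 - N) = 1 - N * N := by noncomm_ring
    rw [this, hN, sub_zero]
  inv_val := by
    have : (1 - N) * (1 + N) = 1 - N * N := by noncomm_ring
    rw [this, hN, sub_zero]

lemma sqZero_range_le_ker {N : M →ₗ[k] M} (hN : N * N = 0) : LinearMap.range N ≤ LinearMap.ker N :=
  LinearMap.range_le_ker_iff.2 hN

lemma mul_eq_zero_of_range_le_ker {N N' : M →ₗ[k] M} (h : LinearMap.range N' ≤ LinearMap.ker N) :
    N * N' = 0 :=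
  LinearMap.range_le_ker_iff.1 h

section

variable {G : Subgroup (LinearMap.GeneralLinearGroup k M)} {σ : LinearMap.GeneralLinearGroup k M}

/-- Two members of `E_σ` have `(τ - 1)(τ' - 1) = 0`. -/
lemma sameAction_mul_zero (hσ : σ ∈ minimalQuadraticElements G)
    {τ τ' : LinearMap.GeneralLinearGroup k M} (hτ : τ ∈ sameActionClass G σ)
    (hτ' : τ' ∈ sameActionClass G σ) :
    ((τ : M →ₗ[k] M) - 1) * ((τ' : M →ₗ[k] M) - 1) = 0 := by
  apply mul_eq_zero_of_range_le_ker
  rw [hτ'.2.2, hτ.2.1]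
  exact sqZero_range_le_ker hσ.1.2.1.1

lemma sameAction_val_mul (hσ : σ ∈ minimalQuadraticElements G)
    {τ τ' : LinearMap.GeneralLinearGroup k M} (hτ : τ ∈ sameActionClass G σ)
    (hτ' : τ' ∈ sameActionClass G σ) :
    ((τ * τ' : LinearMap.GeneralLinearGroup k M) : M →ₗ[k] M) - 1
      = ((τ : M →ₗ[k] M) - 1) + ((τ' : M →ₗ[k] M) - 1) := by
  have h := sameAction_mul_zero hσ hτ hτ'
  rw [Units.val_mul]
  have e : (τ : M →ₗ[k] M) * (τ' : M →ₗ[k] M) - 1 = ((τ : M →ₗ[k] M) - 1) + ((τ' : M →ₗ[k] M) - 1)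
      + ((τ : M →ₗ[k] M) - 1) * ((τ' : M →ₗ[k] M) - 1) := by noncomm_ring
  rw [e, h, add_zero]

lemma sameAction_comm (hσ : σ ∈ minimalQuadraticElements G)
    {τ τ' : LinearMap.GeneralLinearGroup k M} (hτ : τ ∈ sameActionClass G σ)
    (hτ' : τ' ∈ sameActionClass G σ) : τ * τ' = τ' * τ := by
  apply Units.ext
  have h1 := sameAction_val_mul hσ hτ hτ'
  have h2 := sameAction_val_mul hσ hτ' hτ
  have h3 : ((τ * τ' : LinearMap.GeneralLinearGroup k M) : M →ₗ[k] M) - 1
      = ((τ' * τ : LinearMap.GeneralLinearGroup k M) : M →ₗ[k] M) - 1 := by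
    rw [h1, h2, add_comm]
  exact sub_left_injective h3

lemma sameAction_mul_mem [FiniteDimensional k M] (hσ : σ ∈ minimalQuadraticElements G)
    {τ τ' : LinearMap.GeneralLinearGroup k M} (hτ : τ ∈ sameActionClass G σ)
    (hτ' : τ' ∈ sameActionClass G σ) : τ * τ' ∈ sameActionClass G σ ∪ {1} := by
  have hval := sameAction_val_mul hσ hτ hτ'
  by_cases h0 : ((τ : M →ₗ[k] M) - 1) + ((τ' : M →ₗ[k] M) - 1) = 0
  · right
    rw [Set.mem_singleton_iff]
    apply Units.ext
    rw [h0, sub_eq_zero] at hval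
    rw [hval]; rfl
  · left
    have hNN := sameAction_mul_zero hσ hτ hτ
    have hNN' := sameAction_mul_zero hσ hτ hτ'
    have hN'N := sameAction_mul_zero hσ hτ' hτ
    have hN'N' := sameAction_mul_zero hσ hτ' hτ'
    have hG : τ * τ' ∈ G := G.mul_mem hτ.1.1.1 hτ'.1.1.1
    have hquad : IsQuadraticOn (τ * τ') := by
      refine ⟨?_, ?_⟩
      · rw [hval, mul_add, add_mul, add_mul, hNN, hNN', hN'N, hN'N']
        simp
      · rw [hval]; exact h0
    have hscal : scalarFamily (τ * τ') ⊆ (G : Set (LinearMap.GeneralLinearGroup k M)) := by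
      rintro υ ⟨c, hc⟩
      have hcN : (c • ((τ : M →ₗ[k] M) - 1)) * (c • ((τ : M →ₗ[k] M) - 1)) = 0 := by
        rw [smul_mul_smul_comm, hNN, smul_zero]
      have hcN' : (c • ((τ' : M →ₗ[k] M) - 1)) * (c • ((τ' : M →ₗ[k] M) - 1)) = 0 := by
        rw [smul_mul_smul_comm, hN'N', smul_zero]
      have hu : unitOfSqZero _ hcN ∈ G := hτ.1.1.2.2 ⟨c, rfl⟩
      have hu' : unitOfSqZero _ hcN' ∈ G := hτ'.1.1.2.2 ⟨c, rfl⟩
      have hprod : υ = unitOfSqZero _ hcN * unitOfSqZero _ hcN' := by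
        apply Units.ext
        rw [hc, hval, Units.val_mul]
        show _ = (1 + c • ((τ : M →ₗ[k] M) - 1)) * (1 + c • ((τ' : M →ₗ[k] M) - 1))
        have e : (1 + c • ((τ : M →ₗ[k] M) - 1)) * (1 + c • ((τ' : M →ₗ[k] M) - 1))
            = 1 + (c • ((τ : M →ₗ[k] M) - 1) + c • ((τ' : M →ₗ[k] M) - 1))
              + (c • ((τ : M →ₗ[k] M) - 1)) * (c • ((τ' : M →ₗ[k] M) - 1)) := by
          generalize c • ((τ : M →ₗ[k] M) - 1) = X
          generalize c • ((τ' : M →ₗ[k] M) - 1) = Y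
          noncomm_ring
        rw [e, smul_mul_smul_comm, hNN', smul_zero, add_zero, smul_add]
      rw [hprod]
      exact G.mul_mem hu hu'
    have hQ : τ * τ' ∈ quadraticElements G := ⟨hG, hquad, hscal⟩
    have hrle : LinearMap.range (((τ * τ' : LinearMap.GeneralLinearGroup k M) : M →ₗ[k] M) - 1)
        ≤ LinearMap.range ((σ : M →ₗ[k] M) - 1) := by
      rw [hval]
      refine (LinearMap.range_add_le _ _).trans ?_
      rw [hτ.2.2, hτ'.2.2, sup_idem]
    have hrank : commutatorRank (τ * τ') ≤ commutatorRank σ := Submodule.finrank_mono hrle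
    have hrange : LinearMap.range (((τ * τ' : LinearMap.GeneralLinearGroup k M) : M →ₗ[k] M) - 1)
        = LinearMap.range ((σ : M →ₗ[k] M) - 1) :=
      Submodule.eq_of_le_of_finrank_le hrle (hσ.2 _ hQ)
    have hkle : LinearMap.ker ((σ : M →ₗ[k] M) - 1)
        ≤ LinearMap.ker (((τ * τ' : LinearMap.GeneralLinearGroup k M) : M →ₗ[k] M) - 1) := by
      intro m hm
      have h1 : m ∈ LinearMap.ker ((τ : M →ₗ[k] M) - 1) := by rw [hτ.2.1]; exact hm
      have h2 : m ∈ LinearMap.ker ((τ' : M →ₗ[k] M) - 1) := by rw [hτ'.2.1]; exact hm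
      rw [LinearMap.mem_ker] at h1 h2 ⊢
      rw [hval, LinearMap.add_apply, h1, h2, add_zero]
    have hker : LinearMap.ker (((τ * τ' : LinearMap.GeneralLinearGroup k M) : M →ₗ[k] M) - 1)
        = LinearMap.ker ((σ : M →ₗ[k] M) - 1) := by
      symm
      apply Submodule.eq_of_le_of_finrank_eq hkle
      have e1 := LinearMap.finrank_range_add_finrank_ker
        (((τ * τ' : LinearMap.GeneralLinearGroup k M) : M →ₗ[k] M) - 1)
      have e2 := LinearMap.finrank_range_add_finrank_ker ((σ : M →ₗ[k] M) - 1)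
      rw [hrange] at e1
      omega
    refine ⟨⟨hQ, fun τ'' hτ'' => hrank.trans (hσ.2 τ'' hτ'')⟩, hker, hrange⟩

lemma sameAction_inv_mem (hσ : σ ∈ minimalQuadraticElements G)
    {τ : LinearMap.GeneralLinearGroup k M} (hτ : τ ∈ sameActionClass G σ) :
    τ⁻¹ ∈ sameActionClass G σ := by
  have hNN := sameAction_mul_zero hσ hτ hτ
  have hinv : ((τ⁻¹ : LinearMap.GeneralLinearGroup k M) : M →ₗ[k] M) = 1 - ((τ : M →ₗ[k] M) - 1) := by
    apply Units.inv_eq_of_mul_eq_one_right
    have e : (τ : M →ₗ[k] M) * (1 - ((τ : M →ₗ[k] M) - 1))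
        = 1 - ((τ : M →ₗ[k] M) - 1) * ((τ : M →ₗ[k] M) - 1) := by noncomm_ring
    rw [e, hNN, sub_zero]
  have hval : ((τ⁻¹ : LinearMap.GeneralLinearGroup k M) : M →ₗ[k] M) - 1 = -((τ : M →ₗ[k] M) - 1) := by
    rw [hinv]; abel
  have hrange : LinearMap.range (((τ⁻¹ : LinearMap.GeneralLinearGroup k M) : M →ₗ[k] M) - 1)
      = LinearMap.range ((τ : M →ₗ[k] M) - 1) := by
    rw [hval, LinearMap.range_neg]
  have hker : LinearMap.ker (((τ⁻¹ : LinearMap.GeneralLinearGroup k M) : M →ₗ[k] M) - 1)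
      = LinearMap.ker ((τ : M →ₗ[k] M) - 1) := by
    rw [hval, LinearMap.ker_neg]
  have hrank : commutatorRank τ⁻¹ = commutatorRank τ := by
    unfold commutatorRank
    rw [hrange]
  refine ⟨⟨⟨G.inv_mem hτ.1.1.1, ⟨?_, ?_⟩, ?_⟩, fun τ'' hτ'' => ?_⟩, hker.trans hτ.2.1, hrange.trans hτ.2.2⟩
  · rw [hval, neg_mul_neg, hNN]
  · rw [hval, neg_ne_zero]
    exact hτ.1.1.2.1.2
  · rintro υ ⟨c, hc⟩
    apply hτ.1.1.2.2
    refine ⟨-c, ?_⟩
    rw [hc, hval, smul_neg, neg_smul]
  · rw [hrank]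
    exact hτ.1.2 τ'' hτ''

/-- `E_σ ∪ {1}` as a subgroup. -/
def sameActionSub [FiniteDimensional k M] (G : Subgroup (LinearMap.GeneralLinearGroup k M))
    (σ : LinearMap.GeneralLinearGroup k M) (hσ : σ ∈ minimalQuadraticElements G) :
    Subgroup (LinearMap.GeneralLinearGroup k M) where
  carrier := sameActionClass G σ ∪ {1}
  mul_mem' := by
    rintro x y (hx | hx) (hy | hy)
    · exact sameAction_mul_mem hσ hx hy
    · rw [Set.mem_singleton_iff] at hy
      rw [hy, mul_one]; exact Or.inl hx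
    · rw [Set.mem_singleton_iff] at hx
      rw [hx, one_mul]; exact Or.inl hy
    · rw [Set.mem_singleton_iff] at hx hy
      rw [hx, hy, mul_one]; exact Or.inr rfl
  one_mem' := Or.inr rfl
  inv_mem' := by
    rintro x (hx | hx)
    · exact Or.inl (sameAction_inv_mem hσ hx)
    · rw [Set.mem_singleton_iff] at hx
      rw [hx, inv_one]; exact Or.inr rfl

theorem coe_sameActionSubgroup [FiniteDimensional k M] (hσ : σ ∈ minimalQuadraticElements G) :
    (sameActionSubgroup G σ : Set (LinearMap.GeneralLinearGroup k M)) = sameActionClass G σ ∪ {1} := by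
  apply Set.Subset.antisymm
  · have h : sameActionSubgroup G σ ≤ sameActionSub G σ hσ := by
      unfold sameActionSubgroup
      rw [Subgroup.closure_le]
      exact Set.subset_union_left
    exact h
  · rintro x (hx | hx)
    · exact Subgroup.subset_closure hx
    · rw [Set.mem_singleton_iff] at hx
      rw [hx]
      exact (sameActionSubgroup G σ).one_mem

theorem sameActionSubgroup_comm [FiniteDimensional k M] (hσ : σ ∈ minimalQuadraticElements G) :
    IsMulCommutative (sameActionSubgroup G σ) := by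
  refine ⟨⟨fun x y => ?_⟩⟩
  obtain ⟨x, hx⟩ := x
  obtain ⟨y, hy⟩ := y
  apply Subtype.ext
  show x * y = y * x
  have hx' : x ∈ sameActionClass G σ ∪ {1} := by rw [← coe_sameActionSubgroup hσ]; exact hx
  have hy' : y ∈ sameActionClass G σ ∪ {1} := by rw [← coe_sameActionSubgroup hσ]; exact hy
  rcases hx' with hx' | hx'
  · rcases hy' with hy' | hy'
    · exact sameAction_comm hσ hx' hy'
    · rw [Set.mem_singleton_iff] at hy'
      rw [hy', mul_one, one_mul]
  · rw [Set.mem_singleton_iff] at hx'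
    rw [hx', mul_one, one_mul]

theorem sameActionSubgroup_pow [FiniteDimensional k M] (hσ : σ ∈ minimalQuadraticElements G)
    (p : ℕ) (hp : ringChar k = p) : ∀ x ∈ sameActionSubgroup G σ, x ^ p = 1 := by
  intro x hx
  have hx' : x ∈ sameActionClass G σ ∪ {1} := by rw [← coe_sameActionSubgroup hσ]; exact hx
  rcases hx' with hx' | hx'
  · have hNN := sameAction_mul_zero hσ hx' hx'
    have key : ∀ n : ℕ, (x : M →ₗ[k] M) ^ n = 1 + (n : k) • ((x : M →ₗ[k] M) - 1) := by
      intro n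
      induction n with
      | zero => simp
      | succ n ih =>
        rw [pow_succ, ih]
        have e : (1 + (n : k) • ((x : M →ₗ[k] M) - 1)) * (x : M →ₗ[k] M)
            = 1 + ((n : k) • ((x : M →ₗ[k] M) - 1) + ((x : M →ₗ[k] M) - 1))
              + (n : k) • (((x : M →ₗ[k] M) - 1) * ((x : M →ₗ[k] M) - 1)) := by
          rw [← smul_mul_assoc]
          have e2 : (x : M →ₗ[k] M) = 1 + ((x : M →ₗ[k] M) - 1) := by abel
          generalize ((x : M →ₗ[k] M) - 1) = A at e2 ⊢
          rw [e2]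
          generalize (n : k) • A = X
          noncomm_ring
        rw [e, hNN, smul_zero, add_zero, Nat.cast_succ, add_smul, one_smul]
    apply Units.ext
    rw [Units.val_pow_eq_pow_val, key]
    have : ((p : ℕ) : k) = 0 := by
      have := CharP.cast_eq_zero k (ringChar k)
      rwa [hp] at this
    rw [this, zero_smul, add_zero]
    rfl
  · rw [Set.mem_singleton_iff] at hx'
    rw [hx', one_pow]

end

end Cfsg.Agent.H86
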