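import Mathlib
import Cfsg.Prelude.Def_RootSubgroups

set_option autoImplicit false
set_option maxHeartbeats 400000

/-!
Images of rank one pairs and of sets of abstract root subgroups under homomorphisms.
-/

open Cfsg

namespace Cfsg.Agent.H86

variable {G H : Type*} [Group G] [Group H]

lemma mem_conjBy_iff {A : Subgroup G} {g x : G} : x ∈ conjBy A g ↔ ∃ y ∈ A, g * y * g⁻¹ = x := by
  unfold conjBy
  rw [Subgroup.mem_map]
  rfl

lemma conjBy_map (f : G →* H) (A : Subgroup G) (g : G) : (conjBy A g).map f = conjBy (A.map f) (f g) := by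
  ext x
  rw [mem_conjBy_iff, Subgroup.mem_map]
  constructor
  · rintro ⟨y, hy, rfl⟩
    obtain ⟨z, hz, rfl⟩ := mem_conjBy_iff.1 hy
    exact ⟨f z, Subgroup.mem_map_of_mem f hz, by rw [map_mul, map_mul, map_inv]⟩
  · rintro ⟨y, hy, rfl⟩
    obtain ⟨z, hz, rfl⟩ := Subgroup.mem_map.1 hy
    exact ⟨g * z * g⁻¹, mem_conjBy_iff.2 ⟨z, hz, rfl⟩, by rw [map_mul, map_mul, map_inv]⟩

lemma conjBy_one' (A : Subgroup G) : conjBy A 1 = A := by
  ext x
  rw [mem_conjBy_iff]
  constructor
  · rintro ⟨y, hy, rfl⟩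
    simpa using hy
  · intro hx
    exact ⟨x, hx, by simp⟩

lemma conjBy_conjBy (A : Subgroup G) (g h : G) : conjBy (conjBy A g) h = conjBy A (h * g) := by
  ext x
  rw [mem_conjBy_iff, mem_conjBy_iff]
  constructor
  · rintro ⟨y, hy, rfl⟩
    obtain ⟨z, hz, rfl⟩ := mem_conjBy_iff.1 hy
    exact ⟨z, hz, by group⟩
  · rintro ⟨z, hz, rfl⟩
    exact ⟨g * z * g⁻¹, mem_conjBy_iff.2 ⟨z, hz, rfl⟩, by group⟩

lemma mul_comm_of_isMulCommutative {A : Subgroup G} (hA : IsMulCommutative A) {x y : G} (hx : x ∈ A)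
    (hy : y ∈ A) : x * y = y * x :=
  congrArg Subtype.val (hA.is_comm.comm (⟨x, hx⟩ : A) ⟨y, hy⟩)

lemma conjBy_self_of_mem {A : Subgroup G} (hA : IsMulCommutative A) {a : G} (ha : a ∈ A) : conjBy A a = A := by
  ext x
  rw [mem_conjBy_iff]
  constructor
  · rintro ⟨y, hy, rfl⟩
    rw [mul_comm_of_isMulCommutative hA ha hy, mul_inv_cancel_right]
    exact hy
  · intro hx
    exact ⟨x, hx, by rw [mul_comm_of_isMulCommutative hA ha hx, mul_inv_cancel_right]⟩

lemma isMulCommutative_map (f : G →* H) {A : Subgroup G} (hA : IsMulCommutative A) :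
    IsMulCommutative (A.map f) := by
  refine ⟨⟨fun x y => ?_⟩⟩
  obtain ⟨x, hx⟩ := x
  obtain ⟨y, hy⟩ := y
  obtain ⟨a, ha, rfl⟩ := Subgroup.mem_map.1 hx
  obtain ⟨b, hb, rfl⟩ := Subgroup.mem_map.1 hy
  apply Subtype.ext
  show f a * f b = f b * f a
  rw [← map_mul, ← map_mul, mul_comm_of_isMulCommutative hA ha hb]

lemma rankOneCondition_map (f : G →* H) {A B : Subgroup G} (hAc : IsMulCommutative A)
    (h : RankOneCondition A B) (hne : A.map f ≠ B.map f) : RankOneCondition (A.map f) (B.map f) := by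
  intro a' ha' ha1
  obtain ⟨a, ha, rfl⟩ := Subgroup.mem_map.1 ha'
  have ha1' : a ≠ 1 := fun h => ha1 (by rw [h, map_one])
  obtain ⟨b, hb, hb1, hconj⟩ := h a ha ha1'
  have hconj' : conjBy (A.map f) (f b)⁻¹ = conjBy (B.map f) (f a)⁻¹ := by
    rw [← map_inv, ← map_inv, ← conjBy_map, ← conjBy_map, hconj]
  refine ⟨f b, Subgroup.mem_map_of_mem f hb, ?_, hconj'⟩
  intro hfb
  apply hne
  rw [hfb, inv_one, conjBy_one'] at hconj'
  have h2 : conjBy (A.map f) (f a) = conjBy (conjBy (B.map f) (f a)⁻¹) (f a) :=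
    congrArg (fun X => conjBy X (f a)) hconj'
  rw [conjBy_conjBy, mul_inv_cancel, conjBy_one',
    conjBy_self_of_mem (isMulCommutative_map f hAc) (Subgroup.mem_map_of_mem f ha)] at h2
  exact h2

/-- The image of a rank one pair of abelian subgroups is a rank one pair, unless the two images coincide. -/
lemma isRankOnePair_map (f : G →* H) {A B : Subgroup G} (hAc : IsMulCommutative A)
    (hBc : IsMulCommutative B) (h : IsRankOnePair A B) :
    A.map f = B.map f ∨ IsRankOnePair (A.map f) (B.map f) := by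
  by_cases hne : A.map f = B.map f
  · exact Or.inl hne
  · right
    have hnA : Group.IsNilpotent A := h.nilpotent_left
    have hnB : Group.IsNilpotent B := h.nilpotent_right
    exact ⟨hne, Group.nilpotent_of_surjective (f.subgroupMap A) (f.subgroupMap_surjective A),
      Group.nilpotent_of_surjective (f.subgroupMap B) (f.subgroupMap_surjective B),
      rankOneCondition_map f hAc h.cond_left hne,
      rankOneCondition_map f hBc h.cond_right (Ne.symm hne)⟩

/-- If one member of a rank one pair is killed by `f`, so is the other. -/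
lemma map_eq_bot_of_isRankOnePair (f : G →* H) {A B : Subgroup G} (h : IsRankOnePair A B) (hB : B ≠ ⊥)
    (hA : A.map f = ⊥) : B.map f = ⊥ := by
  obtain ⟨y, hy1⟩ := (Subgroup.ne_bot_iff_exists_ne_one).1 hB
  obtain ⟨x, hx, -, hconj⟩ := h.cond_right (y : G) y.2 (fun h => hy1 (Subtype.ext h))
  have hconj' : conjBy (B.map f) (f x)⁻¹ = conjBy (A.map f) (f (y : G))⁻¹ := by
    rw [← map_inv, ← map_inv, ← conjBy_map, ← conjBy_map, hconj]
  have hfx : f x = 1 := by
    have := Subgroup.mem_map_of_mem f hx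
    rwa [hA, Subgroup.mem_bot] at this
  rw [hfx, inv_one, conjBy_one', hA] at hconj'
  rw [hconj']
  unfold conjBy
  exact Subgroup.map_bot _

/-- The commutator case is preserved by homomorphisms. -/
lemma rootCommutatorCase_map (f : G →* H) {S : Set (Subgroup G)} {A B : Subgroup G}
    (h : RootCommutatorCase S A B) :
    RootCommutatorCase ((fun A : Subgroup G => A.map f) '' S) (A.map f) (B.map f) := by
  obtain ⟨h1, h2, h3, h4⟩ := h
  refine ⟨⟨⁅A, B⁆, h1, Subgroup.map_commutator A B f⟩, ?_, ?_, ?_⟩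
  · intro c hc x hx
    rw [← Subgroup.map_commutator] at hc
    obtain ⟨c₀, hc₀, rfl⟩ := Subgroup.mem_map.1 hc
    rw [← Subgroup.map_sup] at hx
    obtain ⟨x₀, hx₀, rfl⟩ := Subgroup.mem_map.1 hx
    rw [← map_mul, ← map_mul, h2 c₀ hc₀ x₀ hx₀]
  · intro a' ha' ha1
    obtain ⟨a, ha, rfl⟩ := Subgroup.mem_map.1 ha'
    have ha1' : a ≠ 1 := fun h => ha1 (by rw [h, map_one])
    rw [← Subgroup.map_commutator, ← h3 a ha ha1', MonoidHom.map_closure, Subgroup.coe_map,
      Set.image_image, Set.image_image]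
    congr 1
    apply Set.image_congr
    intro b _
    simp only [map_mul, map_inv]
  · intro b' hb' hb1
    obtain ⟨b, hb, rfl⟩ := Subgroup.mem_map.1 hb'
    have hb1' : b ≠ 1 := fun h => hb1 (by rw [h, map_one])
    rw [← Subgroup.map_commutator, ← h4 b hb hb1', MonoidHom.map_closure, Subgroup.coe_map,
      Set.image_image, Set.image_image]
    congr 1
    apply Set.image_congr
    intro a _
    simp only [map_mul, map_inv]

/-- The image of a set of abstract root subgroups under a surjective homomorphism, none of whose members is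
killed, is a set of abstract root subgroups. -/
theorem isRootSubgroupSet_map {S : Set (Subgroup G)} (hS : IsRootSubgroupSet S) (f : G →* H)
    (hf : Function.Surjective f) (hne : ∀ A ∈ S, A.map f ≠ ⊥) :
    IsRootSubgroupSet ((fun A : Subgroup G => A.map f) '' S) := by
  refine ⟨?_, ?_, ?_, ?_, ?_⟩
  · rintro _ ⟨A, hA, rfl⟩
    exact isMulCommutative_map f (hS.commutative A hA)
  · rintro _ ⟨A, hA, rfl⟩
    exact hne A hA
  · rw [iSup_image]
    have h1 : (⨆ A ∈ S, A).map f = ⨆ A ∈ S, A.map f := by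
      rw [Subgroup.map_iSup]
      congr 1
      funext A
      rw [Subgroup.map_iSup]
    rw [← h1, hS.generates]
    exact Subgroup.map_top_of_surjective f hf
  · rintro _ ⟨A, hA, rfl⟩ h
    obtain ⟨g, rfl⟩ := hf h
    exact ⟨conjBy A g, hS.conj_mem A hA g, conjBy_map f A g⟩
  · rintro _ ⟨A, hA, rfl⟩ _ ⟨B, hB, rfl⟩
    rcases hS.pair A hA B hB with h | h | h
    · left
      rw [← Subgroup.map_commutator, h, Subgroup.map_bot]
    · rcases isRankOnePair_map f (hS.commutative A hA) (hS.commutative B hB) h with h' | h'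
      · left
        show ⁅A.map f, B.map f⁆ = ⊥
        rw [← h', Subgroup.commutator_eq_bot_iff_le_centralizer]
        intro x hx
        rw [Subgroup.mem_centralizer_iff]
        intro y hy
        exact mul_comm_of_isMulCommutative (isMulCommutative_map f (hS.commutative A hA)) hy hx
      · exact Or.inr (Or.inl h')
    · exact Or.inr (Or.inr (rootCommutatorCase_map f h))

/-- Connectedness of the rank one graph passes to images. -/
theorem isConnectedFamily_map {S : Set (Subgroup G)} (hS : IsRootSubgroupSet S)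
    (hc : IsConnectedFamily (FAdj S) S) (f : G →* H) :
    IsConnectedFamily (FAdj ((fun A : Subgroup G => A.map f) '' S)) ((fun A : Subgroup G => A.map f) '' S) := by
  rintro _ ⟨A, hA, rfl⟩ _ ⟨B, hB, rfl⟩
  have h := hc A hA B hB
  induction h with
  | refl => exact Relation.ReflTransGen.refl
  | tail _ hXY ih =>
    obtain ⟨hX, hY, hpair⟩ := hXY
    rcases isRankOnePair_map f (hS.commutative _ hX) (hS.commutative _ hY) hpair with h' | h'
    · show Relation.ReflTransGen _ _ ((fun A : Subgroup G => A.map f) _)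
      simp only
      rw [← h']
      exact ih hX
    · exact (ih hX).tail ⟨⟨_, hX, rfl⟩, ⟨_, hY, rfl⟩, h'⟩

/-- If some member of a connected set of abstract root subgroups is killed by the surjection `f`, the target is
trivial. -/
theorem top_eq_bot_of_map_eq_bot {S : Set (Subgroup G)} (hS : IsRootSubgroupSet S)
    (hc : IsConnectedFamily (FAdj S) S) (f : G →* H) (hf : Function.Surjective f) {A : Subgroup G}
    (hA : A ∈ S) (hAbot : A.map f = ⊥) : (⊤ : Subgroup H) = ⊥ := by
  have hall : ∀ B ∈ S, B.map f = ⊥ := by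
    intro B hB
    have h := hc A hA B hB
    induction h with
    | refl => exact hAbot
    | tail _ hXY ih =>
      obtain ⟨hX, hY, hpair⟩ := hXY
      exact map_eq_bot_of_isRankOnePair f hpair (hS.ne_bot _ hY) (ih hX)
  have h1 : (⨆ A ∈ S, A).map f = ⨆ A ∈ S, A.map f := by
    rw [Subgroup.map_iSup]
    congr 1
    funext A
    rw [Subgroup.map_iSup]
  rw [← Subgroup.map_top_of_surjective f hf, ← hS.generates, h1, eq_bot_iff]
  refine iSup_le fun B => iSup_le fun hB => ?_
  rw [hall B hB]

end Cfsg.Agent.H86
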