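import Mathlib
import Cfsg.Agent.Lib.Helper96.TWDefs

set_option autoImplicit false

/-! S5707 team project (helper96), piece GAMMA: a sum of two local Clifford operators of total
square one normalizes `Lsp`. -/

namespace Cfsg.Agent.H86.TW

open Cfsg Cfsg.Geo Matrix
open Cfsg.Agent.Lib.Helper96.TW

universe u

/-- The conjugation identity behind GAMMA, in an abstract algebra of characteristic two. -/
lemma gamma_core {F : Type u} [Field F] {R : Type*} [Ring R] [Algebra F R] (two : (2 : F) = 0)
    (a a' b : R) (s s' r : F)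
    (h1 : a' * a = a * a') (h2 : a' * b = b * a') (ha : a * a = s • (1 : R))
    (ha' : a' * a' = s' • (1 : R)) (hr : a * b + b * a = r • (1 : R)) (hss : s + s' = 1) :
    (a + a') * b * (a + a') = b + r • (a + a') := by
  have hab : a * b = r • (1 : R) - b * a := eq_sub_of_add_eq hr
  have e1 : a * b * a = r • a - s • b := by
    rw [hab, sub_mul, smul_mul_assoc, one_mul, mul_assoc, ha, mul_smul_comm, mul_one]
  have e2 : a * b * a' + a' * b * a = r • a' := by
    rw [h2, mul_assoc b a' a, h1, ← mul_assoc, ← add_mul, hr, smul_mul_assoc, one_mul]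
  have e3 : a' * b * a' = s' • b := by
    rw [h2, mul_assoc, ha', mul_smul_comm, mul_one]
  have hs2 : s + s = 0 := by rw [← two_mul, two, zero_mul]
  have hs' : s' = 1 + s := by linear_combination hss - hs2
  calc (a + a') * b * (a + a')
      = a * b * a + (a * b * a' + a' * b * a) + a' * b * a' := by noncomm_ring
    _ = r • a - s • b + r • a' + s' • b := by rw [e1, e2, e3]
    _ = b + r • (a + a') := by
      rw [hs', add_smul, one_smul, smul_add]
      abel

theorem gamma : Cfsg.Agent.Lib.Helper96.TW.StGamma.{u} := by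
  intro hAlg hCliff F _ k t two hk i j hij A hA A' hA' hsq g hg
  obtain ⟨hloc1, hlocmul, hlocadd, hlocsmul, hloccomm, -⟩ := hAlg F k t
  obtain ⟨h1C, h0C, haddC, hanti, -⟩ := hCliff F k two hk
  obtain ⟨s, hs⟩ := hA.2.2
  obtain ⟨s', hs'⟩ := hA'.2.2
  -- `s + s' = 1`
  have hkpos : 0 < k := by
    rcases hk with rfl | rfl <;> norm_num
  have hss : s + s' = 1 := by
    rw [hs, hs', ← add_smul] at hsq
    have := congrFun (congrFun hsq ⟨0, hkpos⟩) ⟨0, hkpos⟩
    simpa using this
  have hss' : s' + s = 1 := by rw [add_comm]; exact hss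
  -- squares of the local operators
  have hsqi : (loc i A : Matrix (Idx k t) (Idx k t) F) * loc i A =
      s • (1 : Matrix (Idx k t) (Idx k t) F) := by
    rw [← hlocmul, hs, hlocsmul, hloc1]
  have hsqj : (loc j A' : Matrix (Idx k t) (Idx k t) F) * loc j A' =
      s' • (1 : Matrix (Idx k t) (Idx k t) F) := by
    rw [← hlocmul, hs', hlocsmul, hloc1]
  have hcomm : (loc j A' : Matrix (Idx k t) (Idx k t) F) * loc i A = loc i A * loc j A' :=
    hloccomm j i A' A hij.symm
  -- `g * g = 1`
  have hGG : (g : Matrix (Idx k t) (Idx k t) F) * (g : Matrix (Idx k t) (Idx k t) F) = 1 := by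
    have h := gamma_core two (loc i A : Matrix (Idx k t) (Idx k t) F) (loc j A')
      (1 : Matrix (Idx k t) (Idx k t) F) s s' 0 hcomm (by rw [mul_one, one_mul]) hsqi hsqj
      (by
        rw [mul_one, one_mul, zero_smul, ← two_smul F, two, zero_smul]) hss
    rw [mul_one, zero_smul, add_zero] at h
    rw [hg]
    exact h
  have hinv : ((g⁻¹ : GL (Idx k t) F) : Matrix (Idx k t) (Idx k t) F) =
      (g : Matrix (Idx k t) (Idx k t) F) := Units.inv_eq_of_mul_eq_one_right hGG
  have hiL : ∀ (l : Fin t) (B : Matrix (Fin k) (Fin k) F), B ∈ C F k →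
      (loc l B : Matrix (Idx k t) (Idx k t) F) ∈ Lsp F k t :=
    fun l B hB => Submodule.subset_span ⟨l, B, hB, rfl⟩
  have hGL : (g : Matrix (Idx k t) (Idx k t) F) ∈ Lsp F k t := by
    rw [hg]
    exact Submodule.add_mem _ (hiL i A hA) (hiL j A' hA')
  -- conjugation preserves `Lsp`
  have hconj : ∀ M ∈ Lsp F k t, (g : Matrix (Idx k t) (Idx k t) F) * M *
      (g : Matrix (Idx k t) (Idx k t) F) ∈ Lsp F k t := by
    intro M hM
    induction hM using Submodule.span_induction with
    | mem M hM =>
      obtain ⟨l, B, hB, rfl⟩ := hM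
      by_cases hli : l = i
      · subst hli
        obtain ⟨r, hr⟩ := hanti A hA B hB
        have hr' : (loc l A : Matrix (Idx k t) (Idx k t) F) * loc l B + loc l B * loc l A =
            r • (1 : Matrix (Idx k t) (Idx k t) F) := by
          rw [← hlocmul, ← hlocmul, ← hlocadd, hr, hlocsmul, hloc1]
        have h := gamma_core two (loc l A : Matrix (Idx k t) (Idx k t) F) (loc j A')
          (loc l B) s s' r hcomm (hloccomm j l A' B hij.symm) hsqi hsqj hr' hss
        rw [← hg] at h
        rw [h]
        exact Submodule.add_mem _ (hiL l B hB) (Submodule.smul_mem _ _ hGL)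
      · by_cases hlj : l = j
        · subst hlj
          obtain ⟨r, hr⟩ := hanti A' hA' B hB
          have hr' : (loc l A' : Matrix (Idx k t) (Idx k t) F) * loc l B + loc l B * loc l A' =
              r • (1 : Matrix (Idx k t) (Idx k t) F) := by
            rw [← hlocmul, ← hlocmul, ← hlocadd, hr, hlocsmul, hloc1]
          have h := gamma_core two (loc l A' : Matrix (Idx k t) (Idx k t) F) (loc i A)
            (loc l B) s' s r hcomm.symm (hloccomm i l A B hij) hsqj hsqi hr' hss'
          rw [add_comm (loc l A' : Matrix (Idx k t) (Idx k t) F) (loc i A), ← hg] at h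
          rw [h]
          exact Submodule.add_mem _ (hiL l B hB) (Submodule.smul_mem _ _ hGL)
        · have c1 : (loc l B : Matrix (Idx k t) (Idx k t) F) * loc i A = loc i A * loc l B :=
            hloccomm l i B A hli
          have c2 : (loc l B : Matrix (Idx k t) (Idx k t) F) * loc j A' = loc j A' * loc l B :=
            hloccomm l j B A' hlj
          have e : (g : Matrix (Idx k t) (Idx k t) F) * loc l B *
              (g : Matrix (Idx k t) (Idx k t) F) = loc l B := by
            have e1 : (g : Matrix (Idx k t) (Idx k t) F) * loc l B =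
                loc l B * (g : Matrix (Idx k t) (Idx k t) F) := by
              rw [hg, add_mul, mul_add, c1, c2]
            rw [e1, mul_assoc, hGG, mul_one]
          rw [e]
          exact hiL l B hB
    | zero =>
      rw [mul_zero, zero_mul]
      exact Submodule.zero_mem _
    | add M N _ _ ihM ihN =>
      rw [mul_add, add_mul]
      exact Submodule.add_mem _ ihM ihN
    | smul c M _ ihM =>
      rw [mul_smul_comm, smul_mul_assoc]
      exact Submodule.smul_mem _ c ihM
  show ∀ M : Matrix (Idx k t) (Idx k t) F, M ∈ Lsp F k t ↔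
    (g : Matrix (Idx k t) (Idx k t) F) * M *
      ((g⁻¹ : GL (Idx k t) F) : Matrix (Idx k t) (Idx k t) F) ∈ Lsp F k t
  intro M
  rw [hinv]
  constructor
  · exact hconj M
  · intro h
    have h2 := hconj _ h
    have e : (g : Matrix (Idx k t) (Idx k t) F) *
        ((g : Matrix (Idx k t) (Idx k t) F) * M * (g : Matrix (Idx k t) (Idx k t) F)) *
        (g : Matrix (Idx k t) (Idx k t) F) = M := by
      calc (g : Matrix (Idx k t) (Idx k t) F) *
            ((g : Matrix (Idx k t) (Idx k t) F) * M * (g : Matrix (Idx k t) (Idx k t) F)) *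
            (g : Matrix (Idx k t) (Idx k t) F)
          = ((g : Matrix (Idx k t) (Idx k t) F) * (g : Matrix (Idx k t) (Idx k t) F)) * M *
            ((g : Matrix (Idx k t) (Idx k t) F) * (g : Matrix (Idx k t) (Idx k t) F)) := by
            simp only [mul_assoc]
        _ = M := by rw [hGG, one_mul, mul_one]
    rw [e] at h2
    exact h2

example : Cfsg.Agent.Lib.Helper96.TW.StGamma.{u} := gamma

end Cfsg.Agent.H86.TW
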