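import Mathlib
import Cfsg.Agent.Lib.Helper96.TWDefs
import Cfsg.Agent.H95.Quad

set_option autoImplicit false

/-! S5707 team project (helper96), piece ISO: isometry criterion on the standard basis. -/

namespace Cfsg.Agent.H86.TW

open Cfsg Cfsg.Geo Matrix
open Cfsg.Agent.Lib.Helper96.TW

universe u

/-- Two bilinear forms agreeing on all pairs of standard basis vectors are equal. -/
lemma bilin_ext_single {ι : Type} [Fintype ι] [DecidableEq ι] {F : Type u} [Field F]
    (f₁ f₂ : (ι → F) → (ι → F) → F) (h₁ : IsBilinearForm f₁) (h₂ : IsBilinearForm f₂)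
    (h : ∀ a b, f₁ (Pi.single a 1) (Pi.single b 1) = f₂ (Pi.single a 1) (Pi.single b 1)) :
    ∀ x y, f₁ x y = f₂ x y := by
  have single_eq : ∀ (b : ι) (s : F), (Pi.single b s : ι → F) = s • Pi.single b 1 := by
    intro b s
    rw [← Pi.single_smul]
    simp
  have step1 : ∀ a y, f₁ (Pi.single a 1) y = f₂ (Pi.single a 1) y := by
    intro a y
    let L₁ : (ι → F) →ₗ[F] F := IsLinearMap.mk' (fun y => f₁ (Pi.single a 1) y)
      ⟨h₁.add_right _, fun c x => by simpa using h₁.smul_right c _ x⟩
    let L₂ : (ι → F) →ₗ[F] F := IsLinearMap.mk' (fun y => f₂ (Pi.single a 1) y)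
      ⟨h₂.add_right _, fun c x => by simpa using h₂.smul_right c _ x⟩
    have e : L₁ = L₂ := by
      apply LinearMap.pi_ext
      intro b s
      show f₁ (Pi.single a 1) (Pi.single b s) = f₂ (Pi.single a 1) (Pi.single b s)
      rw [single_eq b s, h₁.smul_right, h₂.smul_right, h]
    exact congrArg (fun L : (ι → F) →ₗ[F] F => L y) e
  intro x y
  let L₁ : (ι → F) →ₗ[F] F := IsLinearMap.mk' (fun x => f₁ x y)
    ⟨fun x x' => h₁.add_left x x' y, fun c x => by simpa using h₁.smul_left c x y⟩
  let L₂ : (ι → F) →ₗ[F] F := IsLinearMap.mk' (fun x => f₂ x y)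
    ⟨fun x x' => h₂.add_left x x' y, fun c x => by simpa using h₂.smul_left c x y⟩
  have e : L₁ = L₂ := by
    apply LinearMap.pi_ext
    intro a s
    show f₁ (Pi.single a s) y = f₂ (Pi.single a s) y
    rw [single_eq a s, h₁.smul_left, h₂.smul_left, step1]
  exact congrArg (fun L : (ι → F) →ₗ[F] F => L x) e

theorem iso : Cfsg.Agent.Lib.Helper96.TW.StIso.{u} := by
  intro F _ k t Q c hSM g hpol hq
  rw [Cfsg.Agent.H95.mem_isometryGroup_iff]
  have hbil := hSM.nd.polar_bilinear
  have hbil' : IsBilinearForm (fun x y : Idx k t → F =>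
      QuadraticMap.polar Q ((g : Matrix (Idx k t) (Idx k t) F) *ᵥ x)
        ((g : Matrix (Idx k t) (Idx k t) F) *ᵥ y)) := by
    constructor
    · intro x y v
      simp only [Matrix.mulVec_add]
      exact hbil.add_left _ _ _
    · intro s x v
      simp only [Matrix.mulVec_smul]
      exact hbil.smul_left _ _ _
    · intro v x y
      simp only [Matrix.mulVec_add]
      exact hbil.add_right _ _ _
    · intro s v x
      simp only [Matrix.mulVec_smul]
      exact hbil.smul_right _ _ _
  have hpolar : ∀ x y : Idx k t → F,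
      QuadraticMap.polar Q ((g : Matrix (Idx k t) (Idx k t) F) *ᵥ x)
        ((g : Matrix (Idx k t) (Idx k t) F) *ᵥ y) = QuadraticMap.polar Q x y := by
    apply bilin_ext_single _ _ hbil' hbil
    intro a b
    show QuadraticMap.polar Q ((g : Matrix (Idx k t) (Idx k t) F) *ᵥ Pi.single a 1)
        ((g : Matrix (Idx k t) (Idx k t) F) *ᵥ Pi.single b 1) = _
    rw [hpol a b, hSM.polar]
    rw [Finset.sum_eq_single a]
    · by_cases hb : b = revI a
      · subst hb
        simp
      · rw [if_neg hb]
        have : (Pi.single b (1 : F) : Idx k t → F) (revI a) = 0 := by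
          rw [Pi.single_apply, if_neg (fun h => hb h.symm)]
        rw [this]
        simp
    · intro a' _ ha'
      rw [Pi.single_apply, if_neg ha']
      simp
    · intro h
      exact absurd (Finset.mem_univ a) h
  have hQ0 : Q 0 = 0 := Cfsg.Agent.H95.q_zero hSM.nd
  have key : ∀ (s : Finset (Idx k t)) (x : Idx k t → F),
      Q ((g : Matrix (Idx k t) (Idx k t) F) *ᵥ (∑ a ∈ s, x a • (Pi.single a 1 : Idx k t → F))) =
        Q (∑ a ∈ s, x a • (Pi.single a 1 : Idx k t → F)) := by
    intro s x
    induction s using Finset.induction_on with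
    | empty => simp
    | insert a s ha ih =>
      rw [Finset.sum_insert ha, Matrix.mulVec_add,
        Cfsg.Agent.H95.q_add Q ((g : Matrix (Idx k t) (Idx k t) F) *ᵥ
          (x a • (Pi.single a 1 : Idx k t → F))),
        Cfsg.Agent.H95.q_add Q (x a • (Pi.single a 1 : Idx k t → F)), ih, hpolar,
        Matrix.mulVec_smul, hSM.nd.smul, hSM.nd.smul, hq, hSM.basis]
  intro x
  have hx : x = ∑ a, x a • (Pi.single a 1 : Idx k t → F) := by
    ext b
    simp [Finset.sum_apply, Pi.single_apply]
  rw [hx]
  exact key _ _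

example : Cfsg.Agent.Lib.Helper96.TW.StIso.{u} := iso

end Cfsg.Agent.H86.TW
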