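import Mathlib
import Cfsg.Agent.H74.TsDefs
import Cfsg.Agent.H14.Thompson
import Cfsg.Agent.H86.TsJS

/-!
# TS-MJ (piece of S2948, helper74): `J(↥L)` lies in every normal subgroup of `↥L` containing
`J(T)`, `T` Sylow in `L`.

Every elementary abelian subgroup of largest order of `↥L` lies in `J(Q)` for a Sylow
2-subgroup `Q` of `↥L` (helper14), `Q` is a conjugate of `T.subgroupOf L`, and `J` commutes with
conjugation.
-/

set_option autoImplicit false

universe u

namespace Cfsg.Agent.H86.Ts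

open Cfsg Cfsg.Agent.H74.Ts

/-- The conjugate `g • P` of a Sylow subgroup as an image under conjugation. -/
theorem sylow_smul_coe_eq_map {X : Type u} [Group X] (g : X) (P : Sylow 2 X) :
    ((g • P : Sylow 2 X) : Subgroup X) = (P : Subgroup X).map (MulAut.conj g).toMonoidHom := by
  rw [Sylow.coe_subgroup_smul]
  ext x
  rw [Subgroup.mem_pointwise_smul_iff_inv_smul_mem, Subgroup.mem_map]
  have key : ∀ z : X, (MulAut.conj g)⁻¹ • z = g⁻¹ * z * g := by
    intro z
    rw [MulAut.smul_def, MulAut.conj_inv_apply]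
  constructor
  · intro h
    rw [key] at h
    refine ⟨g⁻¹ * x * g, h, ?_⟩
    show g * (g⁻¹ * x * g) * g⁻¹ = x
    group
  · rintro ⟨y, hy, rfl⟩
    rw [key]
    have h3 : g⁻¹ * ((MulAut.conj g).toMonoidHom y) * g = y := by
      show g⁻¹ * (g * y * g⁻¹) * g = y
      group
    rw [h3]
    exact hy

/-- **TS-MJ**. -/
theorem mj : StMJ.{u} := by
  intro G _ _ T L hTL N hN hJN
  obtain ⟨hle, hp, hodd⟩ := hTL
  have h2 : Fact (Nat.Prime 2) := ⟨Nat.prime_two⟩
  have hp' : IsPGroup 2 ↥(T.subgroupOf L) := hp.comap_subtype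
  have hodd' : Odd (T.subgroupOf L).index := hodd
  have hnd : ¬ 2 ∣ (T.subgroupOf L).index := fun h =>
    (Nat.not_even_iff_odd.mpr hodd') (even_iff_two_dvd.mpr h)
  set T' : Sylow 2 ↥L := hp'.toSylow hnd with hT'
  have hT'c : (T' : Subgroup ↥L) = T.subgroupOf L := rfl
  unfold thompsonSubgroup
  apply sSup_le
  intro A hA
  obtain ⟨Q, hAQ⟩ := Cfsg.Agent.H14.exists_sylow_le_thompsonSubgroupOf hA
  obtain ⟨g, hg⟩ := MulAction.exists_smul_eq ↥L T' Q
  have hQc : (Q : Subgroup ↥L) = (T.subgroupOf L).map (MulAut.conj g).toMonoidHom := by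
    rw [← hg, sylow_smul_coe_eq_map g T', hT'c]
  rw [hQc, ← Cfsg.Agent.H14.thompsonSubgroupOf_conj 2 g (T.subgroupOf L),
    thompsonOf_subgroupOf T L hle] at hAQ
  refine hAQ.trans ?_
  rintro _ ⟨y, hy, rfl⟩
  exact hN.conj_mem y (hJN hy) g

end Cfsg.Agent.H86.Ts

example : Cfsg.Agent.H74.Ts.StMJ.{u} := Cfsg.Agent.H86.Ts.mj.{u}
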